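import Mathlib
import Cfsg.Prelude.Def_GeometricClasses
import Cfsg.Prelude.Def_Classical

set_option autoImplicit false

namespace Cfsg.Agent.Helper78

open Module

/-- Piece InvCompl of CALL S5996: an isometry stabilising a nondegenerate subspace stabilises
a complement (the orthogonal complement). -/
theorem exists_invariant_compl {F : Type*} [Field F] {ι : Type} [Fintype ι] [DecidableEq ι]
    (Q : QuadraticForm F (ι → F)) (A : Matrix ι ι F) (hA : ∀ v, Q (A.mulVec v) = Q v)
    (W : Submodule F (ι → F)) (hW : W.map (Matrix.toLin' A) ≤ W)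
    (hnd : Cfsg.Geo.IsNondegenerateOn (QuadraticMap.polar ⇑Q) W) :
    ∃ W' : Submodule F (ι → F), IsCompl W W' ∧ W'.map (Matrix.toLin' A) ≤ W' := by
  classical
  set B : LinearMap.BilinForm F (ι → F) := QuadraticMap.polarBilin Q with hB
  have hBapp : ∀ x y, B x y = QuadraticMap.polar (⇑Q) x y := fun x y => rfl
  have hrefl : B.IsRefl := by
    intro x y h
    rw [hBapp] at h ⊢
    rw [QuadraticMap.polar_comm]; exact h
  -- A preserves the polar form
  have hpol : ∀ x y, QuadraticMap.polar (⇑Q) (A.mulVec x) (A.mulVec y)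
      = QuadraticMap.polar (⇑Q) x y := by
    intro x y
    unfold QuadraticMap.polar
    rw [← Matrix.mulVec_add, hA, hA, hA]
  have hWm : ∀ w ∈ W, A.mulVec w ∈ W := by
    intro w hw
    apply hW
    exact ⟨w, hw, by simp [Matrix.toLin'_apply]⟩
  -- the restriction of A to W
  let f : W →ₗ[F] W := (Matrix.toLin' A).restrict (p := W) (q := W)
    (fun w hw => by simpa [Matrix.toLin'_apply] using hWm w hw)
  have hfapp : ∀ w : W, ((f w : W) : ι → F) = A.mulVec (w : ι → F) := by
    intro w; simp [f, LinearMap.restrict_apply, Matrix.toLin'_apply]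
  have hinj : Function.Injective f := by
    rw [← LinearMap.ker_eq_bot, LinearMap.ker_eq_bot']
    intro w hw
    by_contra hne
    have hne' : (w : ι → F) ≠ 0 := fun h => hne (Subtype.ext h)
    obtain ⟨⟨x, hx, hx'⟩, -⟩ := hnd (w : ι → F) w.2 hne'
    apply hx'
    rw [← hpol]
    have : A.mulVec (w : ι → F) = 0 := by
      rw [← hfapp, hw]; rfl
    rw [this]
    simp [QuadraticMap.polar]
  have hsurj : Function.Surjective f := LinearMap.injective_iff_surjective.mp hinj
  refine ⟨B.orthogonal W, ?_, ?_⟩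
  · rw [LinearMap.BilinForm.isCompl_orthogonal_iff_disjoint hrefl]
    rw [Submodule.disjoint_def]
    intro x hx hx'
    by_contra hne
    obtain ⟨⟨y, hy, hy'⟩, -⟩ := hnd x hx hne
    apply hy'
    have := hx' y hy
    rw [hBapp] at this
    exact this
  · rintro _ ⟨v, hv, rfl⟩
    intro w hw
    show B w ((Matrix.toLin' A) v) = 0
    rw [hBapp]
    obtain ⟨w₀, hw₀⟩ := hsurj ⟨w, hw⟩
    have hw' : w = A.mulVec (w₀ : ι → F) := by
      rw [← hfapp, hw₀]
    rw [hw', Matrix.toLin'_apply, hpol]
    have := hv (w₀ : ι → F) w₀.2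
    rw [hBapp] at this
    exact this

end Cfsg.Agent.Helper78
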