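import Mathlib
import Cfsg.Prelude.Def_Characters
import Cfsg.Prelude.Def_Blocks
import Cfsg.Agent.Helper15.CD3Leaves
import Cfsg.Agent.Helper15.RamGen
import Cfsg.Agent.Helper15.CharInner
import Cfsg.Agent.Helper79.Basic
import Cfsg.Agent.Helper79.Induced
import Cfsg.Agent.Helper81.CharBasic
import Cfsg.Agent.Helper82.SimpleDeg
import Cfsg.Agent.Helper75.CliffordCorr
import Cfsg.Agent.Helper3.IndFun
import Cfsg.Agent.Helper3.Induced

set_option autoImplicit false

namespace Cfsg.Agent.Helper78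

open Cfsg

universe u

/-- An element outside `K` of `p`-power order, when `N / K` is a `p`-group. -/
theorem cd3B_exists_ppow {N : Type u} [Group N] [Finite N] (K : Subgroup N) (p : ℕ)
    (hp : p.Prime) (x : N) (hx : x ∉ K) (k : ℕ) (hxk : x ^ p ^ k ∈ K) :
    ∃ y : N, y ∉ K ∧ ∃ a : ℕ, orderOf y = p ^ a := by
  have hn : orderOf x ≠ 0 := (orderOf_pos x).ne'
  obtain ⟨a, t, hpt, hnt⟩ := Nat.exists_eq_pow_mul_and_not_dvd hn p hp.ne_one
  have ht0 : t ≠ 0 := by
    rintro rfl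
    exact hpt (dvd_zero p)
  refine ⟨x ^ t, ?_, a, ?_⟩
  · intro hy
    apply hx
    have hcop : Nat.Coprime t (p ^ k) :=
      Nat.Coprime.pow_right k ((Nat.Prime.coprime_iff_not_dvd hp).mpr hpt).symm
    have hb := Int.gcd_eq_gcd_ab (t : ℤ) ((p ^ k : ℕ) : ℤ)
    have hg : Int.gcd (t : ℤ) ((p ^ k : ℕ) : ℤ) = 1 := by
      rw [Int.gcd_natCast_natCast]; exact hcop
    rw [hg] at hb
    have h1 : x = (x ^ t) ^ (Int.gcdA (t : ℤ) ((p ^ k : ℕ) : ℤ))
        * (x ^ p ^ k) ^ (Int.gcdB (t : ℤ) ((p ^ k : ℕ) : ℤ)) := by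
      rw [← zpow_natCast x t, ← zpow_natCast x (p ^ k), ← zpow_mul, ← zpow_mul, ← zpow_add,
        ← hb]
      simp
    rw [h1]
    exact K.mul_mem (K.zpow_mem hy _) (K.zpow_mem hxk _)
  · rw [orderOf_pow' x ht0, hnt]
    have : Nat.gcd (p ^ a * t) t = t := Nat.gcd_eq_right (Dvd.intro_left _ rfl)
    rw [this]
    exact Nat.mul_div_cancel _ (Nat.pos_of_ne_zero ht0)

/-- Piece P9 of CALL S4460 (the Frobenius case of Isaacs 12.15). -/
theorem cd3_caseB {G : Type u} [Group G] [Finite G] (N K : Subgroup G) [N.Normal] [K.Normal]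
    (hKN : K ≤ N) (hab : ∀ x y : G, x * y * x⁻¹ * y⁻¹ ∈ N)
    (hNK : ∀ x ∈ N, ∀ y ∈ N, x * y * x⁻¹ * y⁻¹ ∈ K)
    (p : ℕ) (hp : p.Prime) (hpNK : ∀ x ∈ N, ∃ k : ℕ, x ^ p ^ k ∈ K) (hne : K ≠ N)
    (hpf : ¬ p ∣ N.index) (hf : N.index ≠ 1)
    (hfp : ∀ g : G, g ∉ N → ∀ x ∈ N, g * x * g⁻¹ * x⁻¹ ∈ K → x ∈ K)
    (d : ℕ) (hd : d ≠ 1) (hcop : Nat.Coprime N.index d)
    (hcd : ∀ χ : IrrCharacter G, charDegree (χ : G → ℂ) = 1 ∨
      charDegree (χ : G → ℂ) = N.index ∨ charDegree (χ : G → ℂ) = d)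
    (ψ : IrrCharacter N) : charDegree (ψ : N → ℂ) = 1 ∨ charDegree (ψ : N → ℂ) = d := by
  classical
  have : Fintype G := Fintype.ofFinite G
  have : Fintype N := Fintype.ofFinite N
  by_cases h1 : charDegree (ψ : N → ℂ) = 1
  · left; exact h1
  right
  have hψirr : IsIrrCharacter N (ψ : N → ℂ) := ψ.2
  have hψc : IsCharacter N (ψ : N → ℂ) := Helper15.isChar_of_irr hψirr
  have hψcf : IsClassFunction N (ψ : N → ℂ) := Helper79.isCharacter_isClassFunction hψc
  have hψpos : 0 < charDegree (ψ : N → ℂ) := Helper81.charDegree_pos ψ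
  -- (i) every twist of ψ is fixed by some element outside N
  have hfix : ∀ μ : N →* ℂˣ, (∀ x : N, (x : G) ∈ K → μ x = 1) →
      ∃ g : G, g ∉ N ∧ Helper75.conjFun N g (fun x => (ψ : N → ℂ) x * ((μ x : ℂˣ) : ℂ)) =
        fun x => (ψ : N → ℂ) x * ((μ x : ℂˣ) : ℂ) := by
    intro μ hμ
    by_contra hcon
    push Not at hcon
    have htw : IsIrrCharacter N (fun x => (ψ : N → ℂ) x * ((μ x : ℂˣ) : ℂ)) := by
      have h := Helper79.isIrrCharacter_twist μ hψirr
      have he : (fun x => (ψ : N → ℂ) x * ((μ x : ℂˣ) : ℂ))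
          = fun g => ((μ g : ℂˣ) : ℂ) * (ψ : N → ℂ) g := by
        funext x; rw [mul_comm]
      rw [he]; exact h
    have hind : IsIrrCharacter G (indFun N (fun x => (ψ : N → ℂ) x * ((μ x : ℂˣ) : ℂ))) :=
      Helper15.cd3_ind_irr N _ htw (fun g hg => by
        by_contra hgN
        exact hcon g hgN hg)
    have hdeg := Helper79.charDegree_indFun N (Helper15.isChar_of_irr htw)
    have hdeg2 : charDegree (fun x : N => (ψ : N → ℂ) x * ((μ x : ℂˣ) : ℂ))
        = charDegree (ψ : N → ℂ) := by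
      unfold charDegree
      simp
    rw [hdeg2] at hdeg
    rcases hcd ⟨_, hind⟩ with h | h | h
    · rw [hdeg] at h
      exact hf (Nat.eq_one_of_mul_eq_one_right h)
    · rw [hdeg] at h
      have hidx : 0 < N.index := Nat.pos_of_ne_zero (Subgroup.index_ne_zero_of_finite)
      have : charDegree (ψ : N → ℂ) = 1 := by
        have h' : N.index * charDegree (ψ : N → ℂ) = N.index * 1 := by rw [h, mul_one]
        exact Nat.eq_of_mul_eq_mul_left hidx h'
      exact h1 this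
    · rw [hdeg] at h
      have hdvd : N.index ∣ d := ⟨_, h.symm⟩
      have : N.index = 1 := Nat.Coprime.eq_one_of_dvd hcop hdvd
      exact hf this
  -- (ii) ψ vanishes off K
  have hvan : ∀ x : N, (x : G) ∉ K → (ψ : N → ℂ) x = 0 := by
    intro x hx
    obtain ⟨μ, hμ, hμx⟩ := Helper15.cd3_exists_hom_sep N K hKN hNK x hx
    have hW := Helper15.cd3_lemmaW N K hKN hab
      (fun g hg μ hμ hfixμ => Helper15.cd3_fpf_dual N K hKN hNK hfp g hg μ hμ hfixμ)
      (ψ : N → ℂ) hψcf hfix μ hμ x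
    by_contra h0
    apply hμx
    have h2 : ((μ x : ℂˣ) : ℂ) = 1 := by
      have h3 : (ψ : N → ℂ) x * (((μ x : ℂˣ) : ℂ) - 1) = 0 := by linear_combination hW
      rcases mul_eq_zero.mp h3 with h | h
      · exact absurd h h0
      · linear_combination h
    exact Units.ext h2
  -- (iii) an element of p-power order outside K
  obtain ⟨x₀, hx₀N, hx₀K⟩ : ∃ x, x ∈ N ∧ x ∉ K := by
    by_contra hcon
    push Not at hcon
    exact hne (le_antisymm hKN hcon)
  obtain ⟨k, hk⟩ := hpNK x₀ hx₀N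
  obtain ⟨y, hyK, a, hya⟩ := cd3B_exists_ppow (K.subgroupOf N) p hp ⟨x₀, hx₀N⟩
    (by rw [Subgroup.mem_subgroupOf]; exact hx₀K)
    k (by rw [Subgroup.mem_subgroupOf]; simpa using hk)
  have hyK' : (y : G) ∉ K := by
    rw [Subgroup.mem_subgroupOf] at hyK; exact hyK
  have hpdvd : p ∣ charDegree (ψ : N → ℂ) := by
    by_contra hnd
    exact Helper82.sd_ne_zero_of_prime_pow_order ψ p hp hnd y ⟨a, hya⟩ (hvan y hyK')
  -- (iv) a character of G over ψ
  obtain ⟨χ, hχirr, hχψ⟩ : ∃ χ : G → ℂ, IsIrrCharacter G χ ∧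
      classInner (fun n : N => χ n) (ψ : N → ℂ) ≠ 0 := by
    have hind := Helper3.isCharacter_indFun N (ψ : N → ℂ) hψc
    have h1' : indFun N (ψ : N → ℂ) 1 ≠ 0 := by
      rw [Helper79.isCharacter_one_eq_charDegree hind, Helper79.charDegree_indFun N hψc]
      have hidx : N.index ≠ 0 := Subgroup.index_ne_zero_of_finite
      exact_mod_cast Nat.mul_ne_zero hidx hψpos.ne'
    obtain ⟨χ, hχ, hne'⟩ := Helper75.exists_irr_constituent hind h1'
    refine ⟨χ, hχ, ?_⟩
    rw [Helper3.frobenius_reciprocity N (ψ : N → ℂ) χ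
      (Helper79.isCharacter_isClassFunction (Helper15.isChar_of_irr hχ))] at hne'
    rw [Helper79.classInner_conj_symm]
    intro h0
    apply hne'
    simpa using h0
  obtain ⟨k', hk1, hk2⟩ := Helper15.degree_eq_mul_of_constituent N χ hχirr (ψ : N → ℂ) hψirr hχψ
  have hk1' : charDegree χ = k' * charDegree (ψ : N → ℂ) := by
    have e1 := Helper81.irr_one_eq_charDegree (⟨χ, hχirr⟩ : IrrCharacter G)
    have e2 := Helper81.irr_one_eq_charDegree ψ
    simp only at e1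
    rw [e1, e2] at hk1
    exact_mod_cast hk1
  have hpχ : p ∣ charDegree χ := by rw [hk1']; exact Dvd.dvd.mul_left hpdvd k'
  rcases hcd ⟨χ, hχirr⟩ with h | h | h
  · simp only at h
    rw [h] at hpχ
    exact absurd (Nat.dvd_one.mp hpχ) hp.ne_one
  · simp only at h
    rw [h] at hpχ
    exact absurd hpχ hpf
  · simp only at h
    rw [h] at hk1'
    have hkd : k' ∣ d := ⟨_, hk1'⟩
    have hk'1 : k' = 1 := by
      have hg : k' ∣ Nat.gcd N.index d := Nat.dvd_gcd hk2 hkd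
      rw [hcop] at hg
      exact Nat.dvd_one.mp hg
    rw [hk'1, one_mul] at hk1'
    exact hk1'.symm

end Cfsg.Agent.Helper78
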