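import Cfsg.Agent.Helper35.Coprime

/-!
Piece QT of CALL BG15 (helper25): the hypotheses of the pure theorem pass to `Γ ⧸ N` for a
normal `q'`-subgroup `N ≤ L`.
-/

set_option autoImplicit false

namespace Cfsg.Agent.Helper78

open Cfsg Subgroup

universe u

section Pure

variable {Γ : Type u} [Group Γ] [Finite Γ]

/-- QT. The hypotheses pass to `Γ ⧸ N` for a normal `q'`-subgroup `N ≤ L`
(fixed points lift by `Helper35.exists_fixed_in_coset`, A := zpowers k). -/
theorem bg15_quot_transfer (hodd : Odd (Nat.card Γ)) (L N : Subgroup Γ) [L.Normal] [N.Normal]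
    (hNL : N ≤ L) (hsol : Group.IsSolvable ↥L) {p q : ℕ} (hp : p.Prime) (hq : q.Prime)
    (hNq : (Nat.card N).Coprime q) {k z : Γ} (hkp : k ^ p = 1) (hpL : ¬ p ∣ Nat.card L)
    (hzL : z ∈ L) (hzq : orderOf z = q) (hzk : k * z = z * k)
    (hfix : ∀ a ∈ L, k * a = a * k → a ∈ zpowers z) :
    Odd (Nat.card (Γ ⧸ N)) ∧ Group.IsSolvable ↥(L.map (QuotientGroup.mk' N)) ∧
      (QuotientGroup.mk' N k) ^ p = 1 ∧ ¬ p ∣ Nat.card ↥(L.map (QuotientGroup.mk' N)) ∧
      QuotientGroup.mk' N z ∈ L.map (QuotientGroup.mk' N) ∧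
      orderOf (QuotientGroup.mk' N z) = q ∧
      QuotientGroup.mk' N k * QuotientGroup.mk' N z =
        QuotientGroup.mk' N z * QuotientGroup.mk' N k ∧
      ∀ a ∈ L.map (QuotientGroup.mk' N),
        QuotientGroup.mk' N k * a = a * QuotientGroup.mk' N k →
          a ∈ zpowers (QuotientGroup.mk' N z) := by
  have hker : ∀ x : Γ, QuotientGroup.mk' N x = 1 ↔ x ∈ N := fun x => by
    rw [← MonoidHom.mem_ker, QuotientGroup.ker_mk']
  refine ⟨?_, ?_, ?_, ?_, ?_, ?_, ?_, ?_⟩
  · -- oddness
    have h1 : Nat.card Γ = Nat.card (Γ ⧸ N) * Nat.card N :=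
      Subgroup.card_eq_card_quotient_mul_card_subgroup N
    rw [h1] at hodd
    exact (Nat.odd_mul.mp hodd).1
  · -- solvability
    have := hsol
    exact Group.isSolvable_of_surjective ((QuotientGroup.mk' N).subgroupMap_surjective L)
  · rw [← map_pow, hkp, map_one]
  · intro h
    exact hpL (h.trans (Subgroup.card_map_dvd L (QuotientGroup.mk' N)))
  · exact Subgroup.mem_map_of_mem _ hzL
  · -- the order of the image of `z`
    have h1 : orderOf (QuotientGroup.mk' N z) ∣ q := by
      rw [← hzq]; exact orderOf_map_dvd _ z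
    rcases (Nat.dvd_prime hq).mp h1 with h2 | h2
    · exfalso
      rw [orderOf_eq_one_iff, hker] at h2
      have h3 : orderOf (⟨z, h2⟩ : ↥N) ∣ Nat.card N := orderOf_dvd_natCard _
      have h4 : orderOf (⟨z, h2⟩ : ↥N) = q := by
        rw [← hzq, ← Subgroup.orderOf_coe]
      rw [h4] at h3
      have h5 : q ∣ Nat.gcd (Nat.card N) q := Nat.dvd_gcd h3 dvd_rfl
      rw [Nat.Coprime] at hNq
      rw [hNq] at h5
      exact hq.one_lt.ne' (Nat.dvd_one.mp h5)
    · exact h2
  · rw [← map_mul, hzk, map_mul]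
  · -- fixed points lift
    rintro a ⟨x, hxL, rfl⟩ hcomm
    have hAN : zpowers k ≤ normalizer (N : Set Γ) := by
      rw [Subgroup.normalizer_eq_top]; exact le_top
    have hordk : orderOf k ∣ p := orderOf_dvd_of_pow_eq_one hkp
    have hpN : ¬ p ∣ Nat.card N := fun h => hpL (h.trans (Subgroup.card_dvd_of_le hNL))
    have hcop : (Nat.card (zpowers k)).Coprime (Nat.card N) := by
      rw [Nat.card_zpowers]
      rcases (Nat.dvd_prime hp).mp hordk with h | h
      · rw [h]; exact Nat.coprime_one_left _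
      · rw [h]; exact (Nat.Prime.coprime_iff_not_dvd hp).mpr hpN
    have hsolv : Group.IsSolvable (zpowers k) ∨ Group.IsSolvable N := by
      left
      apply Group.isSolvable_of_comm
      rintro ⟨a, ha⟩ ⟨b, hb⟩
      obtain ⟨m, rfl⟩ := ha
      obtain ⟨n, rfl⟩ := hb
      apply Subtype.ext
      show k ^ m * k ^ n = k ^ n * k ^ m
      rw [← zpow_add, ← zpow_add, add_comm]
    have hx : ∀ a ∈ zpowers k, x⁻¹ * a * x * a⁻¹ ∈ N := by
      rintro a ⟨m, rfl⟩
      rw [← hker, map_mul, map_mul, map_mul, map_inv, map_inv, map_zpow]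
      have h1 : Commute (QuotientGroup.mk' N k) (QuotientGroup.mk' N x) := hcomm
      have h2 := (h1.zpow_left m).eq
      rw [mul_assoc ((QuotientGroup.mk' N x)⁻¹), h2]
      group
    obtain ⟨c, hc, hcN⟩ := Cfsg.Agent.Helper35.exists_fixed_in_coset hAN hcop hsolv x hx
    have hck : k * c = c * k := by
      have := (Subgroup.mem_centralizer_iff.mp hc) k (Subgroup.mem_zpowers k)
      exact this
    have hcL : c ∈ L := by
      have e : c = x * (x⁻¹ * c) := by group
      rw [e]
      exact L.mul_mem hxL (hNL hcN)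
    obtain ⟨m, hm⟩ := hfix c hcL hck
    have e1 : QuotientGroup.mk' N x = QuotientGroup.mk' N c := by
      have h1 := (hker _).mpr hcN
      rw [map_mul, map_inv] at h1
      exact (inv_mul_eq_one.mp h1)
    rw [e1, ← hm, map_zpow]
    exact Subgroup.zpow_mem_zpowers _ m

end Pure

end Cfsg.Agent.Helper78
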