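-- helper78 library: piece AR4 of CALL S5976 (helper35), pure arithmetic.
import Mathlib

set_option autoImplicit false

namespace Cfsg.Agent.Helper78

/-- PIECE AR4 -/
theorem c3u_ar4 (r q i c m : ℕ) [Fact r.Prime] (hr2 : 2 < r) (hq : 0 < q) (hrq : ¬ r ∣ q)
    (hi : i = orderOf ((q : ℕ) : ZMod r)) (hi0 : 0 < i) (hi4 : Odd i ∨ 4 ∣ i)
    (hc : c = if Even i then i else 2 * i) (hcm : c = 2 * m) :
    ¬ r ∣ q ^ (m * (m - 1) / 2) *
      ∏ t ∈ Finset.range m, (if Even t then q ^ (t + 1) + 1 else q ^ (t + 1) - 1) := by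
  have hr : r.Prime := Fact.out
  intro hdiv
  rcases (Nat.Prime.dvd_mul hr).mp hdiv with h | h
  · exact hrq (hr.dvd_of_dvd_pow h)
  · obtain ⟨t, ht, hdt⟩ := (Prime.dvd_finsetProd_iff (Nat.Prime.prime hr) _).mp h
    have htm : t < m := Finset.mem_range.mp ht
    have hpow1 : 1 ≤ q ^ (t + 1) := Nat.one_le_pow _ _ hq
    have hne : (1 : ZMod r) ≠ -1 := by
      intro h1
      have h2 : ((2 : ℕ) : ZMod r) = 0 := by
        have h3 : (2 : ZMod r) = 0 := by linear_combination h1
        exact_mod_cast h3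
      have h4 : r ∣ 2 := (ZMod.natCast_eq_zero_iff 2 r).mp h2
      have h5 := Nat.le_of_dvd (by norm_num) h4
      omega
    by_cases hev : Even t
    · rw [if_pos hev] at hdt
      have h10 : ((q ^ (t + 1) + 1 : ℕ) : ZMod r) = 0 := (ZMod.natCast_eq_zero_iff _ _).mpr hdt
      rw [Nat.cast_add, Nat.cast_pow, Nat.cast_one] at h10
      have h11 : (q : ZMod r) ^ (t + 1) = -1 := eq_neg_of_add_eq_zero_left h10
      have h12 : (q : ZMod r) ^ ((t + 1) * 2) = 1 := by rw [pow_mul, h11]; norm_num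
      have h13 : i ∣ (t + 1) * 2 := by rw [hi]; exact orderOf_dvd_of_pow_eq_one h12
      rcases hi4 with hodd | h4
      · have hcop : Nat.Coprime i 2 := Nat.coprime_two_right.mpr hodd
        have h14 : i ∣ t + 1 := hcop.dvd_of_dvd_mul_right h13
        have h15 : (q : ZMod r) ^ (t + 1) = 1 := by
          rw [hi] at h14; exact orderOf_dvd_iff_pow_eq_one.mp h14
        rw [h11] at h15
        exact hne h15.symm
      · have hieven : Even i := by obtain ⟨k, hk⟩ := h4; exact ⟨2 * k, by omega⟩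
        rw [if_pos hieven] at hc
        have h16 : i ≤ (t + 1) * 2 := Nat.le_of_dvd (by omega) h13
        have h17 : (t + 1) * 2 = i := by omega
        obtain ⟨k, hk⟩ := h4
        obtain ⟨s, hs⟩ := hev
        omega
    · rw [if_neg hev] at hdt
      have h10 : ((q ^ (t + 1) - 1 : ℕ) : ZMod r) = 0 := (ZMod.natCast_eq_zero_iff _ _).mpr hdt
      rw [Nat.cast_sub hpow1, Nat.cast_pow, Nat.cast_one, sub_eq_zero] at h10
      have h13 : i ∣ t + 1 := by rw [hi]; exact orderOf_dvd_of_pow_eq_one h10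
      have h16 : i ≤ t + 1 := Nat.le_of_dvd (by omega) h13
      have hodd : Odd t := Nat.not_even_iff_odd.mp hev
      rcases hi4 with hiodd | h4
      · have hnev : ¬ Even i := Nat.not_even_iff_odd.mpr hiodd
        rw [if_neg hnev] at hc
        obtain ⟨a, ha⟩ := hiodd
        obtain ⟨b, hb⟩ := hodd
        omega
      · have hieven : Even i := by obtain ⟨k, hk⟩ := h4; exact ⟨2 * k, by omega⟩
        rw [if_pos hieven] at hc
        omega

end Cfsg.Agent.Helper78
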