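import Mathlib

set_option autoImplicit false

namespace Cfsg.Agent.Helper78

open Module

/-- Finite-field input for the isometry of two anisotropic planes `a² + ab + ζ b²`. -/
theorem iso_alpha_beta {F : Type*} [Field F] [Finite F] (ζ ζ' : F)
    (h : ∀ t : F, t ^ 2 + t + ζ ≠ 0) (h' : ∀ t : F, t ^ 2 + t + ζ' ≠ 0) :
    ∃ α β : F, 2 * α + β = 1 ∧ α ^ 2 + α * β + ζ * β ^ 2 = ζ' := by
  classical
  have : Fintype F := Fintype.ofFinite F
  by_cases h2 : (2 : F) = 0
  · -- characteristic two: Artin–Schreier
    let φ : F →+ F := AddMonoidHom.mk' (fun s => s ^ 2 + s) (by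
      intro a b; linear_combination (a * b) * h2)
    have hφ : ∀ s, φ s = s ^ 2 + s := fun s => rfl
    have hker : Nat.card φ.ker = 2 := by
      rw [Nat.card_eq_two_iff]
      refine ⟨⟨0, by simp [AddMonoidHom.mem_ker, hφ]⟩,
        ⟨1, by rw [AddMonoidHom.mem_ker, hφ]; linear_combination h2⟩, ?_, ?_⟩
      · intro hh
        have := congrArg Subtype.val hh
        simp at this
      · ext ⟨x, hx⟩
        simp only [Set.mem_insert_iff, Set.mem_singleton_iff, Set.mem_univ, iff_true,
          Subtype.mk.injEq]
        rw [AddMonoidHom.mem_ker, hφ] at hx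
        have : x * (x + 1) = 0 := by linear_combination hx
        rcases mul_eq_zero.mp this with h0 | h1
        · left; exact h0
        · right; linear_combination h1 - h2
    have hidx : φ.range.index = 2 := by
      rw [AddSubgroup.index_range, hker]
    have hz : ζ ∉ φ.range := by
      rintro ⟨s, hs⟩
      rw [hφ] at hs
      apply h s
      rw [hs]; linear_combination ζ * h2
    have hz' : ζ' ∉ φ.range := by
      rintro ⟨s, hs⟩
      rw [hφ] at hs
      apply h' s
      rw [hs]; linear_combination ζ' * h2
    have hmem : ζ + ζ' ∈ φ.range := by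
      rw [AddSubgroup.add_mem_iff_of_index_two hidx]
      exact ⟨fun hh => absurd hh hz, fun hh => absurd hh hz'⟩
    obtain ⟨s, hs⟩ := hmem
    rw [hφ] at hs
    refine ⟨s, 1, ?_, ?_⟩
    · linear_combination s * h2
    · linear_combination hs + ζ * h2
  · -- odd characteristic: discriminants are non-squares
    have hd : ¬ IsSquare (1 - 4 * ζ) := by
      rintro ⟨r, hr⟩
      apply h ((r - 1) / 2)
      field_simp
      linear_combination -hr
    have hd' : ¬ IsSquare (1 - 4 * ζ') := by
      rintro ⟨r, hr⟩
      apply h' ((r - 1) / 2)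
      field_simp
      linear_combination -hr
    have hd0 : (1 - 4 * ζ) ≠ 0 := by
      intro h0; apply hd; rw [h0]; exact ⟨0, by simp⟩
    have hd0' : (1 - 4 * ζ') ≠ 0 := by
      intro h0; apply hd'; rw [h0]; exact ⟨0, by simp⟩
    have hsq : IsSquare ((1 - 4 * ζ) * (1 - 4 * ζ')) := by
      rw [← quadraticChar_one_iff_isSquare (mul_ne_zero hd0 hd0'), map_mul,
        quadraticChar_neg_one_iff_not_isSquare.mpr hd,
        quadraticChar_neg_one_iff_not_isSquare.mpr hd']
      norm_num
    obtain ⟨r, hr⟩ := hsq
    obtain ⟨c, hc⟩ : ∃ c : F, c * c * (1 - 4 * ζ) = 1 - 4 * ζ' := by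
      refine ⟨r / (1 - 4 * ζ), ?_⟩
      field_simp
      linear_combination (-(1 : F)) * hr
    obtain ⟨α, hα⟩ : ∃ α : F, 2 * α = 1 - c := ⟨(1 - c) / 2, by field_simp⟩
    refine ⟨α, c, ?_, ?_⟩
    · linear_combination hα
    · have h4 : (4 : F) ≠ 0 := by
        have : (4 : F) = 2 * 2 := by norm_num
        rw [this]; exact mul_ne_zero h2 h2
      apply mul_left_cancel₀ h4
      linear_combination (2 * α + (1 - c) + 2 * c) * hα - hc

/-- Two quadratic forms agreeing on a basis (values and polar values) are equal. -/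
theorem qf_eq_of_basis {F V ι' : Type*} [Field F] [AddCommGroup V] [Module F V]
    (b : Basis ι' F V) (Q₁ Q₂ : QuadraticForm F V) (h1 : ∀ i, Q₁ (b i) = Q₂ (b i))
    (h2 : ∀ i j, QuadraticMap.polar Q₁ (b i) (b j) = QuadraticMap.polar Q₂ (b i) (b j)) :
    ∀ v, Q₁ v = Q₂ v := by
  have hpol : QuadraticMap.polarBilin Q₁ = QuadraticMap.polarBilin Q₂ :=
    LinearMap.BilinForm.ext_basis b (fun i j => h2 i j)
  have hpol' : ∀ x y, QuadraticMap.polar Q₁ x y = QuadraticMap.polar Q₂ x y := by
    intro x y
    have := congrArg (fun B : LinearMap.BilinForm F V => B x y) hpol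
    simpa using this
  intro v
  have hv : v ∈ Submodule.span F (Set.range b) := by rw [b.span_eq]; trivial
  induction hv using Submodule.span_induction with
  | mem x hx =>
    obtain ⟨i, rfl⟩ := hx
    exact h1 i
  | zero => simp
  | add x y _ _ hx hy =>
    rw [QuadraticMap.map_add Q₁ x y, QuadraticMap.map_add Q₂ x y, hx, hy, hpol']
  | smul a x _ hx =>
    rw [QuadraticMap.map_smul, QuadraticMap.map_smul, hx]

/-- A form-preserving linear map between spaces of the same dimension, the source being
nondegenerate, is an isometric isomorphism. -/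
theorem isom_of_preserving {F V V' : Type*} [Field F] [AddCommGroup V] [Module F V]
    [FiniteDimensional F V] [AddCommGroup V'] [Module F V'] [FiniteDimensional F V']
    (Q : QuadraticForm F V) (Q' : QuadraticForm F V')
    (hQ : (QuadraticMap.polarBilin Q).Nondegenerate) (hdim : finrank F V = finrank F V')
    (g : V →ₗ[F] V') (hg : ∀ v, Q' (g v) = Q v) :
    ∃ e : V ≃ₗ[F] V', ∀ v, Q' (e v) = Q v := by
  have hpol : ∀ v w, QuadraticMap.polar Q' (g v) (g w) = QuadraticMap.polar Q v w := by
    intro v w
    unfold QuadraticMap.polar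
    rw [← map_add, hg, hg, hg]
  have hinj : Function.Injective g := by
    rw [← LinearMap.ker_eq_bot, LinearMap.ker_eq_bot']
    intro v hv
    apply hQ.1
    intro w
    show QuadraticMap.polar Q v w = 0
    rw [← hpol, hv]
    simp [QuadraticMap.polar]
  exact ⟨g.linearEquivOfInjective hinj hdim, fun v => by
    rw [LinearMap.linearEquivOfInjective_apply]; exact hg v⟩

/-- `Q` and its polar form vanish on the span of pairwise orthogonal singular vectors. -/
theorem qzero_span {F V : Type*} [Field F] [AddCommGroup V] [Module F V]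
    (Q : QuadraticForm F V) (S : Set V) (h1 : ∀ s ∈ S, Q s = 0)
    (h2 : ∀ s ∈ S, ∀ t ∈ S, QuadraticMap.polar Q s t = 0) :
    (∀ u ∈ Submodule.span F S, ∀ v ∈ Submodule.span F S, QuadraticMap.polar Q u v = 0) ∧
      ∀ u ∈ Submodule.span F S, Q u = 0 := by
  have hA : ∀ u ∈ Submodule.span F S, ∀ t ∈ S, QuadraticMap.polar Q u t = 0 := by
    intro u hu t ht
    induction hu using Submodule.span_induction with
    | mem x hx => exact h2 x hx t ht
    | zero => simp
    | add x y _ _ hx hy => rw [QuadraticMap.polar_add_left, hx, hy, add_zero]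
    | smul a x _ hx => rw [QuadraticMap.polar_smul_left, hx, smul_zero]
  have hB : ∀ u ∈ Submodule.span F S, ∀ v ∈ Submodule.span F S,
      QuadraticMap.polar Q u v = 0 := by
    intro u hu v hv
    induction hv using Submodule.span_induction with
    | mem x hx => exact hA u hu x hx
    | zero => simp
    | add x y _ _ hx hy => rw [QuadraticMap.polar_add_right, hx, hy, add_zero]
    | smul a x _ hx => rw [QuadraticMap.polar_smul_right, hx, smul_zero]
  refine ⟨hB, ?_⟩
  intro u hu
  induction hu using Submodule.span_induction with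
  | mem x hx => exact h1 x hx
  | zero => simp
  | add x y hx' hy' hx hy => rw [QuadraticMap.map_add Q x y, hx, hy, hB x hx' y hy']; simp
  | smul a x _ hx => rw [QuadraticMap.map_smul, hx, smul_zero]

end Cfsg.Agent.Helper78
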