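import Mathlib
import Cfsg.Agent.Helper78.IsoAbs

set_option autoImplicit false

namespace Cfsg.Agent.Helper78

open Module

/-- The relations of a hyperbolic family `e_i, f_i`. -/
def HypFam {F V : Type*} [Field F] [AddCommGroup V] [Module F V] (Q : QuadraticForm F V)
    {m : ℕ} (b : Fin m ⊕ Fin m → V) : Prop :=
  (∀ i, Q (b (Sum.inl i)) = 0 ∧ Q (b (Sum.inr i)) = 0) ∧
  (∀ i j, QuadraticMap.polar ⇑Q (b (Sum.inl i)) (b (Sum.inr j)) = if i = j then 1 else 0) ∧
  (∀ i j, QuadraticMap.polar ⇑Q (b (Sum.inl i)) (b (Sum.inl j)) = 0 ∧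
    QuadraticMap.polar ⇑Q (b (Sum.inr i)) (b (Sum.inr j)) = 0)

/-- The relations of an elliptic family `e_i, f_i, x, y`. -/
def EllFam {F V : Type*} [Field F] [AddCommGroup V] [Module F V] (Q : QuadraticForm F V)
    {k : ℕ} (b : (Fin k ⊕ Fin k) ⊕ Fin 2 → V) (ζ : F) : Prop :=
  (∀ i, Q (b (Sum.inl (Sum.inl i))) = 0 ∧ Q (b (Sum.inl (Sum.inr i))) = 0) ∧
  (∀ i j, QuadraticMap.polar ⇑Q (b (Sum.inl (Sum.inl i))) (b (Sum.inl (Sum.inr j)))
    = if i = j then 1 else 0) ∧
  (∀ i j, QuadraticMap.polar ⇑Q (b (Sum.inl (Sum.inl i))) (b (Sum.inl (Sum.inl j))) = 0 ∧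
    QuadraticMap.polar ⇑Q (b (Sum.inl (Sum.inr i))) (b (Sum.inl (Sum.inr j))) = 0) ∧
  (∀ i (k : Fin 2), QuadraticMap.polar ⇑Q (b (Sum.inl (Sum.inl i))) (b (Sum.inr k)) = 0 ∧
    QuadraticMap.polar ⇑Q (b (Sum.inl (Sum.inr i))) (b (Sum.inr k)) = 0) ∧
  Q (b (Sum.inr 0)) = 1 ∧ QuadraticMap.polar ⇑Q (b (Sum.inr 0)) (b (Sum.inr 1)) = 1 ∧
  Q (b (Sum.inr 1)) = ζ

theorem hypFam_pres {F V V' : Type*} [Field F] [AddCommGroup V] [Module F V]
    [AddCommGroup V'] [Module F V'] (Q : QuadraticForm F V) (Q' : QuadraticForm F V')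
    {m : ℕ} (b : Fin m ⊕ Fin m → V) (b' : Fin m ⊕ Fin m → V')
    (h : HypFam Q b) (h' : HypFam Q' b') :
    (∀ i, Q (b i) = Q' (b' i)) ∧
      ∀ i j, QuadraticMap.polar ⇑Q (b i) (b j) = QuadraticMap.polar ⇑Q' (b' i) (b' j) := by
  obtain ⟨h1, h2, h3⟩ := h
  obtain ⟨h1', h2', h3'⟩ := h'
  constructor
  · rintro (i | i)
    · rw [(h1 i).1, (h1' i).1]
    · rw [(h1 i).2, (h1' i).2]
  · rintro (i | i) (j | j)
    · rw [(h3 i j).1, (h3' i j).1]
    · rw [h2 i j, h2' i j]
    · rw [QuadraticMap.polar_comm, h2 j i, QuadraticMap.polar_comm, h2' j i]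
    · rw [(h3 i j).2, (h3' i j).2]

theorem fin2_cases (a : Fin 2) : a = 0 ∨ a = 1 := by
  fin_cases a <;> simp

theorem ellFam_pres {F V V' : Type*} [Field F] [AddCommGroup V] [Module F V]
    [AddCommGroup V'] [Module F V'] (Q : QuadraticForm F V) (Q' : QuadraticForm F V')
    {k : ℕ} (b : (Fin k ⊕ Fin k) ⊕ Fin 2 → V) (b' : (Fin k ⊕ Fin k) ⊕ Fin 2 → V') (ζ : F)
    (h : EllFam Q b ζ) (h' : EllFam Q' b' ζ) :
    (∀ i, Q (b i) = Q' (b' i)) ∧
      ∀ i j, QuadraticMap.polar ⇑Q (b i) (b j) = QuadraticMap.polar ⇑Q' (b' i) (b' j) := by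
  obtain ⟨h1, h2, h3, h4, h5, h6, h7⟩ := h
  obtain ⟨h1', h2', h3', h4', h5', h6', h7'⟩ := h'
  constructor
  · rintro ((i | i) | a)
    · rw [(h1 i).1, (h1' i).1]
    · rw [(h1 i).2, (h1' i).2]
    · rcases fin2_cases a with rfl | rfl
      · rw [h5, h5']
      · rw [h7, h7']
  · rintro ((i | i) | a) ((j | j) | c)
    · rw [(h3 i j).1, (h3' i j).1]
    · rw [h2 i j, h2' i j]
    · rw [(h4 i c).1, (h4' i c).1]
    · rw [QuadraticMap.polar_comm, h2 j i, QuadraticMap.polar_comm, h2' j i]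
    · rw [(h3 i j).2, (h3' i j).2]
    · rw [(h4 i c).2, (h4' i c).2]
    · rw [QuadraticMap.polar_comm, (h4 j a).1, QuadraticMap.polar_comm, (h4' j a).1]
    · rw [QuadraticMap.polar_comm, (h4 j a).2, QuadraticMap.polar_comm, (h4' j a).2]
    · rcases fin2_cases a with rfl | rfl <;> rcases fin2_cases c with rfl | rfl
      · rw [QuadraticMap.polar_self, QuadraticMap.polar_self, h5, h5']
      · rw [h6, h6']
      · rw [QuadraticMap.polar_comm, h6, QuadraticMap.polar_comm, h6']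
      · rw [QuadraticMap.polar_self, QuadraticMap.polar_self, h7, h7']

/-- A hyperbolic basis gives a totally singular subspace of half the dimension. -/
theorem hyp_ts {F V : Type*} [Field F] [AddCommGroup V] [Module F V]
    (Q : QuadraticForm F V) {m : ℕ} (b : Basis (Fin m ⊕ Fin m) F V) (h : HypFam Q b) :
    ∃ U : Submodule F V, (∀ u ∈ U, Q u = 0) ∧ finrank F U = m := by
  obtain ⟨h1, h2, h3⟩ := h
  refine ⟨Submodule.span F (Set.range (fun i : Fin m => b (Sum.inl i))), ?_, ?_⟩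
  · refine (qzero_span Q _ ?_ ?_).2
    · rintro _ ⟨i, rfl⟩; exact (h1 i).1
    · rintro _ ⟨i, rfl⟩ _ ⟨j, rfl⟩; exact (h3 i j).1
  · have hli : LinearIndependent F (fun i : Fin m => b (Sum.inl i)) :=
      b.linearIndependent.comp _ Sum.inl_injective
    rw [finrank_span_eq_card hli]
    simp

/-- A space with an elliptic basis has no totally singular subspace of half the dimension. -/
theorem ell_not_ts {F V : Type*} [Field F] [AddCommGroup V] [Module F V] [FiniteDimensional F V]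
    (Q : QuadraticForm F V) (hQ : (QuadraticMap.polarBilin Q).Nondegenerate) {k : ℕ}
    (b : Basis ((Fin k ⊕ Fin k) ⊕ Fin 2) F V) (ζ : F) (hζ : ∀ t : F, t ^ 2 + t + ζ ≠ 0)
    (h : EllFam Q b ζ) (U : Submodule F V) (hU : ∀ u ∈ U, Q u = 0)
    (hdim : finrank F U = k + 1) : False := by
  classical
  obtain ⟨h1, h2, h3, h4, h5, h6, h7⟩ := h
  set B : LinearMap.BilinForm F V := QuadraticMap.polarBilin Q with hB
  have hBapp : ∀ x y, B x y = QuadraticMap.polar (⇑Q) x y := fun x y => rfl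
  have hV : finrank F V = 2 * k + 2 := by
    rw [Module.finrank_eq_card_basis b]; simp; ring
  set T : Submodule F V :=
    Submodule.span F (Set.range (fun i : Fin k => b (Sum.inl (Sum.inl i)))) with hT
  have hTz := qzero_span Q (Set.range (fun i : Fin k => b (Sum.inl (Sum.inl i))))
    (by rintro _ ⟨i, rfl⟩; exact (h1 i).1) (by rintro _ ⟨i, rfl⟩ _ ⟨j, rfl⟩; exact (h3 i j).1)
  have hTdim : finrank F T = k := by
    have hli : LinearIndependent F (fun i : Fin k => b (Sum.inl (Sum.inl i))) :=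
      b.linearIndependent.comp _ (Sum.inl_injective.comp Sum.inl_injective)
    rw [hT, finrank_span_eq_card hli]; simp
  have hTxy : ∀ t ∈ T, ∀ a : Fin 2, QuadraticMap.polar (⇑Q) t (b (Sum.inr a)) = 0 := by
    intro t ht a
    induction ht using Submodule.span_induction with
    | mem x hx => obtain ⟨i, rfl⟩ := hx; exact (h4 i a).1
    | zero => simp
    | add x y _ _ hx hy => rw [QuadraticMap.polar_add_left, hx, hy, add_zero]
    | smul a x _ hx => rw [QuadraticMap.polar_smul_left, hx, smul_zero]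
  -- U ≤ U^⊥
  have hUle : U ≤ B.orthogonal U := by
    intro u hu v hv
    show B v u = 0
    rw [hBapp]
    unfold QuadraticMap.polar
    rw [hU _ (U.add_mem hv hu), hU _ hv, hU _ hu]; simp
  have hUperp : B.orthogonal U = U := by
    symm
    apply Submodule.eq_of_le_of_finrank_eq hUle
    rw [LinearMap.BilinForm.finrank_orthogonal hQ, hV, hdim]; omega
  have hkey : B.orthogonal (U ⊔ T) ≤ U ⊓ T := by
    intro v hv
    have hvU : v ∈ U := by
      rw [← hUperp]
      exact LinearMap.BilinForm.orthogonal_le le_sup_left hv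
    have hvT : ∀ i, B (b (Sum.inl (Sum.inl i))) v = 0 := by
      intro i
      exact hv (b (Sum.inl (Sum.inl i)))
        (Submodule.mem_sup_right (Submodule.subset_span ⟨i, rfl⟩))
    refine ⟨hvU, ?_⟩
    obtain ⟨c, hsum⟩ : ∃ c : (Fin k ⊕ Fin k) ⊕ Fin 2 → F, v = ∑ j, c j • b j :=
      ⟨fun j => b.repr v j, (b.sum_repr v).symm⟩
    have hcf : ∀ i, c (Sum.inl (Sum.inr i)) = 0 := by
      intro i
      have := hvT i
      rw [hsum, map_sum] at this
      simp only [map_smul, smul_eq_mul, hBapp] at this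
      rw [Fintype.sum_sum_type, Fintype.sum_sum_type, Fin.sum_univ_two] at this
      simpa [fun j => (h3 i j).1, h2 i, fun a => (h4 i a).1] using this
    set t : V := ∑ i : Fin k, c (Sum.inl (Sum.inl i)) • b (Sum.inl (Sum.inl i)) with ht
    set w : V := c (Sum.inr 0) • b (Sum.inr 0) + c (Sum.inr 1) • b (Sum.inr 1) with hw
    have htT : t ∈ T := by
      apply Submodule.sum_mem
      intro i _
      exact Submodule.smul_mem _ _ (Submodule.subset_span ⟨i, rfl⟩)
    have hvtw : v = t + w := by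
      rw [hsum, Fintype.sum_sum_type, Fintype.sum_sum_type, Fin.sum_univ_two]
      simp [hcf, ht, hw]
    have hQw : Q w = c (Sum.inr 0) ^ 2 + c (Sum.inr 0) * c (Sum.inr 1)
        + ζ * c (Sum.inr 1) ^ 2 := by
      rw [hw, QuadraticMap.map_add Q, QuadraticMap.map_smul, QuadraticMap.map_smul,
        QuadraticMap.polar_smul_left, QuadraticMap.polar_smul_right, h5, h6, h7]
      simp only [smul_eq_mul]; ring
    have hptw : QuadraticMap.polar (⇑Q) t w = 0 := by
      rw [hw, QuadraticMap.polar_add_right, QuadraticMap.polar_smul_right,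
        QuadraticMap.polar_smul_right, hTxy t htT 0, hTxy t htT 1]
      simp
    have hQv : Q v = 0 := hU v hvU
    rw [hvtw, QuadraticMap.map_add Q, hTz.2 t htT, hptw, hQw] at hQv
    have hc1 : c (Sum.inr 1) = 0 := by
      by_contra hne
      apply hζ (c (Sum.inr 0) / c (Sum.inr 1))
      field_simp
      linear_combination hQv
    have hc0 : c (Sum.inr 0) = 0 := by
      rw [hc1] at hQv
      have : c (Sum.inr 0) ^ 2 = 0 := by linear_combination hQv
      exact pow_eq_zero_iff (two_ne_zero) |>.mp this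
    have hw0 : w = 0 := by rw [hw, hc0, hc1]; simp
    rw [hvtw, hw0, add_zero]
    exact htT
  have e1 := LinearMap.BilinForm.finrank_orthogonal hQ (U ⊔ T)
  have e2 := Submodule.finrank_mono hkey
  have e3 := Submodule.finrank_sup_add_finrank_inf_eq U T
  omega

end Cfsg.Agent.Helper78
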