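import Mathlib
import Cfsg.Prelude.Def_GeometricClasses
import Cfsg.Agent.S2616
import Cfsg.Agent.Helper78.IsoFam

set_option autoImplicit false

open Cfsg Cfsg.Geo Matrix
open scoped Kronecker

namespace Cfsg.Agent.Helper78

open Module

/-- An isometry from matching values on a basis. -/
theorem isom_of_fam {F V V' ι' : Type*} [Field F] [AddCommGroup V] [Module F V]
    [FiniteDimensional F V] [AddCommGroup V'] [Module F V'] [FiniteDimensional F V']
    (Q : QuadraticForm F V) (Q' : QuadraticForm F V')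
    (hQ : (QuadraticMap.polarBilin Q).Nondegenerate) (hdim : finrank F V = finrank F V')
    (b : Basis ι' F V) (v' : ι' → V') (h1 : ∀ i, Q (b i) = Q' (v' i))
    (h2 : ∀ i j, QuadraticMap.polar ⇑Q (b i) (b j) = QuadraticMap.polar ⇑Q' (v' i) (v' j)) :
    ∃ e : V ≃ₗ[F] V', ∀ v, Q' (e v) = Q v := by
  have hg : ∀ i, (b.constr F v') (b i) = v' i := fun i => b.constr_basis F v' i
  apply isom_of_preserving Q Q' hQ hdim (b.constr F v')
  intro v
  refine qf_eq_of_basis b (Q'.comp (b.constr F v')) Q ?_ ?_ v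
  · intro i
    rw [QuadraticMap.comp_apply, hg, h1]
  · intro i j
    rw [h2]
    unfold QuadraticMap.polar
    simp only [QuadraticMap.comp_apply, map_add, hg]

section helpers

variable {ι : Type} {F : Type*} [Field F]

/-- The bundled quadratic form of a `IsNondegenerateQuadraticForm`. -/
def isoQF (Q : (ι → F) → F) (hQ : IsNondegenerateQuadraticForm Q) : QuadraticForm F (ι → F) :=
  QuadraticMap.ofPolar Q (fun a x => by rw [hQ.smul, smul_eq_mul, pow_two])
    (fun x x' y => hQ.polar_bilinear.add_left x x' y)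
    (fun a x y => by rw [hQ.polar_bilinear.smul_left, smul_eq_mul])

/-- The restriction of the form to a subspace. -/
def isoQW (Q : (ι → F) → F) (hQ : IsNondegenerateQuadraticForm Q) (W : Submodule F (ι → F)) :
    QuadraticForm F W := (isoQF Q hQ).comp W.subtype

theorem isoQW_apply (Q : (ι → F) → F) (hQ : IsNondegenerateQuadraticForm Q)
    (W : Submodule F (ι → F)) (w : W) : isoQW Q hQ W w = Q (w : ι → F) := rfl

theorem isoQW_polar (Q : (ι → F) → F) (hQ : IsNondegenerateQuadraticForm Q)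
    (W : Submodule F (ι → F)) (w w' : W) :
    QuadraticMap.polar (⇑(isoQW Q hQ W)) w w'
      = QuadraticMap.polar Q (w : ι → F) (w' : ι → F) := rfl

theorem isoQW_nondeg (Q : (ι → F) → F) (hQ : IsNondegenerateQuadraticForm Q)
    (W : Submodule F (ι → F)) (hnd : IsNondegenerateOn (QuadraticMap.polar Q) W) :
    (QuadraticMap.polarBilin (isoQW Q hQ W)).Nondegenerate := by
  constructor
  · intro x hx
    by_contra hne
    have hne' : (x : ι → F) ≠ 0 := fun h => hne (Subtype.ext h)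
    obtain ⟨-, ⟨y, hy, hy'⟩⟩ := hnd (x : ι → F) x.2 hne'
    apply hy'
    have := hx ⟨y, hy⟩
    exact this
  · intro x hx
    by_contra hne
    have hne' : (x : ι → F) ≠ 0 := fun h => hne (Subtype.ext h)
    obtain ⟨⟨y, hy, hy'⟩, -⟩ := hnd (x : ι → F) x.2 hne'
    apply hy'
    have := hx ⟨y, hy⟩
    exact this

theorem isoQW_plus_of (Q : (ι → F) → F) (hQ : IsNondegenerateQuadraticForm Q)
    (W : Submodule F (ι → F)) (U' : Submodule F W) (hU : ∀ u ∈ U', isoQW Q hQ W u = 0)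
    (hd : 2 * finrank F U' = finrank F W) : IsPlusTypeOn Q W := by
  refine ⟨U'.map W.subtype, Submodule.map_subtype_le W U', ?_, ?_⟩
  · rintro _ ⟨u, hu, rfl⟩
    exact hU u hu
  · rw [Submodule.finrank_map_subtype_eq]; exact hd

theorem isoQW_of_plus (Q : (ι → F) → F) (hQ : IsNondegenerateQuadraticForm Q)
    (W : Submodule F (ι → F)) (h : IsPlusTypeOn Q W) :
    ∃ U' : Submodule F W, (∀ u ∈ U', isoQW Q hQ W u = 0) ∧ 2 * finrank F U' = finrank F W := by
  obtain ⟨U, hUW, hts, hd⟩ := h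
  refine ⟨U.comap W.subtype, ?_, ?_⟩
  · intro u hu
    exact hts _ hu
  · rw [(Submodule.comapSubtypeEquivOfLe hUW).finrank_eq]; exact hd

end helpers

variable {ι : Type} [Fintype ι] [DecidableEq ι] {F : Type*} [Field F]

/-- Piece ISO of CALL S5871: nondegenerate subspaces of the same even dimension and the same
type are isometric. -/
theorem o12p_iso_of_type [Fintype F] (Q : (ι → F) → F) (hQ : IsNondegenerateQuadraticForm Q)
    (W₁ W₂ : Submodule F (ι → F)) (hnd₁ : IsNondegenerateOn (QuadraticMap.polar Q) W₁)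
    (hnd₂ : IsNondegenerateOn (QuadraticMap.polar Q) W₂)
    (hdim : Module.finrank F W₁ = Module.finrank F W₂) (heven : Even (Module.finrank F W₁))
    (htype : IsPlusTypeOn Q W₁ ↔ IsPlusTypeOn Q W₂) : AreIsometricFor Q W₁ W₂ := by
  classical
  obtain ⟨m, hm⟩ := heven
  have hV₁ : finrank F W₁ = 2 * m := by omega
  have hV₂ : finrank F W₂ = 2 * m := by omega
  rcases Nat.eq_zero_or_pos m with rfl | hmpos
  · have hsub : Subsingleton W₁ := by
      rw [← finrank_zero_iff (R := F)]; omega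
    refine ⟨LinearEquiv.ofFinrankEq W₁ W₂ hdim, fun w => ?_⟩
    have hw : w = 0 := Subsingleton.elim _ _
    rw [hw, map_zero]
    simp
  · have hn₁ := isoQW_nondeg Q hQ W₁ hnd₁
    have hn₂ := isoQW_nondeg Q hQ W₂ hnd₂
    suffices h : ∃ e : W₁ ≃ₗ[F] W₂, ∀ v, isoQW Q hQ W₂ (e v) = isoQW Q hQ W₁ v from h
    rcases Cfsg.Agent.S2616.result hmpos hV₁ (isoQW Q hQ W₁) hn₁ with
      ⟨b₁, hb₁⟩ | ⟨b₁, ζ₁, hζ₁, hb₁⟩ <;>
    rcases Cfsg.Agent.S2616.result hmpos hV₂ (isoQW Q hQ W₂) hn₂ with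
      ⟨b₂, hb₂⟩ | ⟨b₂, ζ₂, hζ₂, hb₂⟩
    · -- hyperbolic / hyperbolic
      have hb₁' : HypFam (isoQW Q hQ W₁) b₁ := hb₁
      have hb₂' : HypFam (isoQW Q hQ W₂) b₂ := hb₂
      obtain ⟨hv, hp⟩ := hypFam_pres _ _ b₁ b₂ hb₁' hb₂'
      exact isom_of_fam _ _ hn₁ hdim b₁ b₂ hv hp
    · -- hyperbolic / elliptic : impossible
      exfalso
      have hb₁' : HypFam (isoQW Q hQ W₁) b₁ := hb₁
      have hb₂' : EllFam (isoQW Q hQ W₂) b₂ ζ₂ := hb₂
      obtain ⟨U, hU, hUd⟩ := hyp_ts _ b₁ hb₁'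
      have hplus₁ : IsPlusTypeOn Q W₁ := isoQW_plus_of Q hQ W₁ U hU (by omega)
      obtain ⟨U₂, hU₂, hU₂d⟩ := isoQW_of_plus Q hQ W₂ (htype.mp hplus₁)
      exact ell_not_ts _ hn₂ b₂ ζ₂ hζ₂ hb₂' U₂ hU₂ (by omega)
    · -- elliptic / hyperbolic : impossible
      exfalso
      have hb₁' : EllFam (isoQW Q hQ W₁) b₁ ζ₁ := hb₁
      have hb₂' : HypFam (isoQW Q hQ W₂) b₂ := hb₂
      obtain ⟨U, hU, hUd⟩ := hyp_ts _ b₂ hb₂'
      have hplus₂ : IsPlusTypeOn Q W₂ := isoQW_plus_of Q hQ W₂ U hU (by omega)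
      obtain ⟨U₁, hU₁, hU₁d⟩ := isoQW_of_plus Q hQ W₁ (htype.mpr hplus₂)
      exact ell_not_ts _ hn₁ b₁ ζ₁ hζ₁ hb₁' U₁ hU₁ (by omega)
    · -- elliptic / elliptic
      have hb₁' : EllFam (isoQW Q hQ W₁) b₁ ζ₁ := hb₁
      obtain ⟨h1, h2, h3, h4, h5, h6, h7⟩ := hb₂
      obtain ⟨α, β, hαβ, hζ⟩ := iso_alpha_beta ζ₂ ζ₁ hζ₂ hζ₁
      let v' : (Fin (m - 1) ⊕ Fin (m - 1)) ⊕ Fin 2 → W₂ :=
        Sum.elim (fun j => b₂ (Sum.inl j))
          (fun a : Fin 2 => if a = 0 then b₂ (Sum.inr 0)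
            else α • b₂ (Sum.inr 0) + β • b₂ (Sum.inr 1))
      have hv0 : v' (Sum.inr 0) = b₂ (Sum.inr 0) := by simp [v']
      have hv1 : v' (Sum.inr 1) = α • b₂ (Sum.inr 0) + β • b₂ (Sum.inr 1) := by simp [v']
      have hvl : ∀ j, v' (Sum.inl j) = b₂ (Sum.inl j) := fun j => rfl
      have hv' : EllFam (isoQW Q hQ W₂) v' ζ₁ := by
        refine ⟨?_, ?_, ?_, ?_, ?_, ?_, ?_⟩
        · intro i; rw [hvl, hvl]; exact h1 i
        · intro i j; rw [hvl, hvl]; exact h2 i j
        · intro i j; rw [hvl, hvl, hvl, hvl]; exact h3 i j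
        · intro i a
          rcases fin2_cases a with rfl | rfl
          · rw [hvl, hvl, hv0]; exact h4 i 0
          · rw [hvl, hvl, hv1]
            constructor
            · rw [QuadraticMap.polar_add_right, QuadraticMap.polar_smul_right,
                QuadraticMap.polar_smul_right, (h4 i 0).1, (h4 i 1).1]; simp
            · rw [QuadraticMap.polar_add_right, QuadraticMap.polar_smul_right,
                QuadraticMap.polar_smul_right, (h4 i 0).2, (h4 i 1).2]; simp
        · rw [hv0]; exact h5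
        · rw [hv0, hv1, QuadraticMap.polar_add_right, QuadraticMap.polar_smul_right,
            QuadraticMap.polar_smul_right, QuadraticMap.polar_self, h5, h6]
          simp only [smul_eq_mul, nsmul_eq_mul]
          linear_combination hαβ
        · rw [hv1, QuadraticMap.map_add (isoQW Q hQ W₂), QuadraticMap.map_smul,
            QuadraticMap.map_smul, QuadraticMap.polar_smul_left, QuadraticMap.polar_smul_right,
            h5, h6, h7]
          simp only [smul_eq_mul]
          linear_combination hζ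
      obtain ⟨hv, hp⟩ := ellFam_pres _ _ b₁ v' ζ₁ hb₁' hv'
      exact isom_of_fam _ _ hn₁ hdim b₁ v' hv hp

end Cfsg.Agent.Helper78
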