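-- helper78 library: piece PAIRING of CALL S5982 (helper90), pure combinatorics.
import Mathlib

set_option autoImplicit false

namespace Cfsg.Agent.Helper78

/-- PAIRING: if an involution `s` of the labels matches fibre sizes of `φ`, there is an
involution `π` of the index type lying over `s`. -/
theorem exists_pairing {ι A : Type*} [Fintype ι] [DecidableEq ι] [DecidableEq A] (φ : ι → A)
    (s : A → A) (hs : ∀ a, s (s a) = a)
    (h : ∀ a, (Finset.univ.filter fun i => φ i = a).card
      = (Finset.univ.filter fun i => φ i = s a).card) :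
    ∃ π : ι → ι, (∀ i, π (π i) = i) ∧ ∀ i, φ (π i) = s (φ i) := by
  classical
  obtain ⟨_inst, -⟩ := exists_wellOrder A
  have hcard : ∀ a, Fintype.card {i // φ i = a} = Fintype.card {i // φ i = s a} := by
    intro a
    rw [Fintype.card_subtype, Fintype.card_subtype]
    convert h a
  have he : ∀ a, Nonempty ({i // φ i = a} ≃ {i // φ i = s a}) := fun a =>
    ⟨Fintype.equivOfCardEq (hcard a)⟩
  choose e _he using fun a => (⟨Classical.choice (he a), trivial⟩ :
    ∃ _x : {i // φ i = a} ≃ {i // φ i = s a}, True)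
  obtain ⟨f, hf⟩ : ∃ f : A → ι → ι, ∀ a i,
      f a i = if hi : φ i = a then (e a ⟨i, hi⟩).1 else i := ⟨_, fun _ _ => rfl⟩
  obtain ⟨g, hg⟩ : ∃ g : A → ι → ι, ∀ a i,
      g a i = if hi : φ i = s a then ((e a).symm ⟨i, hi⟩).1 else i := ⟨_, fun _ _ => rfl⟩
  have hf1 : ∀ a i, φ i = a → φ (f a i) = s a := by
    intro a i hi
    rw [hf, dif_pos hi]
    exact (e a ⟨i, hi⟩).2
  have hg1 : ∀ a i, φ i = s a → φ (g a i) = a := by
    intro a i hi
    rw [hg, dif_pos hi]
    exact ((e a).symm ⟨i, hi⟩).2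
  have hgf : ∀ a i, φ i = a → g a (f a i) = i := by
    intro a i hi
    have h1 : φ (f a i) = s a := hf1 a i hi
    rw [hg, dif_pos h1]
    have h2 : (⟨f a i, h1⟩ : {i // φ i = s a}) = e a ⟨i, hi⟩ := by
      apply Subtype.ext
      show f a i = (e a ⟨i, hi⟩).1
      rw [hf, dif_pos hi]
    rw [h2, Equiv.symm_apply_apply]
  have hfg : ∀ a i, φ i = s a → f a (g a i) = i := by
    intro a i hi
    have h1 : φ (g a i) = a := hg1 a i hi
    rw [hf, dif_pos h1]
    have h2 : (⟨g a i, h1⟩ : {i // φ i = a}) = (e a).symm ⟨i, hi⟩ := by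
      apply Subtype.ext
      show g a i = ((e a).symm ⟨i, hi⟩).1
      rw [hg, dif_pos hi]
    rw [h2, Equiv.apply_symm_apply]
  obtain ⟨π, hπ⟩ : ∃ π : ι → ι, ∀ i,
      π i = if s (φ i) = φ i then i else
        if φ i < s (φ i) then f (φ i) i else g (s (φ i)) i := ⟨_, fun _ => rfl⟩
  have hπφ : ∀ i, φ (π i) = s (φ i) := by
    intro i
    by_cases h0 : s (φ i) = φ i
    · rw [hπ, if_pos h0]; exact h0.symm
    · by_cases h1 : φ i < s (φ i)
      · rw [hπ, if_neg h0, if_pos h1]; exact hf1 _ _ rfl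
      · rw [hπ, if_neg h0, if_neg h1]
        exact hg1 (s (φ i)) i (hs _).symm
  refine ⟨π, ?_, hπφ⟩
  intro i
  have hj := hπφ i
  by_cases h0 : s (φ i) = φ i
  · have h3 : π i = i := by rw [hπ, if_pos h0]
    rw [h3, h3]
  · have h0' : ¬ s (φ (π i)) = φ (π i) := by
      rw [hj, hs]; exact fun h4 => h0 h4.symm
    by_cases h1 : φ i < s (φ i)
    · have hi : π i = f (φ i) i := by rw [hπ, if_neg h0, if_pos h1]
      have h1' : ¬ φ (π i) < s (φ (π i)) := by
        rw [hj, hs]; exact lt_asymm h1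
      have h5 : π (π i) = g (s (φ (π i))) (π i) := by
        rw [hπ (π i), if_neg h0', if_neg h1']
      rw [h5, hj, hs, hi]
      exact hgf _ _ rfl
    · have hi : π i = g (s (φ i)) i := by rw [hπ, if_neg h0, if_neg h1]
      have h1'' : s (φ i) < φ i := by
        rcases lt_trichotomy (φ i) (s (φ i)) with h4 | h4 | h4
        · exact absurd h4 h1
        · exact absurd h4.symm h0
        · exact h4
      have h1' : φ (π i) < s (φ (π i)) := by
        rw [hj, hs]; exact h1''
      have h5 : π (π i) = f (φ (π i)) (π i) := by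
        rw [hπ (π i), if_neg h0', if_pos h1']
      rw [h5, hj, hi]
      exact hfg _ _ (hs _).symm

end Cfsg.Agent.Helper78
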