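-- helper78 library: core of piece SPIN of CALL S2720 (helper43).
import Mathlib
import Cfsg.Agent.Helper45.Spinor

set_option autoImplicit false

namespace Cfsg.Agent.Helper78.PFSPINCore

open Cfsg Matrix Polynomial Cfsg.Agent.Helper45

universe u

variable {ι : Type} [Fintype ι] [DecidableEq ι] {F : Type u} [Field F] [Fintype F]

/-- powers of the level-set permutation -/
theorem levPerm_pow_val (Q : QuadraticForm F (ι → F)) (c : F) (u : ↥(isometryGroup F ⇑Q))
    (j : ℕ) (x : Lev ⇑Q c) :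
    ((levPerm ⇑Q c u ^ j) x).val = (((u : GL ι F) : Matrix ι ι F) ^ j) *ᵥ x.val := by
  induction j with
  | zero => simp
  | succ j ih =>
    rw [pow_succ', Equiv.Perm.mul_apply, levPerm_val, ih, pow_succ', ← Matrix.mulVec_mulVec]

/-- SPIN with the two level-1 pieces SIGN and MOVED as hypotheses. -/
theorem pf_spin_core (Q : QuadraticForm F (ι → F))
    (u : ↥(isometryGroup F ⇑Q)) (P : Matrix ι ι F) (n k : ℕ) (hP : P * P = P)
    (huP : ((u : GL ι F) : Matrix ι ι F) * P = P * ((u : GL ι F) : Matrix ι ι F))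
    (hu1 : ((u : GL ι F) : Matrix ι ι F) * (1 - P) = 1 - P)
    (hn : Even n)
    (hfree : ∀ y : ι → F, P *ᵥ y = y → y ≠ 0 →
      ∀ i : ℕ, (((u : GL ι F) : Matrix ι ι F) ^ i) *ᵥ y = y → n ∣ i)
    (hun : ((u : GL ι F) : Matrix ι ι F) ^ n = 1) (c : F) (hk : Odd k)
    (hmoved : Nat.card {x : ι → F // Q x = c ∧ P *ᵥ x ≠ 0} = n * k)
    (hsign : ∀ (σ : Equiv.Perm (Lev ⇑Q c)),
      (∀ x, σ x ≠ x → ∀ j : ℕ, (σ ^ j) x = x → n ∣ j) → σ ^ n = 1 →
      Fintype.card {x : Lev ⇑Q c // σ x ≠ x} = n * k → Equiv.Perm.sign σ = (-1) ^ k) :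
    spin ⇑Q c u = -1 := by
  have hcommj : ∀ j : ℕ, ((u : GL ι F) : Matrix ι ι F) ^ j * P =
      P * ((u : GL ι F) : Matrix ι ι F) ^ j := by
    intro j
    have hc : Commute ((u : GL ι F) : Matrix ι ι F) P := huP
    exact (hc.pow_left j).eq
  -- a vector with zero `P`-component is fixed
  have hfix0 : ∀ v : ι → F, P *ᵥ v = 0 → ((u : GL ι F) : Matrix ι ι F) *ᵥ v = v := by
    intro v hv
    have e : (1 - P) *ᵥ v = v := by rw [Matrix.sub_mulVec, Matrix.one_mulVec, hv, sub_zero]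
    calc ((u : GL ι F) : Matrix ι ι F) *ᵥ v
        = ((u : GL ι F) : Matrix ι ι F) *ᵥ ((1 - P) *ᵥ v) := by rw [e]
      _ = (((u : GL ι F) : Matrix ι ι F) * (1 - P)) *ᵥ v := by rw [Matrix.mulVec_mulVec]
      _ = v := by rw [hu1, e]
  have hPP : ∀ v : ι → F, P *ᵥ (P *ᵥ v) = P *ᵥ v := by
    intro v
    rw [Matrix.mulVec_mulVec, hP]
  -- a vector with non-zero `P`-component is moved
  have hmov : ∀ v : ι → F, P *ᵥ v ≠ 0 → ((u : GL ι F) : Matrix ι ι F) *ᵥ v ≠ v := by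
    intro v hv h
    have h1 : (((u : GL ι F) : Matrix ι ι F) ^ 1) *ᵥ (P *ᵥ v) = P *ᵥ v := by
      rw [pow_one, Matrix.mulVec_mulVec, huP, ← Matrix.mulVec_mulVec, h]
    have h2 := hfree (P *ᵥ v) (hPP v) hv 1 h1
    have h3 : n = 1 := Nat.dvd_one.mp h2
    rw [h3] at hn
    exact absurd hn (by decide)
  have hσiff : ∀ x : Lev ⇑Q c, levPerm ⇑Q c u x ≠ x ↔ P *ᵥ x.val ≠ 0 := by
    intro x
    constructor
    · intro h hv
      apply h
      apply Lev.ext'
      rw [levPerm_val]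
      exact hfix0 x.val hv
    · intro hv h
      apply hmov x.val hv
      have := congrArg Lev.val h
      rw [levPerm_val] at this
      exact this
  have hper : ∀ x : Lev ⇑Q c, levPerm ⇑Q c u x ≠ x →
      ∀ j : ℕ, (levPerm ⇑Q c u ^ j) x = x → n ∣ j := by
    intro x hx j hj
    have hv := (hσiff x).mp hx
    have h1 : (((u : GL ι F) : Matrix ι ι F) ^ j) *ᵥ x.val = x.val := by
      rw [← levPerm_pow_val, hj]
    have h2 : (((u : GL ι F) : Matrix ι ι F) ^ j) *ᵥ (P *ᵥ x.val) = P *ᵥ x.val := by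
      rw [Matrix.mulVec_mulVec, hcommj j, ← Matrix.mulVec_mulVec, h1]
    exact hfree (P *ᵥ x.val) (hPP x.val) hv j h2
  have hσn : levPerm ⇑Q c u ^ n = 1 := by
    ext x
    apply Lev.ext'
    rw [levPerm_pow_val, hun, Matrix.one_mulVec]
    rfl
  have hcard : Fintype.card {x : Lev ⇑Q c // levPerm ⇑Q c u x ≠ x} = n * k := by
    rw [← hmoved, ← Nat.card_eq_fintype_card]
    apply Nat.card_congr
    exact
      { toFun := fun x => ⟨x.1.val, x.1.prop, (hσiff x.1).mp x.2⟩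
        invFun := fun v => ⟨⟨v.1, v.2.1⟩, (hσiff ⟨v.1, v.2.1⟩).mpr v.2.2⟩
        left_inv := fun x => rfl
        right_inv := fun v => rfl }
  rw [spin_apply, hsign (levPerm ⇑Q c u) hper hσn hcard, hk.neg_one_pow]

end Cfsg.Agent.Helper78.PFSPINCore
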