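-- helper78 library: piece P1 of CALL S4274 (helper57).
import Mathlib

set_option autoImplicit false

namespace Cfsg.Agent.Helper78

open Subgroup
open scoped Pointwise

theorem j1o_pp_lt (r k : ℕ) (hr : r.Prime) (h : r ^ k ∣ 9240) : r ^ k < 19 := by
  rcases Nat.eq_zero_or_pos k with hk | hk
  · subst hk; norm_num
  have hr9 : r ∣ 2 * 2 * 2 * 3 * 5 * 7 * 11 := (dvd_pow_self r (by omega)).trans h
  have key : ∀ q m : ℕ, q.Prime → r ∣ q → ¬ q ^ (m + 1) ∣ 9240 → q ^ m < 19 → r ^ k < 19 := by
    intro q m hq hrq hnd hlt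
    have e : r = q := (Nat.prime_dvd_prime_iff_eq hr hq).1 hrq
    subst e
    have hkm : k ≤ m := by
      by_contra hcon
      exact hnd ((pow_dvd_pow r (by omega)).trans h)
    exact lt_of_le_of_lt (Nat.pow_le_pow_right hr.pos hkm) hlt
  rcases (Nat.Prime.dvd_mul hr).1 hr9 with h1 | h1
  · rcases (Nat.Prime.dvd_mul hr).1 h1 with h1 | h1
    · rcases (Nat.Prime.dvd_mul hr).1 h1 with h1 | h1
      · rcases (Nat.Prime.dvd_mul hr).1 h1 with h1 | h1
        · have h2 : r ∣ 2 := by
            rcases (Nat.Prime.dvd_mul hr).1 h1 with h1 | h1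
            · rcases (Nat.Prime.dvd_mul hr).1 h1 with h1 | h1 <;> exact h1
            · exact h1
          exact key 2 3 (by norm_num) h2 (by norm_num) (by norm_num)
        · exact key 3 1 (by norm_num) h1 (by norm_num) (by norm_num)
      · exact key 5 1 (by norm_num) h1 (by norm_num) (by norm_num)
    · exact key 7 1 (by norm_num) h1 (by norm_num) (by norm_num)
  · exact key 11 1 (by norm_num) h1 (by norm_num) (by norm_num)

theorem j1o_fix_of_small {G : Type*} [Group G] (x : G) (hx : orderOf x = 19) (S : Set G)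
    (hS : S.Finite) (hcard : S.ncard < 19) (hconj : ∀ s ∈ S, x * s * x⁻¹ ∈ S) :
    ∀ s ∈ S, x * s = s * x := by
  intro s hs
  let f : G → G := fun g => x * g * x⁻¹
  have hf : ∀ n : ℕ, ∀ g : G, f^[n] g = x ^ n * g * (x ^ n)⁻¹ := by
    intro n
    induction n with
    | zero => intro g; simp
    | succ n ih =>
      intro g
      rw [Function.iterate_succ_apply', ih]
      simp only [f]
      rw [pow_succ']
      group
  have hfS : ∀ n : ℕ, f^[n] s ∈ S := by
    intro n
    induction n with
    | zero => simpa using hs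
    | succ n ih =>
      rw [Function.iterate_succ_apply']
      exact hconj _ ih
  have hper : Function.IsPeriodicPt f 19 s := by
    show f^[19] s = s
    rw [hf, ← hx, pow_orderOf_eq_one]
    simp
  have hdvd : Function.minimalPeriod f s ∣ 19 := hper.minimalPeriod_dvd
  have h19 : Nat.Prime 19 := by norm_num
  rcases (Nat.dvd_prime h19).1 hdvd with h1 | h1
  · have : Function.IsFixedPt f s := Function.minimalPeriod_eq_one_iff_isFixedPt.1 h1
    have e : x * s * x⁻¹ = s := this
    calc x * s = x * s * x⁻¹ * x := by group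
      _ = s * x := by rw [e]
  · exfalso
    have hinj := Function.iterate_injOn_Iio_minimalPeriod (f := f) (x := s)
    rw [h1] at hinj
    have hsub : (fun n => f^[n] s) '' Set.Iio 19 ⊆ S := by
      rintro _ ⟨n, -, rfl⟩
      exact hfS n
    have hc := Set.ncard_le_ncard hsub hS
    rw [Set.InjOn.ncard_image hinj] at hc
    have : (Set.Iio 19 : Set ℕ).ncard = 19 := by
      rw [← Finset.coe_Iio, Set.ncard_coe_finset]
      simp
    omega

theorem j1o_exists_invariant_sylow {G : Type*} [Group G] [Finite G] (N : Subgroup G) [N.Normal]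
    (hN : Nat.card N ∣ 9240) (x : G) (hx : orderOf x = 19) (r : ℕ) [Fact r.Prime] :
    ∃ S : Subgroup G, S ≤ N ∧ Nat.card S = r ^ (Nat.card N).factorization r ∧
      ∀ s ∈ S, x * s * x⁻¹ ∈ S := by
  have : Fact (Nat.Prime 19) := ⟨by norm_num⟩
  let Z : Subgroup (ConjAct G) := Subgroup.zpowers (ConjAct.toConjAct x)
  have hZ : IsPGroup 19 Z := by
    apply IsPGroup.of_card (n := 1)
    rw [pow_one, Nat.card_zpowers, ← hx]
    exact MulEquiv.orderOf_eq ConjAct.toConjAct x
  have hnd : ¬ 19 ∣ Nat.card (Sylow r N) := by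
    intro h
    obtain ⟨P⟩ := (inferInstance : Nonempty (Sylow r N))
    have h1 : Nat.card (Sylow r N) ∣ Nat.card N :=
      (P.card_dvd_index).trans (Subgroup.index_dvd_card _)
    have := (h.trans h1).trans hN
    norm_num at this
  obtain ⟨S, hS⟩ := hZ.nonempty_fixed_point_of_prime_not_dvd_card (Sylow r N) hnd
  have hxS : (⟨ConjAct.toConjAct x, Subgroup.mem_zpowers _⟩ : Z) • S = S := hS _
  refine ⟨(S : Subgroup N).map N.subtype, Subgroup.map_subtype_le _, ?_, ?_⟩
  · rw [Subgroup.card_subtype, Sylow.card_eq_multiplicity]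
  · rintro _ ⟨s, hs, rfl⟩
    have h1 : (ConjAct.toConjAct x) • s ∈ (ConjAct.toConjAct x) • (S : Subgroup N) :=
      Subgroup.smul_mem_pointwise_smul _ _ _ hs
    have h2 : (ConjAct.toConjAct x) • (S : Subgroup N) = (S : Subgroup N) := by
      have := congrArg (fun T : Sylow r N => (T : Subgroup N)) hxS
      exact this
    rw [h2] at h1
    refine ⟨_, h1, ?_⟩
    show ((ConjAct.toConjAct x • s : N) : G) = x * (s : G) * x⁻¹
    rw [ConjAct.Subgroup.val_conj_smul, ConjAct.toConjAct_smul]

theorem j1o_centralize {G : Type*} [Group G] [Finite G] (N : Subgroup G) [N.Normal]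
    (hN : Nat.card N ∣ 9240) (x : G) (hx : orderOf x = 19) : ∀ y ∈ N, x * y = y * x := by
  let C : Subgroup G := N ⊓ Subgroup.centralizer {x}
  have hCN : C ≤ N := inf_le_left
  have hN0 : Nat.card N ≠ 0 := Nat.card_pos.ne'
  have hC0 : Nat.card C ≠ 0 := Nat.card_pos.ne'
  have hdvd : Nat.card N ∣ Nat.card C := by
    rw [← Nat.factorization_prime_le_iff_dvd hN0 hC0]
    intro r hr
    have : Fact r.Prime := ⟨hr⟩
    obtain ⟨S, hSN, hScard, hSx⟩ := j1o_exists_invariant_sylow N hN x hx r
    have hlt : Nat.card S < 19 := by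
      rw [hScard]
      exact j1o_pp_lt r _ hr ((Nat.ordProj_dvd _ _).trans hN)
    have hcen := j1o_fix_of_small x hx (S : Set G) (Set.toFinite _)
      (by rw [← Nat.card_coe_set_eq]; exact hlt) hSx
    have hSC : S ≤ C := by
      intro s hs
      refine ⟨hSN hs, ?_⟩
      show s ∈ Subgroup.centralizer {x}
      rw [Subgroup.mem_centralizer_iff]
      intro h hh
      rw [Set.mem_singleton_iff] at hh
      subst hh
      exact hcen s hs
    have h2 : r ^ (Nat.card N).factorization r ∣ Nat.card C := by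
      rw [← hScard]
      exact Subgroup.card_dvd_of_le hSC
    exact (hr.pow_dvd_iff_le_factorization hC0).1 h2
  have hle : Nat.card N ≤ Nat.card C := Nat.le_of_dvd (Nat.pos_of_ne_zero hC0) hdvd
  have hEq : C = N := Subgroup.eq_of_le_of_card_ge hCN hle
  intro y hy
  have hyC : y ∈ C := by rw [hEq]; exact hy
  exact (Subgroup.mem_centralizer_iff.1 hyC.2) x rfl

end Cfsg.Agent.Helper78
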