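-- helper78 library: piece COMB5 of CALL S5981 (helper98), double.
import Mathlib

set_option autoImplicit false

namespace Cfsg.Agent.Helper78.THCOMB5

/-- lookup in a list of five values -/
def c5v (a0 a1 a2 a3 a4 : ZMod 5) (i : Fin 5) : ZMod 5 :=
  match i.val with
  | 0 => a0
  | 1 => a1
  | 2 => a2
  | 3 => a3
  | _ => a4

set_option maxRecDepth 100000 in
theorem c5_aux : ∀ a0 a1 a2 a3 : ZMod 5,
    ∃ i0 i1 : Fin 5, i1 ≠ i0 ∧ ∃ i2 : Fin 5, (i2 ≠ i0 ∧ i2 ≠ i1 ∧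
      c5v a0 a1 a2 a3 (-(a0 + a1 + a2 + a3)) i1 + c5v a0 a1 a2 a3 (-(a0 + a1 + a2 + a3)) i2 =
        2 * c5v a0 a1 a2 a3 (-(a0 + a1 + a2 + a3)) i0) ∧
      ∃ i3 : Fin 5, (i3 ≠ i0 ∧ i3 ≠ i1 ∧ i3 ≠ i2) ∧ ∃ i4 : Fin 5,
        i4 ≠ i0 ∧ i4 ≠ i1 ∧ i4 ≠ i2 ∧ i4 ≠ i3 ∧
        c5v a0 a1 a2 a3 (-(a0 + a1 + a2 + a3)) i3 + c5v a0 a1 a2 a3 (-(a0 + a1 + a2 + a3)) i4 =
          2 * c5v a0 a1 a2 a3 (-(a0 + a1 + a2 + a3)) i0 := by
  decide +kernel

/-- COMB5 -/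
theorem comb_five (a : Fin 5 → ZMod 5) (h : ∑ i, a i = 0) :
    ∃ σ : Equiv.Perm (Fin 5), a (σ 1) + a (σ 2) = 2 * a (σ 0) ∧ a (σ 3) + a (σ 4) = 2 * a (σ 0) := by
  rw [Fin.sum_univ_five] at h
  have h4 : a 4 = -(a 0 + a 1 + a 2 + a 3) := by linear_combination h
  have hv : ∀ i : Fin 5, c5v (a 0) (a 1) (a 2) (a 3) (-(a 0 + a 1 + a 2 + a 3)) i = a i := by
    intro i
    rw [← h4]
    fin_cases i <;> rfl
  obtain ⟨i0, i1, h10, i2, ⟨h20, h21, e1⟩, i3, ⟨h30, h31, h32⟩, i4, h40, h41, h42, h43, e2⟩ :=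
    c5_aux (a 0) (a 1) (a 2) (a 3)
  rw [hv, hv, hv] at e1 e2
  obtain ⟨f, f0, f1, f2, f3, f4⟩ :
      ∃ f : Fin 5 → Fin 5, f 0 = i0 ∧ f 1 = i1 ∧ f 2 = i2 ∧ f 3 = i3 ∧ f 4 = i4 :=
    ⟨![i0, i1, i2, i3, i4], rfl, rfl, rfl, rfl, rfl⟩
  have key : ∀ x : Fin 5, x = 0 ∨ x = 1 ∨ x = 2 ∨ x = 3 ∨ x = 4 := by decide
  have hinj : Function.Injective f := by
    intro x y hxy
    rcases key x with rfl | rfl | rfl | rfl | rfl <;>
      rcases key y with rfl | rfl | rfl | rfl | rfl <;>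
      first
        | rfl
        | (exfalso
           simp only [f0, f1, f2, f3, f4] at hxy
           first
             | exact h10 hxy | exact h10 hxy.symm
             | exact h20 hxy | exact h20 hxy.symm
             | exact h21 hxy | exact h21 hxy.symm
             | exact h30 hxy | exact h30 hxy.symm
             | exact h31 hxy | exact h31 hxy.symm
             | exact h32 hxy | exact h32 hxy.symm
             | exact h40 hxy | exact h40 hxy.symm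
             | exact h41 hxy | exact h41 hxy.symm
             | exact h42 hxy | exact h42 hxy.symm
             | exact h43 hxy | exact h43 hxy.symm)
  refine ⟨Equiv.ofBijective f (Finite.injective_iff_bijective.mp hinj), ?_, ?_⟩
  · rw [Equiv.ofBijective_apply, Equiv.ofBijective_apply, Equiv.ofBijective_apply, f0, f1, f2]
    exact e1
  · rw [Equiv.ofBijective_apply, Equiv.ofBijective_apply, Equiv.ofBijective_apply, f0, f3, f4]
    exact e2

end Cfsg.Agent.Helper78.THCOMB5
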