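-- helper78 library: pieces UR1, UR2 of CALL S5999 (unitary refinement of a diagonalisation).
import Mathlib
import Cfsg.Prelude.Def_GeometricClasses
import Cfsg.Prelude.Def_LieClassical
import Cfsg.Agent.Helper97.UForm
import Cfsg.Agent.Helper67.HermGS

set_option autoImplicit false
open Cfsg Cfsg.Geo Matrix

namespace Cfsg.Agent.Helper78

variable {F : Type*} [Field F]

/-- A matrix with `gᵀ g^σ = 1` is an isometry of the standard unitary form. -/
theorem e3ur_mem_GU {n q : ℕ} {σ : F ≃+* F} (h : Helper97.IsSigma q σ) (g : GL (Fin n) F)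
    (hg : (g : Matrix (Fin n) (Fin n) F)ᵀ * (g : Matrix (Fin n) (Fin n) F).map σ = 1) :
    g ∈ GU n F q := by
  intro u v
  show hermForm n F q ((g : Matrix (Fin n) (Fin n) F) *ᵥ u) ((g : Matrix (Fin n) (Fin n) F) *ᵥ v)
    = hermForm n F q u v
  rw [h.isSesq.apply_mulVec, h.gram_herm, Matrix.mul_one, hg, h.isSesq.apply_eq, h.gram_herm]

theorem e3ur_map_mul {n : ℕ} (σ : F ≃+* F) (A B : Matrix (Fin n) (Fin n) F) :
    (A * B).map σ = A.map σ * B.map σ := by
  ext i j
  simp [Matrix.mul_apply, map_sum]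

/-- The Gram matrix of an eigenbasis of a unitary matrix vanishes off the eigenvalue blocks. -/
theorem e3ur_gram_zero {n q : ℕ} {σ : F ≃+* F} (h : Helper97.IsSigma q σ) (y : GL (Fin n) F)
    (hy : y ∈ GU n F q) (Q : Matrix (Fin n) (Fin n) F) (d : Fin n → F)
    (hd : ∀ i, d i ^ (q + 1) = 1)
    (hyQ : (y : Matrix (Fin n) (Fin n) F) * Q = Q * Matrix.diagonal d) (i j : Fin n)
    (hij : d i ≠ d j) : (Qᵀ * Q.map σ) i j = 0 := by
  have hy1 := h.GU_matrix y hy
  have h1 : ((y : Matrix (Fin n) (Fin n) F) * Q)ᵀ * ((y : Matrix (Fin n) (Fin n) F) * Q).map σ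
      = Qᵀ * Q.map σ := by
    rw [Matrix.transpose_mul, e3ur_map_mul, Matrix.mul_assoc, ← Matrix.mul_assoc _ _ (Q.map σ), hy1,
      Matrix.one_mul]
  rw [hyQ, Matrix.transpose_mul, e3ur_map_mul, Matrix.diagonal_transpose, Matrix.mul_assoc,
    ← Matrix.mul_assoc Qᵀ] at h1
  have h2 := congrFun (congrFun h1 i) j
  have h3 : (Matrix.diagonal d).map σ = Matrix.diagonal (fun k => σ (d k)) := by
    ext k l
    by_cases hkl : k = l
    · subst hkl; simp
    · simp [Matrix.diagonal_apply_ne _ hkl]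
  rw [h3, Matrix.diagonal_mul, Matrix.mul_diagonal] at h2
  have hdj : d j ≠ 0 := by
    intro h0
    have := hd j
    rw [h0, zero_pow (by omega)] at this
    exact zero_ne_one this
  have h4 : σ (d j) * d j = 1 := by
    rw [h.pow, ← pow_succ, hd j]
  set m := (Qᵀ * Q.map σ) i j with hm
  have h5 : (d i - d j) * m = 0 := by
    have h6 : d i * m * (σ (d j) * d j) = m * d j := by
      linear_combination d j * h2
    rw [h4, mul_one] at h6
    rw [sub_mul, h6, mul_comm]; ring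
  rcases mul_eq_zero.mp h5 with h6 | h6
  · exact absurd (sub_eq_zero.mp h6) hij
  · exact h6

theorem e3ur_gram_herm {n q : ℕ} {σ : F ≃+* F} (h : Helper97.IsSigma q σ)
    (Q : Matrix (Fin n) (Fin n) F) : (Qᵀ * Q.map σ)ᵀ = (Qᵀ * Q.map σ).map σ := by
  ext i j
  simp only [Matrix.transpose_apply, Matrix.mul_apply, Matrix.map_apply, map_sum, map_mul, h.inv]
  exact Finset.sum_congr rfl fun k _ => mul_comm _ _

theorem e3ur_gram_det {n : ℕ} {σ : F ≃+* F} (Q : Matrix (Fin n) (Fin n) F) (hQ : Q.det ≠ 0) :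
    (Qᵀ * Q.map σ).det ≠ 0 := by
  rw [Matrix.det_mul, Matrix.det_transpose]
  have h1 : (Q.map σ).det = σ Q.det := by
    have := (RingHom.map_det (σ : F →+* F) Q).symm
    simpa using this
  rw [h1]
  exact mul_ne_zero hQ (by simpa using hQ)

/-- Finishing step: correct the eigenbasis `Q` by a matrix `C` commuting with `D`. -/
theorem e3ur_finish {n q : ℕ} {σ : F ≃+* F} (h : Helper97.IsSigma q σ) (y : GL (Fin n) F)
    (Q D C : Matrix (Fin n) (Fin n) F)
    (hyQ : (y : Matrix (Fin n) (Fin n) F) * Q = Q * D) (hCD : C * D = D * C)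
    (hC : Cᵀ * (Qᵀ * Q.map σ) * C.map σ = 1) :
    ∃ U : GL (Fin n) F, U ∈ GU n F q ∧
      (y : Matrix (Fin n) (Fin n) F) * (U : Matrix (Fin n) (Fin n) F) =
        (U : Matrix (Fin n) (Fin n) F) * D := by
  have hU : (Q * C)ᵀ * (Q * C).map σ = 1 := by
    rw [Matrix.transpose_mul, e3ur_map_mul, ← hC]
    simp only [Matrix.mul_assoc]
  have hdet : (Q * C).det ≠ 0 := by
    intro h0
    have h1 := congrArg Matrix.det hU
    rw [Matrix.det_mul, Matrix.det_transpose, h0, zero_mul, Matrix.det_one] at h1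
    exact zero_ne_one h1
  refine ⟨Matrix.GeneralLinearGroup.mkOfDetNeZero (Q * C) hdet, ?_, ?_⟩
  · apply e3ur_mem_GU h
    exact hU
  · show (y : Matrix (Fin n) (Fin n) F) * (Q * C) = (Q * C) * D
    rw [← Matrix.mul_assoc, hyQ, Matrix.mul_assoc, ← hCD, Matrix.mul_assoc]

theorem e3u_refine_distinct {F : Type*} [Field F] [Fintype F] {p : ℕ}
    (hF : Fintype.card F = p ^ 2)
    (y : GL (Fin 3) F) (hy : y ∈ Cfsg.GU 3 F p) (Q : Matrix (Fin 3) (Fin 3) F) (hQ : Q.det ≠ 0)
    (a b c : F) (ha : a ^ (p + 1) = 1) (hb : b ^ (p + 1) = 1) (hc : c ^ (p + 1) = 1)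
    (hab : a ≠ b) (hac : a ≠ c) (hbc : b ≠ c)
    (hyQ : (y : Matrix (Fin 3) (Fin 3) F) * Q = Q * Matrix.diagonal ![a, b, c]) :
    ∃ U : GL (Fin 3) F, U ∈ Cfsg.GU 3 F p ∧
      (y : Matrix (Fin 3) (Fin 3) F) * (U : Matrix (Fin 3) (Fin 3) F) =
        (U : Matrix (Fin 3) (Fin 3) F) * Matrix.diagonal ![a, b, c] := by
  classical
  obtain ⟨σ, hσ⟩ := Helper97.exists_sigma hF
  set M := Qᵀ * Q.map σ with hM
  have hd : ∀ i : Fin 3, (![a, b, c] : Fin 3 → F) i ^ (p + 1) = 1 := by
    intro i; fin_cases i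
    · exact ha
    · exact hb
    · exact hc
  have hinj : ∀ i j : Fin 3, i ≠ j → (![a, b, c] : Fin 3 → F) i ≠ (![a, b, c] : Fin 3 → F) j := by
    intro i j hij
    fin_cases i <;> fin_cases j <;> first | exact absurd rfl hij | skip
    · exact hab
    · exact hac
    · exact hab.symm
    · exact hbc
    · exact hac.symm
    · exact hbc.symm
  have hoff : ∀ i j : Fin 3, i ≠ j → M i j = 0 := fun i j hij =>
    e3ur_gram_zero hσ y hy Q _ hd hyQ i j (hinj i j hij)
  have hMd : M = Matrix.diagonal (fun i => M i i) := by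
    ext i j
    by_cases hij : i = j
    · subst hij; simp
    · rw [hoff i j hij, Matrix.diagonal_apply_ne _ hij]
  have hdet : M.det ≠ 0 := e3ur_gram_det Q hQ
  have hm0 : ∀ i : Fin 3, M i i ≠ 0 := by
    intro i h0
    apply hdet
    rw [hMd, Matrix.det_diagonal]
    exact Finset.prod_eq_zero (Finset.mem_univ i) h0
  have hfix : ∀ i : Fin 3, σ (M i i) = M i i := by
    intro i
    have h1 := congrFun (congrFun (e3ur_gram_herm hσ Q) i) i
    rw [Matrix.transpose_apply, Matrix.map_apply] at h1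
    exact h1.symm
  have hex : ∀ i : Fin 3, ∃ l : F, l * σ l = (M i i)⁻¹ := by
    intro i
    apply hσ.exists_norm_eq hF
    · rw [map_inv₀, hfix i]
    · exact inv_ne_zero (hm0 i)
  choose l hl using hex
  apply e3ur_finish hσ y Q (Matrix.diagonal ![a, b, c]) (Matrix.diagonal l) hyQ
  · rw [Matrix.diagonal_mul_diagonal, Matrix.diagonal_mul_diagonal]
    congr 1
    ext i
    exact mul_comm _ _
  · rw [← hM, hMd]
    have h3 : (Matrix.diagonal l).map σ = Matrix.diagonal (fun k => σ (l k)) := by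
      ext k j
      by_cases hkj : k = j
      · subst hkj; simp
      · simp [Matrix.diagonal_apply_ne _ hkj]
    rw [h3, Matrix.diagonal_transpose, Matrix.diagonal_mul_diagonal, Matrix.diagonal_mul_diagonal,
      ← Matrix.diagonal_one]
    congr 1
    ext i
    show l i * M i i * σ (l i) = 1
    have := hl i
    rw [mul_right_comm, this, inv_mul_cancel₀ (hm0 i)]

theorem e3u_refine_double {F : Type*} [Field F] [Fintype F] {p : ℕ}
    (hF : Fintype.card F = p ^ 2)
    (y : GL (Fin 3) F) (hy : y ∈ Cfsg.GU 3 F p) (Q : Matrix (Fin 3) (Fin 3) F) (hQ : Q.det ≠ 0)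
    (a b : F) (ha : a ^ (p + 1) = 1) (hb : b ^ (p + 1) = 1) (hab : a ≠ b)
    (hyQ : (y : Matrix (Fin 3) (Fin 3) F) * Q = Q * Matrix.diagonal ![a, b, b]) :
    ∃ U : GL (Fin 3) F, U ∈ Cfsg.GU 3 F p ∧
      (y : Matrix (Fin 3) (Fin 3) F) * (U : Matrix (Fin 3) (Fin 3) F) =
        (U : Matrix (Fin 3) (Fin 3) F) * Matrix.diagonal ![a, b, b] := by
  classical
  obtain ⟨σ, hσ⟩ := Helper97.exists_sigma hF
  set M := Qᵀ * Q.map σ with hM
  have hd : ∀ i : Fin 3, (![a, b, b] : Fin 3 → F) i ^ (p + 1) = 1 := by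
    intro i; fin_cases i
    · exact ha
    · exact hb
    · exact hb
  have h01 : M 0 1 = 0 := e3ur_gram_zero hσ y hy Q _ hd hyQ 0 1 hab
  have h02 : M 0 2 = 0 := e3ur_gram_zero hσ y hy Q _ hd hyQ 0 2 hab
  have h10 : M 1 0 = 0 := e3ur_gram_zero hσ y hy Q _ hd hyQ 1 0 hab.symm
  have h20 : M 2 0 = 0 := e3ur_gram_zero hσ y hy Q _ hd hyQ 2 0 hab.symm
  have hdet : M.det ≠ 0 := e3ur_gram_det Q hQ
  have hherm : Mᵀ = M.map σ := e3ur_gram_herm hσ Q
  set M' : Matrix (Fin 2) (Fin 2) F := !![M 1 1, M 1 2; M 2 1, M 2 2] with hM'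
  have hdetM : M.det = M 0 0 * M'.det := by
    rw [Matrix.det_fin_three, Matrix.det_fin_two, h01, h02, h10, h20, hM']
    simp
    ring
  have hm0 : M 0 0 ≠ 0 := by
    intro h0; apply hdet; rw [hdetM, h0, zero_mul]
  have hdet' : M'.det ≠ 0 := by
    intro h0; apply hdet; rw [hdetM, h0, mul_zero]
  have hfix : σ (M 0 0) = M 0 0 := by
    have h1 := congrFun (congrFun hherm 0) 0
    rw [Matrix.transpose_apply, Matrix.map_apply] at h1
    exact h1.symm
  have hherm' : M'ᵀ = M'.map σ := by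
    have e := fun i j => congrFun (congrFun hherm i) j
    simp only [Matrix.transpose_apply, Matrix.map_apply] at e
    ext i j
    fin_cases i <;> fin_cases j
    · exact e 1 1
    · exact e 1 2
    · exact e 2 1
    · exact e 2 2
  obtain ⟨U', -, hU'⟩ := Helper67.herm_gram_schmidt p hF σ hσ.pow 2 M' hherm' hdet'
  obtain ⟨l, hl⟩ := hσ.exists_norm_eq hF (M 0 0)⁻¹ (by rw [map_inv₀, hfix]) (inv_ne_zero hm0)
  have e00 := congrFun (congrFun hU' 0) 0
  have e01 := congrFun (congrFun hU' 0) 1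
  have e10 := congrFun (congrFun hU' 1) 0
  have e11 := congrFun (congrFun hU' 1) 1
  simp [Matrix.mul_apply, Fin.sum_univ_two, hM'] at e00 e01 e10 e11
  apply e3ur_finish hσ y Q (Matrix.diagonal ![a, b, b])
    !![l, 0, 0; 0, U' 0 0, U' 0 1; 0, U' 1 0, U' 1 1] hyQ
  · ext i j
    fin_cases i <;> fin_cases j <;>
      simp [Matrix.mul_apply, Matrix.diagonal_apply, mul_comm]
  · rw [← hM]
    have hl' : l * M 0 0 * σ l = 1 := by
      rw [mul_right_comm, hl, inv_mul_cancel₀ hm0]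
    ext i j
    fin_cases i <;> fin_cases j <;>
      simp [Matrix.mul_apply, Fin.sum_univ_three, h01, h02, h10, h20]
    · exact hl'
    · linear_combination e00
    · linear_combination e01
    · linear_combination e10
    · linear_combination e11

end Cfsg.Agent.Helper78
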