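import Cfsg.Agent.Helper16.Fong
import Cfsg.Agent.Helper16.HeightZero
import Cfsg.Agent.Helper4.GoingDown
import Cfsg.Agent.Helper15.CharInner
import Cfsg.Agent.S0927

/-!
# Blocks with abelian defect groups over a normal subgroup of `p`-power index (helper78)

`N ⊴ G` of `p`-power index, `b` a `G`-invariant block of `N`, `B` the block of `G` covering `b`,
with abelian defect group `P`.

* `abelCover_mem_of_over`: a character of `G` over `b` lies in `B`.
* `abelCover_sup_eq_top`, `abelCover_isDefectGroup`: `N P = G`, `P ∩ N` is a defect group of `b`.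
* `abelCover_exists_ne_zero`: a `p`-regular `y ∈ N` with `χ (x y) ≠ 0` for all `x ∈ P`, `χ ∈ B`.
* `abelCover_res_irr`: every `χ ∈ B` restricts irreducibly to `N`.
* `abelCover_res_mem`, `abelCover_card_fiber`, `abelCover_card`, `abelCover_blockRank`.
-/

set_option autoImplicit false
set_option linter.unusedSectionVars false
open Cfsg
open scoped ComplexConjugate

namespace Cfsg.Agent.Helper78

universe u

section abelCover

variable {G : Type u} [Group G] [Fintype G] {p : ℕ} [Fact p.Prime] {M : Ideal Cfsg.AlgInt}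
  (N : Subgroup G) [hN : N.Normal] [Fintype N] {b : Set (Cfsg.IrrCharacter N)}
  {B : Set (Cfsg.IrrCharacter G)}

/-- `G/N` a `p`-group: a character of `G` lying over a member of `b` lies in the block `B`
covering `b`. -/
theorem abelCover_mem_of_over (hM : Cfsg.IsPModular p M) (hNi : ∃ k : ℕ, N.index = p ^ k)
    (hb : Cfsg.IsPBlock M b) (hB : Cfsg.IsPBlock M B)
    (hcov : ∃ χ ∈ B, ∃ θ ∈ b, Cfsg.classInner (fun n : N => (χ : G → ℂ) n) (θ : N → ℂ) ≠ 0)
    (χ : Cfsg.IrrCharacter G) (θ : Cfsg.IrrCharacter N) (hθ : θ ∈ b)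
    (hχ : Cfsg.classInner (fun n : N => (χ : G → ℂ) n) (θ : N → ℂ) ≠ 0) : χ ∈ B := by
  have hMm := hM.2.1
  obtain ⟨χ₀, hχ₀, θ₀, hθ₀, h₀⟩ := hcov
  have h1 := Helper76.sameBlock_of_constituents_sameBlock hM N hNi χ₀ χ θ₀ θ
    (Helper16.sameBlock_of_mem hMm hb hθ₀ hθ) h₀ hχ
  rw [Helper16.eq_blockOf_of_mem hMm hB hχ₀]
  exact h1

/-- Every member of `B` lies over `b`. -/
theorem abelCover_exists_under (hM : Cfsg.IsPModular p M)
    (hb : Cfsg.IsPBlock M b) (hinv : ∀ g : G, ∀ θ ∈ b, Helper16.irrConj N g θ ∈ b)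
    (hB : Cfsg.IsPBlock M B)
    (hcov : ∃ χ ∈ B, ∃ θ ∈ b, Cfsg.classInner (fun n : N => (χ : G → ℂ) n) (θ : N → ℂ) ≠ 0)
    (χ : Cfsg.IrrCharacter G) (hχ : χ ∈ B) :
    ∃ θ ∈ b, Cfsg.classInner (fun n : N => (χ : G → ℂ) n) (θ : N → ℂ) ≠ 0 := by
  have hMm := hM.2.1
  obtain ⟨χ₀, hχ₀, θ₀, hθ₀, h₀⟩ := hcov
  exact Helper16.fong_cover_closed N hMm hb hinv χ₀ χ ⟨θ₀, hθ₀, h₀⟩
    (Helper16.sameBlock_of_mem hMm hB hχ₀ hχ)

/-- Fong: `N P = G` and `P ∩ N` is a defect group of `b`. -/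
theorem abelCover_fong (hM : Cfsg.IsPModular p M) (hNi : ∃ k : ℕ, N.index = p ^ k)
    (hb : Cfsg.IsPBlock M b) (hinv : ∀ g : G, ∀ θ ∈ b, Helper16.irrConj N g θ ∈ b)
    (hB : Cfsg.IsPBlock M B)
    (hcov : ∃ χ ∈ B, ∃ θ ∈ b, Cfsg.classInner (fun n : N => (χ : G → ℂ) n) (θ : N → ℂ) ≠ 0)
    {P : Subgroup G} (hPD : Cfsg.IsDefectGroup p M B P) :
    N ⊔ P = ⊤ ∧ Cfsg.IsDefectGroup p M b ((P ⊓ N).subgroupOf N) := by
  have hMm := hM.2.1
  have hp : p.Prime := Fact.out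
  have hmax : ∀ B' : Set (Cfsg.IrrCharacter G), Cfsg.IsPBlock M B' →
      (∃ χ ∈ B', ∃ θ ∈ b, Cfsg.classInner (fun n : N => (χ : G → ℂ) n) (θ : N → ℂ) ≠ 0) →
      Cfsg.blockDefect p B' ≤ Cfsg.blockDefect p B := by
    rintro B' hB' ⟨χ, hχ, θ, hθ, h⟩
    have h1 := abelCover_mem_of_over N hM hNi hb hB hcov χ θ hθ h
    have h2 : B' = B := by
      rw [Helper16.eq_blockOf_of_mem hMm hB' hχ, Helper16.eq_blockOf_of_mem hMm hB h1]
    rw [h2]
  obtain ⟨h1, h2, -⟩ := Helper16.fong_main N hM hb hinv hB hcov hmax hPD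
  refine ⟨?_, h2⟩
  obtain ⟨k, hk⟩ := hNi
  have h3 : (P ⊔ N).index ∣ p ^ k := by
    rw [← hk]
    exact Subgroup.index_dvd_of_le le_sup_right
  obtain ⟨j, -, hj⟩ := (Nat.dvd_prime_pow hp).mp h3
  have hj0 : j = 0 := by
    by_contra hne
    apply h1
    rw [hj]
    exact dvd_pow_self p hne
  rw [hj0, pow_zero] at hj
  rw [sup_comm]
  exact Subgroup.index_eq_one.mp hj

/-- A `p`-regular element `y ∈ N` such that no member of `B` vanishes at `x * y`, `x ∈ P`. -/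
theorem abelCover_exists_ne_zero (hM : Cfsg.IsPModular p M) (hNi : ∃ k : ℕ, N.index = p ^ k)
    (hB : Cfsg.IsPBlock M B) {P : Subgroup G} (hPD : Cfsg.IsDefectGroup p M B P)
    (hPab : ∀ x ∈ P, ∀ y ∈ P, x * y = y * x) :
    ∃ y ∈ N, ∀ x ∈ P, ∀ χ ∈ B, (χ : G → ℂ) (x * y) ≠ 0 := by
  have hMm := hM.2.1
  obtain ⟨y, hy, P', rfl⟩ := hPD
  refine ⟨y, ?_, ?_⟩
  · apply Helper76.mem_of_index_pow_of_pRegular N hNi
    intro hdvd
    apply hy.2.1
    rw [Helper77.blockCoeff_eq_zero_of_dvd_orderOf hM hB hdvd]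
    exact Helper77.memLocalIdeal_zero hMm
  · rintro x ⟨x', hx', rfl⟩ χ hχ h0
    have h1 := (Cfsg.Agent.S0927.result p M hM B hB y hy P' x' hx').2 (by
      intro w hw
      apply Subtype.ext
      exact hPab _ ⟨x', hx', rfl⟩ _ ⟨w, hw, rfl⟩) χ hχ
    apply h1
    unfold Cfsg.centralChar
    have h2 : (χ : G → ℂ) ((x' : G) * y) = 0 := h0
    rw [h2, mul_zero, zero_div]
    exact Helper77.memLocalIdeal_zero hMm

/-- If `N P = G` with `P` abelian and `χ` does not vanish at the elements `x * y` (`x ∈ P`) for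
some `y ∈ N`, then `χ` restricts irreducibly to `N`. -/
theorem abelCover_res_irr {P : Subgroup G} (hsup : N ⊔ P = ⊤)
    (hPab : ∀ x ∈ P, ∀ y ∈ P, x * y = y * x) {y : G} (hyN : y ∈ N) (χ : Cfsg.IrrCharacter G)
    (hne : ∀ x ∈ P, (χ : G → ℂ) (x * y) ≠ 0) :
    Cfsg.IsIrrCharacter N (fun n : N => (χ : G → ℂ) n) := by
  classical
  have hrep : ∀ g : G, ∃ x ∈ P, (QuotientGroup.mk g : G ⧸ N) = QuotientGroup.mk x := by
    intro g
    have hg : g ∈ ((N ⊔ P : Subgroup G) : Set G) := by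
      rw [hsup]
      exact Set.mem_univ g
    rw [Subgroup.normal_mul] at hg
    obtain ⟨n, hn, x, hx, rfl⟩ := Set.mem_mul.mp hg
    refine ⟨x, hx, ?_⟩
    rw [QuotientGroup.mk_mul, (QuotientGroup.eq_one_iff n).mpr hn, one_mul]
  have hQ : ∀ a b : G ⧸ N, a * b = b * a := by
    intro a b
    induction a using QuotientGroup.induction_on with
    | _ g₁ =>
      induction b using QuotientGroup.induction_on with
      | _ g₂ =>
        obtain ⟨x₁, hx₁, e₁⟩ := hrep g₁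
        obtain ⟨x₂, hx₂, e₂⟩ := hrep g₂
        rw [e₁, e₂, ← QuotientGroup.mk_mul, ← QuotientGroup.mk_mul, hPab x₁ hx₁ x₂ hx₂]
  have hfree : ∀ μ : (G ⧸ N) →* ℂˣ,
      (∀ k : G, ((μ (QuotientGroup.mk k) : ℂˣ) : ℂ) * (χ : G → ℂ) k = (χ : G → ℂ) k) → μ = 1 := by
    intro μ hμ
    refine MonoidHom.ext fun a => ?_
    induction a using QuotientGroup.induction_on with
    | _ g =>
      obtain ⟨x, hx, e⟩ := hrep g
      have h1 := hμ (x * y)
      have h2 : ((μ (QuotientGroup.mk (x * y)) : ℂˣ) : ℂ) = 1 :=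
        mul_right_cancel₀ (hne x hx) (h1.trans (one_mul _).symm)
      have h3 : (QuotientGroup.mk (x * y) : G ⧸ N) = QuotientGroup.mk x := by
        rw [QuotientGroup.mk_mul, (QuotientGroup.eq_one_iff y).mpr hyN, mul_one]
      rw [e, ← h3, MonoidHom.one_apply]
      exact Units.ext h2
  have h1 := Helper4.twist_count N hQ (χ : G → ℂ) χ.2 hfree
  have h2 := Helper4.sum_normSq_eq_classInner (fun n : N => (χ : G → ℂ) n)
  have h3 : Cfsg.classInner (fun n : N => (χ : G → ℂ) n) (fun n : N => (χ : G → ℂ) n) = 1 := by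
    have hidx := N.index_mul_card
    have hN0 : (Nat.card N : ℂ) ≠ 0 := by exact_mod_cast (Nat.card_pos (α := N)).ne'
    have hi0 : (N.index : ℂ) ≠ 0 := by
      exact_mod_cast (Subgroup.index_ne_zero_of_finite (H := N))
    have h4 : (N.index : ℂ) * ((∑ n : N, Complex.normSq ((χ : G → ℂ) n) : ℝ) : ℂ)
        = (Nat.card G : ℂ) := by
      exact_mod_cast congrArg (fun r : ℝ => (r : ℂ)) h1
    rw [h2] at h4
    have h5 : (Nat.card G : ℂ) = (N.index : ℂ) * (Nat.card N : ℂ) := by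
      rw [← hidx]
      push_cast
      ring
    rw [h5] at h4
    have h6 := mul_left_cancel₀ hi0 h4
    exact mul_left_cancel₀ hN0 (h6.trans (mul_one _).symm)
  exact Helper15.isIrr_of_inner_one
    (Helper79.isCharacter_restrict (Helper80.isCharacter_of_irr χ.2) N) h3

/-- The irreducible restriction of a member of `B` lies in `b`. -/
theorem abelCover_res_mem (hM : Cfsg.IsPModular p M)
    (hb : Cfsg.IsPBlock M b) (hinv : ∀ g : G, ∀ θ ∈ b, Helper16.irrConj N g θ ∈ b)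
    (hB : Cfsg.IsPBlock M B)
    (hcov : ∃ χ ∈ B, ∃ θ ∈ b, Cfsg.classInner (fun n : N => (χ : G → ℂ) n) (θ : N → ℂ) ≠ 0)
    (χ : Cfsg.IrrCharacter G) (hχ : χ ∈ B)
    (hirr : Cfsg.IsIrrCharacter N (fun n : N => (χ : G → ℂ) n)) :
    (⟨fun n : N => (χ : G → ℂ) n, hirr⟩ : Cfsg.IrrCharacter N) ∈ b := by
  obtain ⟨θ, hθb, hθ⟩ := abelCover_exists_under N hM hb hinv hB hcov χ hχ
  have h1 := Helper75.classInner_irr (⟨fun n : N => (χ : G → ℂ) n, hirr⟩ : Cfsg.IrrCharacter N) θ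
  by_cases heq : (⟨fun n : N => (χ : G → ℂ) n, hirr⟩ : Cfsg.IrrCharacter N) = θ
  · rw [heq]
    exact hθb
  · rw [if_neg heq] at h1
    exact absurd h1 hθ

/-- Each member of `b` is the restriction of exactly `[G : N]` members of `B`. -/
theorem abelCover_card_fiber
    (hres : ∀ χ ∈ B, Cfsg.IsIrrCharacter N (fun n : N => (χ : G → ℂ) n))
    (hover : ∀ (χ : Cfsg.IrrCharacter G) (θ : Cfsg.IrrCharacter N), θ ∈ b →
      Cfsg.classInner (fun n : N => (χ : G → ℂ) n) (θ : N → ℂ) ≠ 0 → χ ∈ B)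
    (θ : Cfsg.IrrCharacter N) (hθ : θ ∈ b) :
    Nat.card {χ : Cfsg.IrrCharacter G // χ ∈ B ∧ ∀ n : N, (χ : G → ℂ) n = (θ : N → ℂ) n}
      = N.index := by
  classical
  have : Fintype (Cfsg.IrrCharacter G) := Fintype.ofFinite _
  have hin : ∀ χ : Cfsg.IrrCharacter G,
      Cfsg.classInner (fun n : N => (χ : G → ℂ) n) (θ : N → ℂ)
        = if (∀ n : N, (χ : G → ℂ) n = (θ : N → ℂ) n) then 1 else 0 := by
    intro χ
    by_cases h : ∀ n : N, (χ : G → ℂ) n = (θ : N → ℂ) n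
    · rw [if_pos h]
      have e : (fun n : N => (χ : G → ℂ) n) = (θ : N → ℂ) := funext h
      rw [e]
      have h1 := Helper75.classInner_irr θ θ
      rw [if_pos rfl] at h1
      exact h1
    · rw [if_neg h]
      by_contra hne
      have hχB := hover χ θ hθ hne
      have hirr := hres χ hχB
      have h1 := Helper75.classInner_irr
        (⟨fun n : N => (χ : G → ℂ) n, hirr⟩ : Cfsg.IrrCharacter N) θ
      by_cases heq : (⟨fun n : N => (χ : G → ℂ) n, hirr⟩ : Cfsg.IrrCharacter N) = θ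
      · apply h
        intro n
        exact congrFun (congrArg Subtype.val heq) n
      · rw [if_neg heq] at h1
        exact hne h1
  have hN0 : (Nat.card N : ℂ) ≠ 0 := by exact_mod_cast (Nat.card_pos (α := N)).ne'
  have hθ1 : conj ((θ : N → ℂ) 1) = (θ : N → ℂ) 1 := by
    rw [Helper81.irr_one_eq_charDegree θ, Complex.conj_natCast]
  have hI : ∑ χ : Cfsg.IrrCharacter G, (χ : G → ℂ) 1 *
      Cfsg.classInner (fun n : N => (χ : G → ℂ) n) (θ : N → ℂ)
      = (N.index : ℂ) * (θ : N → ℂ) 1 := by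
    unfold Cfsg.classInner
    have h1 : ∀ χ : Cfsg.IrrCharacter G, (χ : G → ℂ) 1 *
        ((Nat.card N : ℂ)⁻¹ * ∑ n : N, (χ : G → ℂ) n * conj ((θ : N → ℂ) n))
        = (Nat.card N : ℂ)⁻¹ * ∑ n : N, ((χ : G → ℂ) 1 * (χ : G → ℂ) n) * conj ((θ : N → ℂ) n) := by
      intro χ
      rw [mul_left_comm, Finset.mul_sum]
      congr 1
      apply Finset.sum_congr rfl
      intro n _
      ring
    simp_rw [h1]
    rw [← Finset.mul_sum, Finset.sum_comm]
    have h2 : ∀ n : N, ∑ χ : Cfsg.IrrCharacter G,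
        ((χ : G → ℂ) 1 * (χ : G → ℂ) n) * conj ((θ : N → ℂ) n)
        = (if (n : G) = 1 then (Nat.card G : ℂ) else 0) * conj ((θ : N → ℂ) n) := by
      intro n
      rw [← Finset.sum_mul, Helper81.sum_irr_one_mul (n : G)]
    simp_rw [h2]
    rw [Finset.sum_eq_single (1 : N)]
    · rw [if_pos (by rfl), hθ1, ← N.index_mul_card]
      push_cast
      field_simp
    · intro n _ hn
      rw [if_neg, zero_mul]
      intro h
      apply hn
      exact Subtype.ext h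
    · intro h
      exact absurd (Finset.mem_univ _) h
  simp_rw [hin] at hI
  have hI2 : ∑ χ : Cfsg.IrrCharacter G,
      (χ : G → ℂ) 1 * (if (∀ n : N, (χ : G → ℂ) n = (θ : N → ℂ) n) then (1 : ℂ) else 0)
      = ((Finset.univ.filter
          (fun χ : Cfsg.IrrCharacter G => ∀ n : N, (χ : G → ℂ) n = (θ : N → ℂ) n)).card : ℂ)
        * (θ : N → ℂ) 1 := by
    rw [Finset.card_eq_sum_ones, Nat.cast_sum, Finset.sum_mul, Finset.sum_filter]
    apply Finset.sum_congr rfl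
    intro χ _
    by_cases h : ∀ n : N, (χ : G → ℂ) n = (θ : N → ℂ) n
    · rw [if_pos h, if_pos h, mul_one, Nat.cast_one, one_mul]
      exact h 1
    · rw [if_neg h, if_neg h, mul_zero]
  rw [hI2] at hI
  have hcard := mul_right_cancel₀ (Helper81.irr_one_ne_zero θ) hI
  have hcard' : (Finset.univ.filter
      (fun χ : Cfsg.IrrCharacter G => ∀ n : N, (χ : G → ℂ) n = (θ : N → ℂ) n)).card
      = N.index := by exact_mod_cast hcard
  rw [← hcard', ← Fintype.card_subtype, ← Nat.card_eq_fintype_card]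
  apply Nat.card_congr
  refine Equiv.subtypeEquivRight (fun χ => ⟨fun h => h.2, fun h => ⟨?_, h⟩⟩)
  apply hover χ θ hθ
  rw [hin χ, if_pos h]
  exact one_ne_zero

/-- `|B| = [G : N] |b|`. -/
theorem abelCover_card
    (hres : ∀ χ ∈ B, ∃ θ ∈ b, ∀ n : N, (χ : G → ℂ) n = (θ : N → ℂ) n)
    (hfib : ∀ θ ∈ b,
      Nat.card {χ : Cfsg.IrrCharacter G // χ ∈ B ∧ ∀ n : N, (χ : G → ℂ) n = (θ : N → ℂ) n}
        = N.index) :
    Nat.card B = N.index * Nat.card b := by
  classical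
  have : Fintype (Cfsg.IrrCharacter N) := Fintype.ofFinite _
  have : Fintype b := Fintype.ofFinite _
  choose f hfb hf using hres
  obtain ⟨F, hF⟩ : ∃ F : B → b, ∀ χ : B, (F χ : Cfsg.IrrCharacter N) = f χ.1 χ.2 :=
    ⟨fun χ => ⟨f χ.1 χ.2, hfb χ.1 χ.2⟩, fun χ => rfl⟩
  have e1 := Equiv.sigmaFiberEquiv F
  rw [← Nat.card_congr e1, Nat.card_sigma]
  have hfib' : ∀ θ : b, Nat.card {χ : B // F χ = θ} = N.index := by
    intro θ
    rw [← hfib θ.1 θ.2]
    apply Nat.card_congr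
    refine (Equiv.subtypeEquivRight (fun χ : B => ?_)).trans
      (Equiv.subtypeSubtypeEquivSubtypeInter (fun χ : Cfsg.IrrCharacter G => χ ∈ B)
        (fun χ : Cfsg.IrrCharacter G => ∀ n : N, (χ : G → ℂ) n = ((θ : Cfsg.IrrCharacter N) : N → ℂ) n))
    constructor
    · intro h n
      rw [hf χ.1 χ.2 n, ← hF χ, h]
    · intro h
      apply Subtype.ext
      rw [hF χ]
      apply Subtype.ext
      funext n
      exact (hf χ.1 χ.2 n).symm.trans (h n)
  simp_rw [hfib']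
  rw [Finset.sum_const, Finset.card_univ, smul_eq_mul, mul_comm, Nat.card_eq_fintype_card]

/-- Extension by zero as a linear map. -/
noncomputable def ext0Lin (N : Subgroup G) : (N → ℂ) →ₗ[ℂ] (G → ℂ) where
  toFun f := Helper16.ext0 N f
  map_add' f g := by
    funext x
    by_cases hx : x ∈ N
    · rw [Pi.add_apply, Helper16.ext0_apply_mem N _ hx, Helper16.ext0_apply_mem N _ hx,
        Helper16.ext0_apply_mem N _ hx]
      rfl
    · rw [Pi.add_apply, Helper16.ext0_apply_not_mem N _ hx, Helper16.ext0_apply_not_mem N _ hx,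
        Helper16.ext0_apply_not_mem N _ hx, add_zero]
  map_smul' c f := by
    funext x
    by_cases hx : x ∈ N
    · simp only [RingHom.id_apply, Pi.smul_apply]
      rw [Helper16.ext0_apply_mem N _ hx, Helper16.ext0_apply_mem N _ hx]
      rfl
    · simp only [RingHom.id_apply, Pi.smul_apply]
      rw [Helper16.ext0_apply_not_mem N _ hx, Helper16.ext0_apply_not_mem N _ hx, smul_zero]

theorem ext0Lin_apply (N : Subgroup G) (f : N → ℂ) : ext0Lin N f = Helper16.ext0 N f := rfl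

theorem ext0Lin_injective (N : Subgroup G) : Function.Injective (ext0Lin N) := by
  intro f g h
  funext k
  have h1 := congrFun h (k : G)
  rw [ext0Lin_apply, ext0Lin_apply, Helper16.ext0_apply_coe, Helper16.ext0_apply_coe] at h1
  exact h1

theorem ext0Lin_pRegularPart (hNi : ∃ k : ℕ, N.index = p ^ k) (χ : Cfsg.IrrCharacter G)
    (θ : Cfsg.IrrCharacter N) (h : ∀ n : N, (χ : G → ℂ) n = (θ : N → ℂ) n) :
    ext0Lin N (Cfsg.pRegularPart p (θ : N → ℂ)) = Cfsg.pRegularPart p (χ : G → ℂ) := by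
  funext g
  rw [ext0Lin_apply]
  by_cases hg : g ∈ N
  · rw [Helper16.ext0_apply_mem N _ hg]
    unfold Cfsg.pRegularPart Cfsg.IsPRegular
    have e : orderOf (⟨g, hg⟩ : N) = orderOf g := Subgroup.orderOf_mk g hg
    rw [e, ← h ⟨g, hg⟩]
  · rw [Helper16.ext0_apply_not_mem N _ hg]
    unfold Cfsg.pRegularPart
    rw [if_neg]
    intro hreg
    exact hg (Helper76.mem_of_index_pow_of_pRegular N hNi hreg)

/-- `l(B) = l(b)`. -/
theorem abelCover_blockRank (hNi : ∃ k : ℕ, N.index = p ^ k)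
    (hres : ∀ χ ∈ B, ∃ θ ∈ b, ∀ n : N, (χ : G → ℂ) n = (θ : N → ℂ) n)
    (hsurj : ∀ θ ∈ b, ∃ χ ∈ B, ∀ n : N, (χ : G → ℂ) n = (θ : N → ℂ) n) :
    Cfsg.blockRank p B = Cfsg.blockRank p b := by
  unfold Cfsg.blockRank
  have himg : (fun χ : Cfsg.IrrCharacter G => Cfsg.pRegularPart p (χ : G → ℂ)) '' B
      = ext0Lin N '' ((fun θ : Cfsg.IrrCharacter N => Cfsg.pRegularPart p (θ : N → ℂ)) '' b) := by
    ext f
    constructor
    · rintro ⟨χ, hχ, rfl⟩
      obtain ⟨θ, hθ, h⟩ := hres χ hχ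
      exact ⟨_, ⟨θ, hθ, rfl⟩, ext0Lin_pRegularPart N hNi χ θ h⟩
    · rintro ⟨_, ⟨θ, hθ, rfl⟩, rfl⟩
      obtain ⟨χ, hχ, h⟩ := hsurj θ hθ
      exact ⟨χ, hχ, (ext0Lin_pRegularPart N hNi χ θ h).symm⟩
  rw [himg, ← Submodule.map_span]
  exact (LinearEquiv.finrank_eq
    (Submodule.equivMapOfInjective (ext0Lin N) (ext0Lin_injective N) _)).symm

end abelCover

end Cfsg.Agent.Helper78
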