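import Mathlib
import Cfsg.Agent.Helper1.Hall
import Cfsg.Prelude.Def_OddOrder
import Cfsg.Agent.Helper35.HallCoprime

/-!
Piece HC of CALL S1438 (helper2): Hall conjugacy in a maximal subgroup of a minimal simple
group of odd order.
-/

set_option autoImplicit false

namespace Cfsg.Agent.Helper78

open Cfsg Subgroup
open scoped Pointwise

universe u

variable {G : Type u} [Group G] [Finite G]

/-- HC. Hall conjugacy in the solvable group `M`: a `π`-subgroup is `M`-conjugate into a given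
Hall `π`-subgroup (`Helper1.hall_le_aux` + `Helper1.hall_conj_aux` inside `↥M`). -/
theorem bg157_hall_conj (hG : IsMinSimpleOddOrder G) {M : Subgroup G} (hM : IsCoatom M)
    {π : Set ℕ} {U X : Subgroup G} (hU : IsPiHallOf π U M) (hXM : X ≤ M)
    (hX : ∀ p : ℕ, p.Prime → p ∣ Nat.card X → p ∈ π) :
    ∃ m ∈ M, X.map (MulAut.conj m).toMonoidHom ≤ U := by
  classical
  have : Group.IsSolvable M := hG.2.2.2 M hM.1
  obtain ⟨m, n, hmn, hcop, hm, hn⟩ :=
    Cfsg.Agent.Helper35.exists_pi_factorization π (Nat.card M) Nat.card_pos.ne'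
  have hXn : (Nat.card (X.subgroupOf M)).Coprime n := by
    rw [Nat.card_congr (Subgroup.subgroupOfEquivOfLe hXM).toEquiv]
    by_contra h
    obtain ⟨p, hp, hpd⟩ := Nat.exists_prime_and_dvd h
    exact hn p hp (hX p hp (hpd.trans (Nat.gcd_dvd_left _ _))) (hpd.trans (Nat.gcd_dvd_right _ _))
  obtain ⟨H, hH, hle⟩ := Cfsg.Agent.Helper1.hall_le_aux (Nat.card M) M m n rfl hmn hcop
    (X.subgroupOf M) hXn
  obtain ⟨hUM, hUm⟩ := (Cfsg.Agent.Helper35.isPiHallOf_iff_card hmn hm hn U).mp hU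
  have hU' : Nat.card (U.subgroupOf M) = m := by
    rw [Nat.card_congr (Subgroup.subgroupOfEquivOfLe hUM).toEquiv, hUm]
  obtain ⟨g, hg⟩ := Cfsg.Agent.Helper1.hall_conj_aux (Nat.card M) M m n rfl hmn hcop H
    (U.subgroupOf M) hH hU'
  refine ⟨(g : G), g.2, ?_⟩
  rintro _ ⟨x, hx, rfl⟩
  have h1 : (⟨x, hXM hx⟩ : ↥M) ∈ H := hle (Subgroup.mem_subgroupOf.mpr hx)
  have h2 : MulAut.conj g • (⟨x, hXM hx⟩ : ↥M) ∈ MulAut.conj g • H :=
    Subgroup.smul_mem_pointwise_smul _ _ _ h1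
  rw [hg, Subgroup.mem_subgroupOf] at h2
  exact h2

end Cfsg.Agent.Helper78
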