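import Mathlib
import Cfsg.Prelude.Def_OddOrderLocal

/-!
Piece MN of CALL S1437 (helper2): `M` normalizes `Q ⊓ C(D₀)`.
-/

set_option autoImplicit false
set_option linter.unusedSectionVars false

namespace Cfsg.Agent.Helper78

open Cfsg Subgroup

universe u

variable {G : Type u} [Group G] [Finite G]

/-- MN (pure). `M` normalizes `Q ⊓ C(D₀)`, and `Q ⊓ C(D) = Q ⊓ C(D₀)` for every complement `D`. -/
theorem bg15b_M_norm {M S Q D₀ : Subgroup G} (hD₀ : IsComplIn Q D₀ S)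
    (hMQ : M ≤ normalizer (Q : Set G)) (hMS : M ≤ normalizer (S : Set G)) (hSM : S ≤ M)
    (hcj : ∀ D : Subgroup G, IsComplIn Q D S →
      ∃ u ∈ S, D = D₀.map (MulAut.conj u).toMonoidHom)
    (hQn : Q ≤ normalizer ((Q ⊓ centralizer (D₀ : Set G) : Subgroup G) : Set G)) :
    M ≤ normalizer ((Q ⊓ centralizer (D₀ : Set G) : Subgroup G) : Set G) ∧
      ∀ D : Subgroup G, IsComplIn Q D S →
        Q ⊓ centralizer (D : Set G) = Q ⊓ centralizer (D₀ : Set G) := by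
  obtain ⟨hQS, hD₀S, hQD₀, hprod⟩ := hD₀
  obtain ⟨Q₁, hQ₁⟩ : ∃ Q₁ : Subgroup G, Q₁ = Q ⊓ centralizer (D₀ : Set G) := ⟨_, rfl⟩
  rw [← hQ₁] at hQn ⊢
  have hQ₁mem : ∀ x, x ∈ Q₁ ↔ x ∈ Q ∧ ∀ d ∈ D₀, d * x = x * d := by
    intro x
    rw [hQ₁, Subgroup.mem_inf, Subgroup.mem_centralizer_iff]
    rfl
  -- (a) `S` normalizes `Q₁`
  have hD₀n : D₀ ≤ normalizer (Q₁ : Set G) := by
    intro b hb
    rw [Subgroup.mem_normalizer_iff]
    intro x
    constructor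
    · intro hx
      have h1 := ((hQ₁mem x).mp hx).2 b hb
      have e : b * x * b⁻¹ = x := by rw [h1, mul_inv_cancel_right]
      rw [e]; exact hx
    · intro hy
      have h1 := ((hQ₁mem _).mp hy).2 b⁻¹ (D₀.inv_mem hb)
      have e : x = b⁻¹ * (b * x * b⁻¹) * b := by group
      have e2 : b⁻¹ * (b * x * b⁻¹) * b = b * x * b⁻¹ := by rw [h1, inv_mul_cancel_right]
      rw [e, e2]; exact hy
  have hSn : S ≤ normalizer (Q₁ : Set G) := by
    intro s hs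
    obtain ⟨a, ha, b, hb, rfl⟩ := hprod s hs
    exact Subgroup.mul_mem _ (hQn ha) (hD₀n hb)
  -- (b) centralizers of conjugates
  have hconj : ∀ g : G, g ∈ normalizer (Q : Set G) → ∀ x : G,
      x ∈ Q ⊓ centralizer ((D₀.map (MulAut.conj g).toMonoidHom : Subgroup G) : Set G) ↔
        g⁻¹ * x * g ∈ Q₁ := by
    intro g hg x
    have hg' : g⁻¹ ∈ normalizer (Q : Set G) := Subgroup.inv_mem _ hg
    rw [Subgroup.mem_normalizer_iff] at hg'
    rw [hQ₁mem, Subgroup.mem_inf, Subgroup.mem_centralizer_iff]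
    have h1 : x ∈ Q ↔ g⁻¹ * x * g ∈ Q := by
      have := hg' x
      rwa [inv_inv] at this
    rw [← h1]
    apply and_congr_right
    intro _
    constructor
    · intro hx d hd
      have h2 := hx (g * d * g⁻¹) (Subgroup.mem_map.mpr ⟨d, hd, rfl⟩)
      calc d * (g⁻¹ * x * g) = g⁻¹ * ((g * d * g⁻¹) * x) * g := by group
        _ = g⁻¹ * (x * (g * d * g⁻¹)) * g := by rw [h2]
        _ = g⁻¹ * x * g * d := by group
    · rintro hx _ ⟨d, hd, rfl⟩
      have h2 := hx d hd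
      show g * d * g⁻¹ * x = x * (g * d * g⁻¹)
      calc g * d * g⁻¹ * x = g * (d * (g⁻¹ * x * g)) * g⁻¹ := by group
        _ = g * ((g⁻¹ * x * g) * d) * g⁻¹ := by rw [h2]
        _ = x * (g * d * g⁻¹) := by group
  -- (c) the second claim
  have hsecond : ∀ D : Subgroup G, IsComplIn Q D S → Q ⊓ centralizer (D : Set G) = Q₁ := by
    intro D hD
    obtain ⟨u, hu, rfl⟩ := hcj D hD
    ext x
    rw [hconj u (hMQ (hSM hu)) x]
    have hu' : u⁻¹ ∈ normalizer (Q₁ : Set G) := Subgroup.inv_mem _ (hSn hu)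
    rw [Subgroup.mem_normalizer_iff] at hu'
    have := hu' x
    rw [inv_inv] at this
    exact this.symm
  refine ⟨?_, hsecond⟩
  -- (d) the first claim
  intro m hm
  have hmQ := hMQ hm
  have hmS := hMS hm
  have hmQ' : ∀ x, x ∈ Q ↔ m * x * m⁻¹ ∈ Q := Subgroup.mem_normalizer_iff.mp hmQ
  have hmS' : ∀ x, x ∈ S ↔ m * x * m⁻¹ ∈ S := Subgroup.mem_normalizer_iff.mp hmS
  have hcompl : IsComplIn Q (D₀.map (MulAut.conj m).toMonoidHom) S := by
    refine ⟨hQS, ?_, ?_, ?_⟩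
    · rintro _ ⟨d, hd, rfl⟩
      exact (hmS' d).mp (hD₀S hd)
    · rw [eq_bot_iff]
      rintro x ⟨hxQ, ⟨d, hd, rfl⟩⟩
      have hdQ : d ∈ Q := (hmQ' d).mpr hxQ
      have hd1 : d ∈ Q ⊓ D₀ := ⟨hdQ, hd⟩
      rw [hQD₀, Subgroup.mem_bot] at hd1
      rw [Subgroup.mem_bot, hd1]
      simp
    · intro s hs
      have hs' : m⁻¹ * s * m ∈ S := by
        rw [hmS' (m⁻¹ * s * m)]
        have e : m * (m⁻¹ * s * m) * m⁻¹ = s := by group
        rw [e]; exact hs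
      obtain ⟨a, ha, b, hb, hab⟩ := hprod _ hs'
      refine ⟨m * a * m⁻¹, (hmQ' a).mp ha, m * b * m⁻¹, Subgroup.mem_map.mpr ⟨b, hb, rfl⟩, ?_⟩
      have e : s = m * (m⁻¹ * s * m) * m⁻¹ := by group
      rw [e, hab]
      group
  have h3 := hsecond _ hcompl
  have hkey : ∀ x, x ∈ Q₁ ↔ m⁻¹ * x * m ∈ Q₁ := by
    intro x
    rw [← hconj m hmQ x, h3]
  rw [Subgroup.mem_normalizer_iff]
  intro x
  rw [hkey (m * x * m⁻¹)]
  have e : m⁻¹ * (m * x * m⁻¹) * m = x := by group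
  rw [e]

end Cfsg.Agent.Helper78
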