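import Mathlib
import Cfsg.Prelude.Def_OddOrderLocal

/-!
Piece NIC of CALL S1437 (helper2): an element normalizing `Q` and `D` normalizes `Q ⊓ C(D)`.
-/

set_option autoImplicit false
set_option linter.unusedSectionVars false

namespace Cfsg.Agent.Helper78

open Cfsg Subgroup

universe u

variable {G : Type u} [Group G] [Finite G]

/-- NIC (pure). An element normalizing `Q` and `D` normalizes `Q ⊓ C(D)`. -/
theorem bg15b_norm_inf_cent {Q D : Subgroup G} {g : G} (hgQ : g ∈ normalizer (Q : Set G))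
    (hgD : g ∈ normalizer (D : Set G)) :
    g ∈ normalizer ((Q ⊓ centralizer (D : Set G) : Subgroup G) : Set G) := by
  rw [Subgroup.mem_normalizer_iff] at hgQ hgD ⊢
  intro x
  have hc : x ∈ centralizer (D : Set G) ↔ g * x * g⁻¹ ∈ centralizer (D : Set G) := by
    rw [Subgroup.mem_centralizer_iff, Subgroup.mem_centralizer_iff]
    constructor
    · intro hx d hd
      have hd' : g⁻¹ * d * g ∈ D := by
        rw [hgD (g⁻¹ * d * g)]
        have e : g * (g⁻¹ * d * g) * g⁻¹ = d := by group
        rw [e]; exact hd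
      have h1 := hx _ hd'
      calc d * (g * x * g⁻¹) = g * ((g⁻¹ * d * g) * x) * g⁻¹ := by group
        _ = g * (x * (g⁻¹ * d * g)) * g⁻¹ := by rw [h1]
        _ = g * x * g⁻¹ * d := by group
    · intro hx d hd
      have hd' : g * d * g⁻¹ ∈ D := (hgD d).mp hd
      have h1 := hx _ hd'
      calc d * x = g⁻¹ * ((g * d * g⁻¹) * (g * x * g⁻¹)) * g := by group
        _ = g⁻¹ * ((g * x * g⁻¹) * (g * d * g⁻¹)) * g := by rw [h1]
        _ = x * d := by group
  show x ∈ Q ⊓ centralizer (D : Set G) ↔ g * x * g⁻¹ ∈ Q ⊓ centralizer (D : Set G)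
  rw [Subgroup.mem_inf, Subgroup.mem_inf, ← hc]
  exact and_congr_left (fun _ => hgQ x)

end Cfsg.Agent.Helper78
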