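import Mathlib
import Cfsg.Prelude.Def_OddOrderLocal

/-!
Piece NOC of CALL S1437 (helper2): a subgroup containing the commutators of `Q` is normalized by `Q`.
-/

set_option autoImplicit false
set_option linter.unusedSectionVars false

namespace Cfsg.Agent.Helper78

open Cfsg Subgroup

universe u

variable {G : Type u} [Group G] [Finite G]

/-- NOC (pure). A subgroup `Q₁ ≤ Q` containing all commutators of `Q` is normalized by `Q`:
`u x u⁻¹ = (u x u⁻¹ x⁻¹) x`. -/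
theorem bg15b_norm_of_comm {Q Q₁ : Subgroup G} (hQ₁Q : Q₁ ≤ Q)
    (h : ∀ a ∈ Q, ∀ b ∈ Q, a * b * a⁻¹ * b⁻¹ ∈ Q₁) : Q ≤ normalizer (Q₁ : Set G) := by
  intro u hu
  rw [Subgroup.mem_normalizer_iff]
  intro x
  constructor
  · intro hx
    have h1 := h u hu x (hQ₁Q hx)
    have e : u * x * u⁻¹ = (u * x * u⁻¹ * x⁻¹) * x := by group
    rw [e]
    exact Q₁.mul_mem h1 hx
  · intro hy
    have h1 := h u⁻¹ (Q.inv_mem hu) _ (hQ₁Q hy)
    have e : x = (u⁻¹ * (u * x * u⁻¹) * u⁻¹⁻¹ * (u * x * u⁻¹)⁻¹) * (u * x * u⁻¹) := by group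
    rw [e]
    exact Q₁.mul_mem h1 hy

end Cfsg.Agent.Helper78
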