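import Mathlib

/-!
Piece CFP of CALL BG17 (helper25, row S1381; skeleton `BG17Skel`), pure Mathlib.
-/

set_option autoImplicit false

namespace Cfsg.Agent.Helper78

open Subgroup

universe u

variable {G : Type u} [Group G] [Finite G]

/-- CFP (pure, Mathlib only). If the powers of prime order of `u` have no fixed point `≠ 1` on
`H`, no non-identity element of `<u>` has. -/
theorem bg17_cyclic_fpf {Γ : Type u} [Group Γ] [Finite Γ] (u : Γ) (H : Subgroup Γ)
    (h : ∀ r : ℕ, r.Prime → r ∣ orderOf u →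
      ∀ x ∈ H, u ^ (orderOf u / r) * x = x * u ^ (orderOf u / r) → x = 1) :
    ∀ c ∈ zpowers u, c ≠ 1 → ∀ x ∈ H, c * x = x * c → x = 1 := by
  intro c hc hc1 x hx hcx
  obtain ⟨j, rfl⟩ := mem_zpowers_iff.mp hc
  have hn0 : 0 < orderOf u := orderOf_pos u
  have hgn : Int.gcd (orderOf u : ℤ) j ∣ orderOf u :=
    Int.natCast_dvd_natCast.mp (Int.gcd_dvd_left (orderOf u : ℤ) j)
  have hgj : ((Int.gcd (orderOf u : ℤ) j : ℕ) : ℤ) ∣ j := Int.gcd_dvd_right (orderOf u : ℤ) j
  have hug : u ^ (Int.gcd (orderOf u : ℤ) j) = (u ^ j) ^ (Int.gcdB (orderOf u : ℤ) j) := by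
    have hb := Int.gcd_eq_gcd_ab (orderOf u : ℤ) j
    rw [← zpow_natCast u (Int.gcd (orderOf u : ℤ) j), hb, zpow_add, zpow_mul, zpow_mul,
      zpow_natCast, pow_orderOf_eq_one, one_zpow, one_mul]
  have hgne : Int.gcd (orderOf u : ℤ) j ≠ orderOf u := by
    intro hgn'
    apply hc1
    obtain ⟨t, ht⟩ := hgj
    rw [hgn'] at ht
    rw [ht, zpow_mul, zpow_natCast, pow_orderOf_eq_one, one_zpow]
  have hq : orderOf u / Int.gcd (orderOf u : ℤ) j ≠ 1 := by
    intro h1
    apply hgne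
    have h2 := Nat.div_mul_cancel hgn
    rw [h1, one_mul] at h2
    exact h2
  obtain ⟨r, hr, hrd⟩ := Nat.exists_prime_and_dvd hq
  have hrn : r ∣ orderOf u := hrd.trans (Nat.div_dvd_of_dvd hgn)
  have e : orderOf u / r =
      Int.gcd (orderOf u : ℤ) j * ((orderOf u / Int.gcd (orderOf u : ℤ) j) / r) := by
    rw [← Nat.mul_div_assoc _ hrd, Nat.mul_div_cancel' hgn]
  have hcomm : Commute (u ^ j) x := hcx
  have h2 : Commute (u ^ (orderOf u / r)) x := by
    rw [e, pow_mul, hug]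
    exact (hcomm.zpow_left _).pow_left _
  exact h r hr hrn x hx h2

end Cfsg.Agent.Helper78
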