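import Mathlib

/-!
Piece EXD of CALL BG17 (helper25, row S1381; skeleton `BG17Skel`), pure Mathlib.
-/

set_option autoImplicit false

namespace Cfsg.Agent.Helper78

open Subgroup

universe u

variable {G : Type u} [Group G] [Finite G]

/-- EXD (pure counting). Inside `A` of order `r²`, a nontrivial subgroup `W` missing an element
`a ∈ A` of order `r` has order `r`, so every `w ∈ W#` generates it. -/
theorem bg17_W_cyclic {r : ℕ} (hr : r.Prime) (A W : Subgroup G) (hWA : W ≤ A)
    (hA : Nat.card A = r ^ 2) {a : G} (haA : a ∈ A) (ha : orderOf a = r) (haW : a ∉ W) :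
    ∀ w ∈ W, w ≠ 1 → zpowers w = W := by
  intro w hw hw1
  have hdvd : Nat.card W ∣ r ^ 2 := hA ▸ Subgroup.card_dvd_of_le hWA
  obtain ⟨i, hi, hWi⟩ := (Nat.dvd_prime_pow hr).mp hdvd
  have hzle : zpowers w ≤ W := (zpowers_le).mpr hw
  have hcz : Nat.card (zpowers w) = orderOf w := Nat.card_zpowers w
  have hod : orderOf w ∣ r ^ i := by
    rw [← hWi, ← hcz]
    exact Subgroup.card_dvd_of_le hzle
  have ho1 : orderOf w ≠ 1 := fun h => hw1 (orderOf_eq_one_iff.mp h)
  have hi2 : i ≠ 2 := by
    rintro rfl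
    have hWA' : W = A := Subgroup.eq_of_le_of_card_ge hWA (by rw [hA, hWi])
    exact haW (hWA' ▸ haA)
  have hi0 : i ≠ 0 := by
    rintro rfl
    rw [pow_zero, Nat.dvd_one] at hod
    exact ho1 hod
  have hi1 : i = 1 := by omega
  subst hi1
  rw [pow_one] at hod hWi
  have hor : orderOf w = r := ((Nat.dvd_prime hr).mp hod).resolve_left ho1
  exact Subgroup.eq_of_le_of_card_ge hzle (by rw [hcz, hor, hWi])

end Cfsg.Agent.Helper78
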