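import Mathlib

/-!
Piece EXU of CALL BG17 (helper25, row S1381; skeleton `BG17Skel`), pure Mathlib.
-/

set_option autoImplicit false

namespace Cfsg.Agent.Helper78

open Subgroup

universe u

variable {G : Type u} [Group G] [Finite G]

/-- The order of a product of elements of pairwise coprime prime-power orders. -/
theorem bg17exu_orderOf_prod {A : Type u} [CommGroup A] (v : ℕ → A) (a : ℕ → ℕ) (T : Finset ℕ)
    (hT : ∀ r ∈ T, r.Prime) (hv : ∀ r ∈ T, orderOf (v r) = r ^ a r) :
    orderOf (∏ r ∈ T, v r) = ∏ r ∈ T, r ^ a r := by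
  classical
  induction T using Finset.induction_on with
  | empty => simp
  | insert q T hq ih =>
    rw [Finset.prod_insert hq, Finset.prod_insert hq]
    have ih' := ih (fun r hr => hT r (Finset.mem_insert_of_mem hr))
      (fun r hr => hv r (Finset.mem_insert_of_mem hr))
    have hcop : (orderOf (v q)).Coprime (orderOf (∏ r ∈ T, v r)) := by
      rw [ih', hv q (Finset.mem_insert_self q T)]
      apply Nat.Coprime.prod_right
      intro r hr
      apply Nat.Coprime.pow
      exact (Nat.coprime_primes (hT q (Finset.mem_insert_self q T))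
        (hT r (Finset.mem_insert_of_mem hr))).mpr (fun h => hq (h ▸ hr))
    rw [(Commute.all _ _).orderOf_mul_eq_mul_orderOf_of_coprime hcop, ih',
      hv q (Finset.mem_insert_self q T)]

/-- EXU for a commutative group. -/
theorem bg17exu_comm {A : Type u} [CommGroup A] [Finite A] (good : A → Prop)
    (hpow : ∀ (w : A) (m : ℕ), good w → (orderOf w).Coprime m → good (w ^ m))
    (h : ∀ r : ℕ, r.Prime → r ∣ Nat.card A →
      ∃ v : A, orderOf v = r ^ (Monoid.exponent A).factorization r ∧
        good (v ^ r ^ ((Monoid.exponent A).factorization r - 1))) :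
    ∃ u : A, orderOf u = Monoid.exponent A ∧
      ∀ r : ℕ, r.Prime → r ∣ orderOf u → good (u ^ (orderOf u / r)) := by
  classical
  have hN0 : Monoid.exponent A ≠ 0 := Monoid.exponent_ne_zero_of_finite
  have hNc : Monoid.exponent A ∣ Nat.card A :=
    Monoid.exponent_dvd.mpr (fun g => orderOf_dvd_natCard g)
  generalize Monoid.exponent A = N at *
  have h' : ∀ r : ℕ, ∃ v : A, r ∈ N.primeFactors →
      (orderOf v = r ^ N.factorization r ∧ good (v ^ r ^ (N.factorization r - 1))) := by
    intro r
    by_cases hr : r ∈ N.primeFactors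
    · obtain ⟨v, hv⟩ := h r (Nat.prime_of_mem_primeFactors hr)
        ((Nat.dvd_of_mem_primeFactors hr).trans hNc)
      exact ⟨v, fun _ => hv⟩
    · exact ⟨1, fun h => absurd h hr⟩
  choose v hv using h'
  have hu : orderOf (∏ r ∈ N.primeFactors, v r) = N := by
    rw [bg17exu_orderOf_prod v (fun r => N.factorization r) N.primeFactors
      (fun r hr => Nat.prime_of_mem_primeFactors hr) (fun r hr => (hv r hr).1)]
    have h1 := Nat.prod_factorization_pow_eq_self hN0
    rw [Finsupp.prod, Nat.support_factorization] at h1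
    exact h1
  refine ⟨∏ r ∈ N.primeFactors, v r, hu, ?_⟩
  intro r hr hrd
  rw [hu] at hrd ⊢
  have hrmem : r ∈ N.primeFactors := Nat.mem_primeFactors.mpr ⟨hr, hrd, hN0⟩
  have ha1 : 1 ≤ N.factorization r := hr.factorization_pos_of_dvd hN0 hrd
  have hNm : r ^ N.factorization r * (N / r ^ N.factorization r) = N :=
    Nat.ordProj_mul_ordCompl_eq_self N r
  have hrm : ¬ r ∣ N / r ^ N.factorization r := Nat.not_dvd_ordCompl hr hN0
  have hNr : N / r = r ^ (N.factorization r - 1) * (N / r ^ N.factorization r) := by
    have h1 : N = r * (r ^ (N.factorization r - 1) * (N / r ^ N.factorization r)) := by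
      rw [← mul_assoc, ← pow_succ', Nat.sub_add_cancel ha1, hNm]
    conv_lhs => rw [h1]
    exact Nat.mul_div_cancel_left _ hr.pos
  rw [← Finset.prod_pow]
  rw [Finset.prod_eq_single r]
  · rw [hNr, pow_mul]
    apply hpow _ _ (hv r hrmem).2
    have hd : orderOf (v r ^ r ^ (N.factorization r - 1)) ∣ r ^ N.factorization r := by
      rw [← (hv r hrmem).1]
      exact orderOf_pow_dvd _
    exact Nat.Coprime.coprime_dvd_left hd
      (Nat.Coprime.pow_left _ ((Nat.Prime.coprime_iff_not_dvd hr).mpr hrm))
  · intro q hq hqr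
    have hqo := (hv q hq).1
    apply orderOf_dvd_iff_pow_eq_one.mp
    rw [hqo]
    have hqp := Nat.prime_of_mem_primeFactors hq
    have h1 : q ^ N.factorization q ∣ N := Nat.ordProj_dvd N q
    have hcop : Nat.Coprime (q ^ N.factorization q) r :=
      Nat.Coprime.pow_left _ ((Nat.coprime_primes hqp hr).mpr hqr)
    obtain ⟨t, ht⟩ := hcop.mul_dvd_of_dvd_of_dvd h1 hrd
    have h4 : N / r = q ^ N.factorization q * t :=
      Nat.div_eq_of_eq_mul_left hr.pos (by rw [mul_right_comm]; exact ht)
    rw [h4]
    exact dvd_mul_right _ _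
  · intro hnot
    exact absurd hrmem hnot

/-- EXU (pure, Mathlib only). In a finite abelian group, prime-by-prime "good" elements of
full `r`-exponent multiply to an element `u` of order the exponent all of whose powers of
prime order are good. -/
theorem bg17_exists_cyclic_good {A : Type u} [Group A] [Finite A] (hc : ∀ a b : A, a * b = b * a)
    (good : A → Prop)
    (hpow : ∀ (w : A) (m : ℕ), good w → (orderOf w).Coprime m → good (w ^ m))
    (h : ∀ r : ℕ, r.Prime → r ∣ Nat.card A →
      ∃ v : A, orderOf v = r ^ (Monoid.exponent A).factorization r ∧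
        good (v ^ r ^ ((Monoid.exponent A).factorization r - 1))) :
    ∃ u : A, orderOf u = Monoid.exponent A ∧
      ∀ r : ℕ, r.Prime → r ∣ orderOf u → good (u ^ (orderOf u / r)) := by
  let _ : CommGroup A := { (inferInstance : Group A) with mul_comm := hc }
  exact bg17exu_comm good hpow h

end Cfsg.Agent.Helper78
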