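-- helper78 library: piece ABEL of CALL S2045 (helper92), pure Mathlib.
import Mathlib

set_option autoImplicit false

namespace Cfsg.Agent.Helper78

section p3c

variable {Y : Type*} [Group Y]

/-- the commutator-type element `a b a⁻¹ b⁻¹` -/
def p3c (a b : Y) : Y := a * b * a⁻¹ * b⁻¹

theorem p3c_anti (a b : Y) : p3c b a = (p3c a b)⁻¹ := by unfold p3c; group

theorem p3c_self (a : Y) : p3c a a = 1 := by unfold p3c; group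

theorem p3c_eq_one_symm {a b : Y} (h : p3c a b = 1) : p3c b a = 1 := by
  rw [p3c_anti a b, h, inv_one]

theorem p3c_conj (g a b : Y) : p3c (g * a * g⁻¹) (g * b * g⁻¹) = g * p3c a b * g⁻¹ := by
  unfold p3c; group

theorem p3c_comm_of_eq_one {a b : Y} (h : p3c a b = 1) : a * b = b * a := by
  have h1 : a * b = p3c a b * (b * a) := by unfold p3c; group
  rw [h1, h, one_mul]

theorem p3c_central_left (c a b : Y) (hc : ∀ g : Y, g * c = c * g) :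
    p3c (c * a) b = p3c a b := by
  unfold p3c
  have h1 : (c * a) * b * (c * a)⁻¹ * b⁻¹ = c * (a * b * a⁻¹) * c⁻¹ * b⁻¹ := by group
  rw [h1, ← hc (a * b * a⁻¹), mul_inv_cancel_right]

theorem p3c_central_right (c a b : Y) (hc : ∀ g : Y, g * c = c * g) :
    p3c a (c * b) = p3c a b := by
  rw [p3c_anti (c * b) a, p3c_central_left c b a hc, ← p3c_anti b a]

theorem p3c_mul_right (a b b' : Y) (hz : ∀ g : Y, g * p3c a b' = p3c a b' * g) :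
    p3c a (b * b') = p3c a b * p3c a b' := by
  have h1 : p3c a (b * b') = a * b * a⁻¹ * (p3c a b' * b⁻¹) := by unfold p3c; group
  rw [h1, ← hz b⁻¹]
  unfold p3c; group

theorem p3c_inv_right (a b : Y) (hz : ∀ g : Y, g * p3c a b = p3c a b * g) :
    p3c a b⁻¹ = (p3c a b)⁻¹ := by
  have h1 : p3c a b⁻¹ = b⁻¹ * (p3c a b)⁻¹ * b := by unfold p3c; group
  have h2 : b⁻¹ * (p3c a b)⁻¹ = (p3c a b)⁻¹ * b⁻¹ := by
    rw [← mul_inv_rev, ← mul_inv_rev, hz b]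
  rw [h1, h2, inv_mul_cancel_right]

theorem p3c_expand (a x1 x2 x3 x4 : Y)
    (h2 : ∀ g : Y, g * p3c a x2 = p3c a x2 * g) (h3 : ∀ g : Y, g * p3c a x3 = p3c a x3 * g)
    (h4 : ∀ g : Y, g * p3c a x4 = p3c a x4 * g) :
    p3c a (x1 * x2 * x3⁻¹ * x4) = p3c a x1 * p3c a x2 * (p3c a x3)⁻¹ * p3c a x4 := by
  have h3' : ∀ g : Y, g * p3c a x3⁻¹ = p3c a x3⁻¹ * g := by
    intro g
    rw [p3c_inv_right a x3 h3]
    have h6 := h3 g⁻¹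
    have h5 : (g⁻¹ * p3c a x3)⁻¹ = (p3c a x3 * g⁻¹)⁻¹ := by rw [h6]
    rw [mul_inv_rev, mul_inv_rev, inv_inv] at h5
    exact h5.symm
  rw [p3c_mul_right a (x1 * x2 * x3⁻¹) x4 h4, p3c_mul_right a (x1 * x2) x3⁻¹ h3',
    p3c_mul_right a x1 x2 h2, p3c_inv_right a x3 h3]

theorem p3c_elim (b1 b2 b3 b4 : Y)
    (e1 : b4 = b1⁻¹ * 1 * b1⁻¹ * b2)
    (e2 : b3 = b2⁻¹ * b1⁻¹ * 1⁻¹ * b1)
    (e3 : b2 = b3⁻¹ * b2⁻¹ * (b1⁻¹)⁻¹ * 1)
    (e4 : b1 = b4⁻¹ * b3⁻¹ * (b2⁻¹)⁻¹ * b1⁻¹) : b1 = 1 ∧ b2 = 1 ∧ b3 = 1 ∧ b4 = 1 := by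
  have f2 : b3 = b2⁻¹ := by rw [e2]; group
  have f3 : b2 = b1 :=
    calc b2 = b3⁻¹ * b2⁻¹ * (b1⁻¹)⁻¹ * 1 := e3
      _ = (b2⁻¹)⁻¹ * b2⁻¹ * (b1⁻¹)⁻¹ * 1 := by rw [f2]
      _ = b1 := by group
  have f1 : b4 = b1⁻¹ :=
    calc b4 = b1⁻¹ * 1 * b1⁻¹ * b2 := e1
      _ = b1⁻¹ * 1 * b1⁻¹ * b1 := by rw [f3]
      _ = b1⁻¹ := by group
  have f4 : b1 = b1 * b1 :=
    calc b1 = b4⁻¹ * b3⁻¹ * (b2⁻¹)⁻¹ * b1⁻¹ := e4
      _ = (b1⁻¹)⁻¹ * (b1⁻¹)⁻¹ * (b1⁻¹)⁻¹ * b1⁻¹ := by rw [f1, f2, f3]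
      _ = b1 * b1 := by group
  have g1 : b1 = 1 := by
    have h5 : b1 * 1 = b1 * b1 := by rw [mul_one]; exact f4
    exact (mul_left_cancel h5).symm
  have g2 : b2 = 1 := by rw [f3, g1]
  have g3 : b3 = 1 := by rw [f2, g2, inv_one]
  have g4 : b4 = 1 := by rw [f1, g1, inv_one]
  exact ⟨g1, g2, g3, g4⟩

variable {S : Type*} [Group S]

theorem p3c_dep (σ : Y →* S) (hcen : ∀ y, σ y = 1 → ∀ g : Y, g * y = y * g) (a a' b b' : Y)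
    (ha : σ a = σ a') (hb : σ b = σ b') : p3c a b = p3c a' b' := by
  have h1 : a = (a * a'⁻¹) * a' := by group
  have h2 : b = (b * b'⁻¹) * b' := by group
  have hc1 : σ (a * a'⁻¹) = 1 := by rw [map_mul, map_inv, ha, mul_inv_cancel]
  have hc2 : σ (b * b'⁻¹) = 1 := by rw [map_mul, map_inv, hb, mul_inv_cancel]
  calc p3c a b = p3c ((a * a'⁻¹) * a') b := by rw [← h1]
    _ = p3c a' b := p3c_central_left _ _ _ (hcen _ hc1)
    _ = p3c a' ((b * b'⁻¹) * b') := by rw [← h2]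
    _ = p3c a' b' := p3c_central_right _ _ _ (hcen _ hc2)

theorem p3c_shift (σ : Y →* S) (hcen : ∀ y, σ y = 1 → ∀ g : Y, g * y = y * g) (k : S) (κ : Y)
    (hκ : σ κ = k) (x y x' y' : Y) (hz : ∀ g : Y, g * p3c x y = p3c x y * g)
    (hx : σ x' = k * σ x * k⁻¹) (hy : σ y' = k * σ y * k⁻¹) : p3c x y = p3c x' y' := by
  have h1 : p3c (κ * x * κ⁻¹) (κ * y * κ⁻¹) = p3c x y := by
    rw [p3c_conj, hz κ, mul_inv_cancel_right]
  rw [← h1]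
  apply p3c_dep σ hcen
  · rw [map_mul, map_mul, map_inv, hκ, hx]
  · rw [map_mul, map_mul, map_inv, hκ, hy]

theorem p3c_closure_comm (σ : Y →* S) (hσ : Function.Surjective σ)
    (hcen : ∀ y, σ y = 1 → ∀ g : Y, g * y = y * g) (T : Set S) (y0 : Y)
    (h : ∀ w, σ w ∈ T → w * y0 = y0 * w) :
    ∀ w, σ w ∈ Subgroup.closure T → w * y0 = y0 * w := by
  have key : ∀ s ∈ Subgroup.closure T, ∀ w, σ w = s → w * y0 = y0 * w := by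
    intro s hs
    refine Subgroup.closure_induction (p := fun s _ => ∀ w, σ w = s → w * y0 = y0 * w)
      ?_ ?_ ?_ ?_ hs
    · intro s hs w hw
      exact h w (hw ▸ hs)
    · intro w hw
      exact (hcen w hw y0).symm
    · intro s t _ _ ihs iht w hw
      obtain ⟨u, hu⟩ := hσ s
      have h1 := ihs u hu
      have h2 := iht (u⁻¹ * w) (by rw [map_mul, map_inv, hu, hw, inv_mul_cancel_left])
      calc w * y0 = u * ((u⁻¹ * w) * y0) := by group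
        _ = u * (y0 * (u⁻¹ * w)) := by rw [h2]
        _ = (u * y0) * (u⁻¹ * w) := by group
        _ = (y0 * u) * (u⁻¹ * w) := by rw [h1]
        _ = y0 * w := by group
    · intro s _ ih w hw
      have h1 := ih w⁻¹ (by rw [map_inv, hw, inv_inv])
      calc w * y0 = w * (y0 * w⁻¹) * w := by group
        _ = w * (w⁻¹ * y0) * w := by rw [h1]
        _ = y0 * w := by group
  intro w hw
  exact key _ hw w rfl

end p3c

/-- Piece ABEL (pure Mathlib). -/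
theorem p3_abel {S Y : Type*} [Group S] [Group Y] (σ : Y →* S) (hσ : Function.Surjective σ)
    (hker : ∀ y, σ y = 1 → y ∈ Subgroup.center Y ∧ y ^ 3 = 1)
    (v1 v2 v3 v4 v5 k : S)
    (hcomm : ∀ a ∈ ({v1, v2, v3, v4, v5} : Set S), ∀ b ∈ ({v1, v2, v3, v4, v5} : Set S),
      a * b = b * a)
    (hk1 : k * v1 * k⁻¹ = v2) (hk2 : k * v2 * k⁻¹ = v3) (hk3 : k * v3 * k⁻¹ = v4)
    (hk4 : k * v4 * k⁻¹ = v5) (hk5 : k * v5 * k⁻¹ = v1 * v2 * v3⁻¹ * v4) :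
    ∀ x y : Y, σ x ∈ Subgroup.closure ({v1, v2, v3, v4, v5} : Set S) →
      σ y ∈ Subgroup.closure ({v1, v2, v3, v4, v5} : Set S) → x * y = y * x := by
  have hcen : ∀ y, σ y = 1 → ∀ g : Y, g * y = y * g := fun y hy g =>
    Subgroup.mem_center_iff.mp (hker y hy).1 g
  obtain ⟨x1, hx1⟩ := hσ v1
  obtain ⟨x2, hx2⟩ := hσ v2
  obtain ⟨x3, hx3⟩ := hσ v3
  obtain ⟨x4, hx4⟩ := hσ v4
  obtain ⟨x5, hx5⟩ := hσ v5
  obtain ⟨κ, hκ⟩ := hσ k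
  have g1 : σ x1 ∈ ({v1, v2, v3, v4, v5} : Set S) := by rw [hx1]; simp
  have g2 : σ x2 ∈ ({v1, v2, v3, v4, v5} : Set S) := by rw [hx2]; simp
  have g3 : σ x3 ∈ ({v1, v2, v3, v4, v5} : Set S) := by rw [hx3]; simp
  have g4 : σ x4 ∈ ({v1, v2, v3, v4, v5} : Set S) := by rw [hx4]; simp
  have g5 : σ x5 ∈ ({v1, v2, v3, v4, v5} : Set S) := by rw [hx5]; simp
  have hZ : ∀ x y : Y, σ x ∈ ({v1, v2, v3, v4, v5} : Set S) →
      σ y ∈ ({v1, v2, v3, v4, v5} : Set S) → ∀ g : Y, g * p3c x y = p3c x y * g := by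
    intro x y hx hy
    apply hcen
    unfold p3c
    rw [map_mul, map_mul, map_mul, map_inv, map_inv, hcomm _ hx _ hy]
    group
  have s12 : p3c x1 x2 = p3c x2 x3 := p3c_shift σ hcen k κ hκ x1 x2 x2 x3 (hZ _ _ g1 g2)
    (by rw [hx1, hx2, hk1]) (by rw [hx2, hx3, hk2])
  have s23 : p3c x2 x3 = p3c x3 x4 := p3c_shift σ hcen k κ hκ x2 x3 x3 x4 (hZ _ _ g2 g3)
    (by rw [hx2, hx3, hk2]) (by rw [hx3, hx4, hk3])
  have s34 : p3c x3 x4 = p3c x4 x5 := p3c_shift σ hcen k κ hκ x3 x4 x4 x5 (hZ _ _ g3 g4)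
    (by rw [hx3, hx4, hk3]) (by rw [hx4, hx5, hk4])
  have s13 : p3c x1 x3 = p3c x2 x4 := p3c_shift σ hcen k κ hκ x1 x3 x2 x4 (hZ _ _ g1 g3)
    (by rw [hx1, hx2, hk1]) (by rw [hx3, hx4, hk3])
  have s24 : p3c x2 x4 = p3c x3 x5 := p3c_shift σ hcen k κ hκ x2 x4 x3 x5 (hZ _ _ g2 g4)
    (by rw [hx2, hx3, hk2]) (by rw [hx4, hx5, hk4])
  have s14 : p3c x1 x4 = p3c x2 x5 := p3c_shift σ hcen k κ hκ x1 x4 x2 x5 (hZ _ _ g1 g4)
    (by rw [hx1, hx2, hk1]) (by rw [hx4, hx5, hk4])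
  have hw : σ (x1 * x2 * x3⁻¹ * x4) = k * σ x5 * k⁻¹ := by
    rw [map_mul, map_mul, map_mul, map_inv, hx1, hx2, hx3, hx4, hx5, hk5]
  have t1 : p3c x1 x5 = p3c x2 (x1 * x2 * x3⁻¹ * x4) :=
    p3c_shift σ hcen k κ hκ x1 x5 x2 _ (hZ _ _ g1 g5) (by rw [hx1, hx2, hk1]) hw
  have t2 : p3c x2 x5 = p3c x3 (x1 * x2 * x3⁻¹ * x4) :=
    p3c_shift σ hcen k κ hκ x2 x5 x3 _ (hZ _ _ g2 g5) (by rw [hx2, hx3, hk2]) hw
  have t3 : p3c x3 x5 = p3c x4 (x1 * x2 * x3⁻¹ * x4) :=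
    p3c_shift σ hcen k κ hκ x3 x5 x4 _ (hZ _ _ g3 g5) (by rw [hx3, hx4, hk3]) hw
  have t4 : p3c x4 x5 = p3c x5 (x1 * x2 * x3⁻¹ * x4) :=
    p3c_shift σ hcen k κ hκ x4 x5 x5 _ (hZ _ _ g4 g5) (by rw [hx4, hx5, hk4]) hw
  have e1 : p3c x1 x5 = (p3c x1 x2)⁻¹ * 1 * (p3c x1 x2)⁻¹ * p3c x1 x3 := by
    have h := p3c_expand x2 x1 x2 x3 x4 (hZ _ _ g2 g2) (hZ _ _ g2 g3) (hZ _ _ g2 g4)
    rw [← t1, p3c_anti x1 x2, p3c_self, ← s12, ← s13] at h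
    exact h
  have e2 : p3c x1 x4 = (p3c x1 x3)⁻¹ * (p3c x1 x2)⁻¹ * 1⁻¹ * p3c x1 x2 := by
    have h := p3c_expand x3 x1 x2 x3 x4 (hZ _ _ g3 g2) (hZ _ _ g3 g3) (hZ _ _ g3 g4)
    rw [← t2, ← s14, p3c_anti x1 x3, p3c_anti x2 x3, p3c_self, ← s23, ← s12] at h
    exact h
  have e3 : p3c x1 x3 = (p3c x1 x4)⁻¹ * (p3c x1 x3)⁻¹ * ((p3c x1 x2)⁻¹)⁻¹ * 1 := by
    have h := p3c_expand x4 x1 x2 x3 x4 (hZ _ _ g4 g2) (hZ _ _ g4 g3) (hZ _ _ g4 g4)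
    rw [← t3, ← s24, ← s13, p3c_anti x1 x4, p3c_anti x2 x4, ← s13, p3c_anti x3 x4, ← s23,
      ← s12, p3c_self] at h
    exact h
  have e4 : p3c x1 x2 = (p3c x1 x5)⁻¹ * (p3c x1 x4)⁻¹ * ((p3c x1 x3)⁻¹)⁻¹ * (p3c x1 x2)⁻¹ := by
    have h := p3c_expand x5 x1 x2 x3 x4 (hZ _ _ g5 g2) (hZ _ _ g5 g3) (hZ _ _ g5 g4)
    rw [← t4, ← s34, ← s23, ← s12, p3c_anti x1 x5, p3c_anti x2 x5, ← s14, p3c_anti x3 x5,
      ← s24, ← s13, p3c_anti x4 x5, ← s34, ← s23, ← s12] at h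
    exact h
  obtain ⟨q12, q13, q14, q15⟩ := p3c_elim _ _ _ _ e1 e2 e3 e4
  have q23 : p3c x2 x3 = 1 := by rw [← s12]; exact q12
  have q34 : p3c x3 x4 = 1 := by rw [← s23]; exact q23
  have q45 : p3c x4 x5 = 1 := by rw [← s34]; exact q34
  have q24 : p3c x2 x4 = 1 := by rw [← s13]; exact q13
  have q35 : p3c x3 x5 = 1 := by rw [← s24]; exact q24
  have q25 : p3c x2 x5 = 1 := by rw [← s14]; exact q14
  have hT : ∀ a b : Y, (a = x1 ∨ a = x2 ∨ a = x3 ∨ a = x4 ∨ a = x5) →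
      (b = x1 ∨ b = x2 ∨ b = x3 ∨ b = x4 ∨ b = x5) → p3c a b = 1 := by
    intro a b ha hb
    rcases ha with ha | ha | ha | ha | ha <;> rcases hb with hb | hb | hb | hb | hb <;>
      rw [ha, hb] <;>
      first
        | assumption
        | exact p3c_self _
        | exact p3c_eq_one_symm (by assumption)
  have hlift : ∀ w : Y, σ w ∈ ({v1, v2, v3, v4, v5} : Set S) →
      ∃ a : Y, (a = x1 ∨ a = x2 ∨ a = x3 ∨ a = x4 ∨ a = x5) ∧ σ w = σ a := by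
    intro w hw
    simp only [Set.mem_insert_iff, Set.mem_singleton_iff] at hw
    rcases hw with h | h | h | h | h
    · exact ⟨x1, Or.inl rfl, by rw [h, hx1]⟩
    · exact ⟨x2, Or.inr (Or.inl rfl), by rw [h, hx2]⟩
    · exact ⟨x3, Or.inr (Or.inr (Or.inl rfl)), by rw [h, hx3]⟩
    · exact ⟨x4, Or.inr (Or.inr (Or.inr (Or.inl rfl))), by rw [h, hx4]⟩
    · exact ⟨x5, Or.inr (Or.inr (Or.inr (Or.inr rfl))), by rw [h, hx5]⟩
  have H0 : ∀ w w' : Y, σ w ∈ ({v1, v2, v3, v4, v5} : Set S) →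
      σ w' ∈ ({v1, v2, v3, v4, v5} : Set S) → w * w' = w' * w := by
    intro w w' hw hw'
    obtain ⟨a, ha, haσ⟩ := hlift w hw
    obtain ⟨b, hb, hbσ⟩ := hlift w' hw'
    apply p3c_comm_of_eq_one
    rw [p3c_dep σ hcen w a w' b haσ hbσ]
    exact hT a b ha hb
  have A : ∀ w' : Y, σ w' ∈ ({v1, v2, v3, v4, v5} : Set S) →
      ∀ w, σ w ∈ Subgroup.closure ({v1, v2, v3, v4, v5} : Set S) → w * w' = w' * w :=
    fun w' hw' => p3c_closure_comm σ hσ hcen _ w' (fun w hw => H0 w w' hw hw')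
  intro x y hx hy
  exact p3c_closure_comm σ hσ hcen _ y (fun w hw => (A w hw y hy).symm) x hx

end Cfsg.Agent.Helper78
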