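import Mathlib

/-!
# A real-number lemma for vanishing-column arguments

Finite families `r, x, y` of real numbers with `x > 0`, `Σ r x = Σ r y = Σ r y²/x = 0` and at
most one negative (or at most one positive) weight `r`: then `y / x` is constant on the support
of `r`.
-/

set_option autoImplicit false

namespace Cfsg.Agent.Helper78

/-- Weighted variance argument: at most one weight is negative. -/
theorem real_key_pos {ι : Type*} (s : Finset ι) (r x y : ι → ℝ) (hx : ∀ i ∈ s, 0 < x i)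
    (h1 : ∑ i ∈ s, r i * x i = 0) (h2 : ∑ i ∈ s, r i * y i = 0)
    (h3 : ∑ i ∈ s, r i * (y i ^ 2 / x i) = 0)
    (j : ι) (hpos : ∀ i ∈ s, i ≠ j → 0 ≤ r i)
    (i₀ : ι) (hi₀ : i₀ ∈ s) (hr₀ : r i₀ ≠ 0) (hxy₀ : y i₀ = x i₀) :
    ∀ i ∈ s, r i ≠ 0 → y i = x i := by
  classical
  obtain ⟨ρ, hρ⟩ : ∃ ρ : ℝ, ρ = y j / x j := ⟨_, rfl⟩
  have hsum : ∑ i ∈ s, r i * x i * (y i / x i - ρ) ^ 2 = 0 := by
    have h4 : ∑ i ∈ s, r i * x i * (y i / x i - ρ) ^ 2
        = ∑ i ∈ s, (r i * (y i ^ 2 / x i) - 2 * ρ * (r i * y i) + ρ ^ 2 * (r i * x i)) := by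
      apply Finset.sum_congr rfl
      intro i hi
      have hxi : x i ≠ 0 := (hx i hi).ne'
      field_simp
      ring
    rw [h4, Finset.sum_add_distrib, Finset.sum_sub_distrib, ← Finset.mul_sum, ← Finset.mul_sum,
      h1, h2, h3]
    ring
  have hnonneg : ∀ i ∈ s, 0 ≤ r i * x i * (y i / x i - ρ) ^ 2 := by
    intro i hi
    by_cases hij : i = j
    · subst hij
      rw [hρ, sub_self]
      simp
    · exact mul_nonneg (mul_nonneg (hpos i hi hij) (hx i hi).le) (sq_nonneg _)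
  have hzero := (Finset.sum_eq_zero_iff_of_nonneg hnonneg).mp hsum
  have hrat : ∀ i ∈ s, r i ≠ 0 → y i = ρ * x i := by
    intro i hi hri
    have hxi : x i ≠ 0 := (hx i hi).ne'
    have h5 := hzero i hi
    have h6 : y i / x i - ρ = 0 := by
      rcases mul_eq_zero.mp h5 with h | h
      · rcases mul_eq_zero.mp h with h | h
        · exact absurd h hri
        · exact absurd h hxi
      · exact pow_eq_zero_iff (two_ne_zero) |>.mp h
    have h7 : y i / x i = ρ := sub_eq_zero.mp h6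
    rw [← h7, div_mul_cancel₀ _ hxi]
  have hρ1 : ρ = 1 := by
    have h8 := hrat i₀ hi₀ hr₀
    have hx0 : x i₀ ≠ 0 := (hx i₀ hi₀).ne'
    rw [hxy₀] at h8
    have h9 : (1 - ρ) * x i₀ = 0 := by linarith
    rcases mul_eq_zero.mp h9 with h | h
    · linarith
    · exact absurd h hx0
  intro i hi hri
  rw [hrat i hi hri, hρ1, one_mul]

/-- Weighted variance argument: at most one weight is positive. -/
theorem real_key_neg {ι : Type*} (s : Finset ι) (r x y : ι → ℝ) (hx : ∀ i ∈ s, 0 < x i)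
    (h1 : ∑ i ∈ s, r i * x i = 0) (h2 : ∑ i ∈ s, r i * y i = 0)
    (h3 : ∑ i ∈ s, r i * (y i ^ 2 / x i) = 0)
    (j : ι) (hneg : ∀ i ∈ s, i ≠ j → r i ≤ 0)
    (i₀ : ι) (hi₀ : i₀ ∈ s) (hr₀ : r i₀ ≠ 0) (hxy₀ : y i₀ = x i₀) :
    ∀ i ∈ s, r i ≠ 0 → y i = x i := by
  have h := real_key_pos s (fun i => - r i) x y hx
    (by simp only [neg_mul, Finset.sum_neg_distrib, h1, neg_zero])
    (by simp only [neg_mul, Finset.sum_neg_distrib, h2, neg_zero])
    (by simp only [neg_mul, Finset.sum_neg_distrib, h3, neg_zero])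
    j (fun i hi hij => by simpa using hneg i hi hij) i₀ hi₀ (by simpa using hr₀) hxy₀
  intro i hi hri
  exact h i hi (by simpa using hri)

/-- Combined form: if the negative weights form a subsingleton or the positive weights form a
subsingleton, then `y = x` on the support of `r`. -/
theorem real_key {ι : Type*} (s : Finset ι) (r x y : ι → ℝ) (hx : ∀ i ∈ s, 0 < x i)
    (h1 : ∑ i ∈ s, r i * x i = 0) (h2 : ∑ i ∈ s, r i * y i = 0)
    (h3 : ∑ i ∈ s, r i * (y i ^ 2 / x i) = 0)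
    (hcase : (∀ a ∈ s, ∀ b ∈ s, r a < 0 → r b < 0 → a = b) ∨
      (∀ a ∈ s, ∀ b ∈ s, 0 < r a → 0 < r b → a = b))
    (i₀ : ι) (hi₀ : i₀ ∈ s) (hr₀ : r i₀ ≠ 0) (hxy₀ : y i₀ = x i₀) :
    ∀ i ∈ s, r i ≠ 0 → y i = x i := by
  rcases hcase with hc | hc
  · by_cases hex : ∃ j ∈ s, r j < 0
    · obtain ⟨j, hj, hrj⟩ := hex
      refine real_key_pos s r x y hx h1 h2 h3 j ?_ i₀ hi₀ hr₀ hxy₀
      intro i hi hij
      by_contra hneg
      exact hij (hc i hi j hj (not_le.mp hneg) hrj)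
    · refine real_key_pos s r x y hx h1 h2 h3 i₀ ?_ i₀ hi₀ hr₀ hxy₀
      intro i hi _
      by_contra hneg
      exact hex ⟨i, hi, not_le.mp hneg⟩
  · by_cases hex : ∃ j ∈ s, 0 < r j
    · obtain ⟨j, hj, hrj⟩ := hex
      refine real_key_neg s r x y hx h1 h2 h3 j ?_ i₀ hi₀ hr₀ hxy₀
      intro i hi hij
      by_contra hneg
      exact hij (hc i hi j hj (not_le.mp hneg) hrj)
    · refine real_key_neg s r x y hx h1 h2 h3 i₀ ?_ i₀ hi₀ hr₀ hxy₀
      intro i hi _
      by_contra hneg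
      exact hex ⟨i, hi, not_le.mp hneg⟩

end Cfsg.Agent.Helper78
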