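import Cfsg.Agent.Helper16.BlockOrth
import Cfsg.Agent.Helper81.BlockKer
import Cfsg.Agent.Helper1.PPrimeCore
import Cfsg.Agent.Helper78.RealKey

/-!
# Vanishing column combinations in the principal 2-block (involution not inverting)

Consequences of block orthogonality (`Helper16.block_orthogonality`) for an involution `t` no
conjugate of which inverts a given 2-element `y`.
-/

set_option autoImplicit false
open Cfsg
open scoped ComplexConjugate

namespace Cfsg.Agent.Helper78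

universe u

variable {G : Type u} [Group G]

/-- If no conjugate of `t` inverts `y` and `t` inverts `z`, then `y` and `z` are not conjugate. -/
theorem not_isConj_of_inverted {t y z : G}
    (hy : ∀ g : G, (g * t * g⁻¹) * y * (g * t * g⁻¹)⁻¹ ≠ y⁻¹) (hz : t * z * t⁻¹ = z⁻¹) :
    ¬ IsConj y z := by
  intro h
  obtain ⟨c, hc⟩ := isConj_iff.mp h
  apply hy c⁻¹
  subst hc
  have h1 : (c⁻¹ * t * c⁻¹⁻¹) * y * (c⁻¹ * t * c⁻¹⁻¹)⁻¹
      = c⁻¹ * (t * (c * y * c⁻¹) * t⁻¹) * c := by group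
  rw [h1, hz]
  group

/-- An involution `t` inverts the `p`-part of `(g⁻¹ t g t)⁻¹`. -/
theorem inverts_ppart {p : ℕ} [Fact p.Prime] {t : G} (ht : t * t = 1) (g z : G)
    (hz : Cfsg.IsPPart p (g⁻¹ * t * g * t)⁻¹ z) : t * z * t⁻¹ = z⁻¹ := by
  obtain ⟨i, rfl⟩ := Helper16.isPPart_eq_pow hz
  have ht' : t⁻¹ = t := inv_eq_of_mul_eq_one_left ht
  have h1 : t * (g⁻¹ * t * g * t)⁻¹ * t⁻¹ = ((g⁻¹ * t * g * t)⁻¹)⁻¹ := by
    have h2 : t * (g⁻¹ * t * g * t)⁻¹ * t⁻¹ = g⁻¹ * t⁻¹ * g * t⁻¹ := by group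
    rw [h2, ht', inv_inv]
  rw [← conj_pow, h1, inv_pow]

section Fin

variable [Fintype G]

/-- The three basic column relations: for a 2-element `y` not inverted by any conjugate of the
involution `t`, the column of `y` in the principal 2-block is orthogonal to `χ(t)²/χ(1)`, `χ(1)`
and `χ(t)`. -/
theorem col_vanish_aux {M : Ideal Cfsg.AlgInt} (hM : Cfsg.IsPModular 2 M)
    {t y : G} (ht : orderOf t = 2) (hy2 : ∃ k : ℕ, orderOf y = 2 ^ k)
    (hy : ∀ g : G, (g * t * g⁻¹) * y * (g * t * g⁻¹)⁻¹ ≠ y⁻¹) :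
    (∑ᶠ χ ∈ Cfsg.principalBlock M G,
        (χ : G → ℂ) y * ((χ : G → ℂ) t ^ 2 / (χ : G → ℂ) 1) = 0) ∧
    (∑ᶠ χ ∈ Cfsg.principalBlock M G, (χ : G → ℂ) y * (χ : G → ℂ) 1 = 0) ∧
    (∑ᶠ χ ∈ Cfsg.principalBlock M G, (χ : G → ℂ) y * (χ : G → ℂ) t = 0) := by
  classical
  have : Fact (Nat.Prime 2) := ⟨Nat.prime_two⟩
  have := Helper81.isPrime_of_isPModular hM
  have : Fintype (Cfsg.IrrCharacter G) := Fintype.ofFinite _
  have hB : Cfsg.IsPBlock M (Cfsg.principalBlock M G) := ⟨Helper81.trivIrr G, rfl⟩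
  have htt : t * t = 1 := by rw [← pow_two, ← ht, pow_orderOf_eq_one]
  have htinv : t⁻¹ = t := inv_eq_of_mul_eq_one_left htt
  have hyy : Cfsg.IsPPart 2 y y := ⟨1, mul_one y, Commute.one_right y, hy2, by simp⟩
  have key : ∀ h z : G, Cfsg.IsPPart 2 h z → t * z * t⁻¹ = z⁻¹ →
      ∑ᶠ χ ∈ Cfsg.principalBlock M G, (χ : G → ℂ) y * (χ : G → ℂ) h⁻¹ = 0 := by
    intro h z hz hinvz
    have h1 := Helper16.block_orthogonality hM hB hyy hz (not_isConj_of_inverted hy hinvz)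
    simp only [Helper77.irr_inv]
    exact h1
  refine ⟨?_, ?_, ?_⟩
  · have hcard : (Nat.card G : ℂ) ≠ 0 := by
      have : 0 < Nat.card G := Nat.card_pos
      exact_mod_cast this.ne'
    have h1 : ∀ χ : Cfsg.IrrCharacter G, (χ : G → ℂ) y * ((χ : G → ℂ) t ^ 2 / (χ : G → ℂ) 1)
        = (Nat.card G : ℂ)⁻¹ * ∑ g : G, (χ : G → ℂ) y * (χ : G → ℂ) (g⁻¹ * t * g * t) := by
      intro χ
      rw [← Finset.mul_sum, Helper77.sum_irr_conj_mul χ t t]
      field_simp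
    rw [finsum_mem_eq_finite_toFinset_sum _ (Set.toFinite _)]
    rw [Finset.sum_congr rfl (fun χ _ => h1 χ), ← Finset.mul_sum, Finset.sum_comm]
    have h2 : ∀ g : G, ∑ χ ∈ (Set.toFinite (Cfsg.principalBlock M G)).toFinset,
        (χ : G → ℂ) y * (χ : G → ℂ) (g⁻¹ * t * g * t) = 0 := by
      intro g
      obtain ⟨z, hz⟩ := Helper16.exists_isPPart 2 (g⁻¹ * t * g * t)⁻¹ (orderOf_pos _)
      have h3 := key _ z hz (inverts_ppart htt g z hz)
      rw [inv_inv, finsum_mem_eq_finite_toFinset_sum _ (Set.toFinite _)] at h3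
      exact h3
    rw [Finset.sum_congr rfl (fun g _ => h2 g)]
    simp
  · have h1 : Cfsg.IsPPart 2 (1 : G) 1 :=
      ⟨1, mul_one 1, Commute.one_right 1, ⟨0, by simp⟩, by simp⟩
    have h2 := key 1 1 h1 (by simp)
    rwa [inv_one] at h2
  · have h1 : Cfsg.IsPPart 2 t t :=
      ⟨1, mul_one t, Commute.one_right t, ⟨1, by rw [ht, pow_one]⟩, by simp⟩
    have h2 := key t t h1 (by rw [mul_inv_cancel_right, htinv])
    rwa [htinv] at h2

/-- Passing from columns to the combinations `a_χ = |P|⁻¹ Σ_y χ(y) θ(y⁻¹)` for `θ` supported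
on `U`. -/
theorem col_vanish_gen {B : Set (Cfsg.IrrCharacter G)} (P : Subgroup G) (U : Set G)
    (θ : ↥P → ℂ) (hθU : ∀ y : ↥P, (y : G) ∉ U → θ y = 0) (F : Cfsg.IrrCharacter G → ℂ)
    (hF : ∀ y : ↥P, ((y : G)⁻¹) ∈ U → ∑ᶠ χ ∈ B, (χ : G → ℂ) y * F χ = 0) :
    ∑ᶠ χ ∈ B, ((Nat.card ↥P : ℂ)⁻¹ * ∑ᶠ y : ↥P, (χ : G → ℂ) (y : G) * θ y⁻¹) * F χ = 0 := by
  classical
  have : Fintype (Cfsg.IrrCharacter G) := Fintype.ofFinite _
  rw [finsum_mem_eq_finite_toFinset_sum _ (Set.toFinite B)]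
  have h1 : ∀ χ : Cfsg.IrrCharacter G,
      ((Nat.card ↥P : ℂ)⁻¹ * ∑ᶠ y : ↥P, (χ : G → ℂ) (y : G) * θ y⁻¹) * F χ
      = (Nat.card ↥P : ℂ)⁻¹ * ∑ y : ↥P, θ y⁻¹ * ((χ : G → ℂ) (y : G) * F χ) := by
    intro χ
    rw [finsum_eq_sum_of_fintype, mul_assoc, Finset.sum_mul]
    congr 1
    apply Finset.sum_congr rfl
    intro y _
    ring
  rw [Finset.sum_congr rfl (fun χ _ => h1 χ), ← Finset.mul_sum, Finset.sum_comm]
  have h2 : ∀ y : ↥P, ∑ χ ∈ (Set.toFinite B).toFinset,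
      θ y⁻¹ * ((χ : G → ℂ) (y : G) * F χ) = 0 := by
    intro y
    rw [← Finset.mul_sum]
    by_cases hyU : ((y : G)⁻¹) ∈ U
    · have h3 := hF y hyU
      rw [finsum_mem_eq_finite_toFinset_sum _ (Set.toFinite B)] at h3
      rw [h3, mul_zero]
    · have h3 : θ y⁻¹ = 0 := hθU y⁻¹ (by simpa using hyU)
      rw [h3, zero_mul]
  rw [Finset.sum_congr rfl (fun y _ => h2 y)]
  simp

end Fin

/-- The average of a generalized character is real: if it is nonzero, so is its real part. -/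
theorem genChar_sum_re_ne_zero {P : Type u} [Group P] [Fintype P] (θ : P → ℂ)
    (hθ : Cfsg.IsGeneralizedCharacter P θ)
    (h : (Nat.card P : ℂ)⁻¹ * ∑ y : P, θ y ≠ 0) :
    ((Nat.card P : ℂ)⁻¹ * ∑ y : P, θ y⁻¹).re ≠ 0 := by
  obtain ⟨χ, ψ, ⟨n, ρ, hρ⟩, ⟨m, σ, hσ⟩, rfl⟩ := hθ
  have hinv : ∀ y : P, (χ - ψ) y⁻¹ = conj ((χ - ψ) y) := by
    intro y
    simp only [Pi.sub_apply, map_sub]
    rw [← hρ, ← hσ, Helper3.character_inv, Helper3.character_inv]
  have hsum : ∑ y : P, (χ - ψ) y⁻¹ = ∑ y : P, (χ - ψ) y := Equiv.sum_comp (Equiv.inv P) _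
  have hconj : conj (∑ y : P, (χ - ψ) y) = ∑ y : P, (χ - ψ) y := by
    rw [map_sum, ← hsum]
    exact Finset.sum_congr rfl (fun y _ => (hinv y).symm)
  rw [hsum]
  intro hre
  apply h
  have hz : conj ((Nat.card P : ℂ)⁻¹ * ∑ y : P, (χ - ψ) y)
      = (Nat.card P : ℂ)⁻¹ * ∑ y : P, (χ - ψ) y := by
    rw [map_mul, hconj, map_inv₀, Complex.conj_natCast]
  have h2 := Complex.conj_eq_iff_re.mp hz
  rw [← h2, hre, Complex.ofReal_zero]

section Last

variable [Fintype G]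

/-- The final dichotomy: three vanishing real combinations with a nonzero weight at the principal
character force either two positive and two negative weights, or a proper normal subgroup
containing `O_{2'}(G)` and `t`. -/
theorem col_vanish_last {M : Ideal Cfsg.AlgInt} (hM : Cfsg.IsPModular 2 M) (t : G)
    (ht : orderOf t = 2) (a : Cfsg.IrrCharacter G → ℂ)
    (h1 : ∑ᶠ χ ∈ Cfsg.principalBlock M G, a χ * ((χ : G → ℂ) t ^ 2 / (χ : G → ℂ) 1) = 0)
    (h2 : ∑ᶠ χ ∈ Cfsg.principalBlock M G, a χ * (χ : G → ℂ) 1 = 0)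
    (h3 : ∑ᶠ χ ∈ Cfsg.principalBlock M G, a χ * (χ : G → ℂ) t = 0)
    (ha : (a (Helper81.trivIrr G)).re ≠ 0) :
    (2 ≤ Nat.card {χ : Cfsg.IrrCharacter G // χ ∈ Cfsg.principalBlock M G ∧ 0 < (a χ).re} ∧
     2 ≤ Nat.card {χ : Cfsg.IrrCharacter G // χ ∈ Cfsg.principalBlock M G ∧ (a χ).re < 0}) ∨
    ∃ K : Subgroup G, K.Normal ∧ K ≠ ⊤ ∧ Cfsg.pPrimeCore 2 G ≤ K ∧ t ∈ K := by
  classical
  have : Fact (Nat.Prime 2) := ⟨Nat.prime_two⟩
  have := Helper81.isPrime_of_isPModular hM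
  have : Fintype (Cfsg.IrrCharacter G) := Fintype.ofFinite _
  by_contra hcon
  have hcard : ¬ (2 ≤ Nat.card {χ : Cfsg.IrrCharacter G //
        χ ∈ Cfsg.principalBlock M G ∧ 0 < (a χ).re} ∧
      2 ≤ Nat.card {χ : Cfsg.IrrCharacter G //
        χ ∈ Cfsg.principalBlock M G ∧ (a χ).re < 0}) := fun h => hcon (Or.inl h)
  obtain ⟨s, hs⟩ : ∃ s : Finset (Cfsg.IrrCharacter G),
      s = (Set.toFinite (Cfsg.principalBlock M G)).toFinset := ⟨_, rfl⟩
  have hmem : ∀ χ, χ ∈ s ↔ χ ∈ Cfsg.principalBlock M G := by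
    intro χ; rw [hs]; exact Set.Finite.mem_toFinset _
  rw [finsum_mem_eq_finite_toFinset_sum _ (Set.toFinite _), ← hs] at h1 h2 h3
  have htt : t * t = 1 := by rw [← pow_two, ← ht, pow_orderOf_eq_one]
  have htinv : t⁻¹ = t := inv_eq_of_mul_eq_one_left htt
  have hre1 : ∀ χ : Cfsg.IrrCharacter G, ((((χ : G → ℂ) 1).re : ℝ) : ℂ) = (χ : G → ℂ) 1 := by
    intro χ
    have h := Helper77.irr_inv χ 1
    rw [inv_one] at h
    exact Complex.conj_eq_iff_re.mp h.symm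
  have hret : ∀ χ : Cfsg.IrrCharacter G, ((((χ : G → ℂ) t).re : ℝ) : ℂ) = (χ : G → ℂ) t := by
    intro χ
    have h := Helper77.irr_inv χ t
    rw [htinv] at h
    exact Complex.conj_eq_iff_re.mp h.symm
  have hxpos : ∀ χ : Cfsg.IrrCharacter G, 0 < ((χ : G → ℂ) 1).re := by
    intro χ
    rw [Helper81.irr_one_eq_charDegree, Complex.natCast_re]
    exact_mod_cast Helper81.charDegree_pos χ
  -- the three real relations
  have R1 : ∑ χ ∈ s, (a χ).re * ((χ : G → ℂ) 1).re = 0 := by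
    have h := congrArg Complex.re h2
    rw [Complex.re_sum, Complex.zero_re] at h
    rw [← h]
    apply Finset.sum_congr rfl
    intro χ _
    rw [← hre1 χ, Complex.re_mul_ofReal, Complex.ofReal_re]
  have R2 : ∑ χ ∈ s, (a χ).re * ((χ : G → ℂ) t).re = 0 := by
    have h := congrArg Complex.re h3
    rw [Complex.re_sum, Complex.zero_re] at h
    rw [← h]
    apply Finset.sum_congr rfl
    intro χ _
    rw [← hret χ, Complex.re_mul_ofReal, Complex.ofReal_re]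
  have R3 : ∑ χ ∈ s, (a χ).re * (((χ : G → ℂ) t).re ^ 2 / ((χ : G → ℂ) 1).re) = 0 := by
    have h := congrArg Complex.re h1
    rw [Complex.re_sum, Complex.zero_re] at h
    rw [← h]
    apply Finset.sum_congr rfl
    intro χ _
    have e : (χ : G → ℂ) t ^ 2 / (χ : G → ℂ) 1
        = (((((χ : G → ℂ) t).re ^ 2 / ((χ : G → ℂ) 1).re : ℝ)) : ℂ) := by
      rw [Complex.ofReal_div, Complex.ofReal_pow, hret χ, hre1 χ]
    rw [e, Complex.re_mul_ofReal]
  have htriv : Helper81.trivIrr G ∈ s := (hmem _).mpr Helper81.trivIrr_mem_principalBlock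
  have hcase : (∀ χ ∈ s, ∀ ψ ∈ s, (a χ).re < 0 → (a ψ).re < 0 → χ = ψ) ∨
      (∀ χ ∈ s, ∀ ψ ∈ s, 0 < (a χ).re → 0 < (a ψ).re → χ = ψ) := by
    rcases not_and_or.mp hcard with h | h
    · right
      have hsub : Subsingleton {χ : Cfsg.IrrCharacter G //
          χ ∈ Cfsg.principalBlock M G ∧ 0 < (a χ).re} :=
        Finite.card_le_one_iff_subsingleton.mp (by omega)
      intro χ hχ ψ hψ h1 h2
      have := hsub.elim ⟨χ, (hmem χ).mp hχ, h1⟩ ⟨ψ, (hmem ψ).mp hψ, h2⟩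
      exact congrArg Subtype.val this
    · left
      have hsub : Subsingleton {χ : Cfsg.IrrCharacter G //
          χ ∈ Cfsg.principalBlock M G ∧ (a χ).re < 0} :=
        Finite.card_le_one_iff_subsingleton.mp (by omega)
      intro χ hχ ψ hψ h1 h2
      have := hsub.elim ⟨χ, (hmem χ).mp hχ, h1⟩ ⟨ψ, (hmem ψ).mp hψ, h2⟩
      exact congrArg Subtype.val this
  have hker := real_key s (fun χ => (a χ).re) (fun χ => ((χ : G → ℂ) 1).re)
    (fun χ => ((χ : G → ℂ) t).re) (fun χ _ => hxpos χ) R1 R2 R3 hcase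
    (Helper81.trivIrr G) htriv ha rfl
  have hker' : ∀ χ ∈ s, (a χ).re ≠ 0 → (χ : G → ℂ) t = (χ : G → ℂ) 1 := by
    intro χ hχ hr
    rw [← hret χ, ← hre1 χ, hker χ hχ hr]
  -- a second character with nonzero weight
  obtain ⟨χ₁, hχ₁s, hχ₁ne, hχ₁r⟩ : ∃ χ₁ ∈ s, χ₁ ≠ Helper81.trivIrr G ∧ (a χ₁).re ≠ 0 := by
    by_contra hno
    have hall : ∀ χ ∈ s, χ ≠ Helper81.trivIrr G → (a χ).re * ((χ : G → ℂ) 1).re = 0 := by
      intro χ hχ hne
      have : (a χ).re = 0 := by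
        by_contra hr
        exact hno ⟨χ, hχ, hne, hr⟩
      rw [this, zero_mul]
    rw [Finset.sum_eq_single_of_mem _ htriv hall] at R1
    have h11 : ((Helper81.trivIrr G : G → ℂ) 1).re = 1 := by
      rw [Helper81.trivIrr_apply, Complex.one_re]
    rw [h11, mul_one] at R1
    exact ha R1
  -- the subgroup
  let K : Subgroup G := ⨅ χ : {χ : Cfsg.IrrCharacter G // χ ∈ s ∧ (a χ).re ≠ 0},
    Helper79.charKer (Helper79.isCharacter_of_irr χ.1.2)
  apply hcon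
  right
  refine ⟨K, ?_, ?_, ?_, ?_⟩
  · exact Subgroup.normal_iInf_normal (fun χ => Helper79.charKer_normal _)
  · intro htop
    have hall : ∀ g : G, (χ₁ : G → ℂ) g = (χ₁ : G → ℂ) 1 := by
      intro g
      have hg : g ∈ K := by rw [htop]; exact Subgroup.mem_top g
      have := Subgroup.mem_iInf.mp hg ⟨χ₁, hχ₁s, hχ₁r⟩
      exact (Helper79.mem_charKer _ g).mp this
    have horth := Helper81.irr_orthonormal χ₁ (Helper81.trivIrr G)
    rw [if_neg hχ₁ne] at horth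
    have hcardG : (Nat.card G : ℂ) ≠ 0 := by
      have : 0 < Nat.card G := Nat.card_pos
      exact_mod_cast this.ne'
    have hsum : ∑ g : G, (χ₁ : G → ℂ) g * (Helper81.trivIrr G : G → ℂ) g⁻¹
        = (Nat.card G : ℂ) * (χ₁ : G → ℂ) 1 := by
      rw [Finset.sum_congr rfl (fun g _ => by rw [hall g, Helper81.trivIrr_apply, mul_one]),
        Finset.sum_const, Finset.card_univ, nsmul_eq_mul, Nat.card_eq_fintype_card]
    rw [hsum, ← mul_assoc, inv_mul_cancel₀ hcardG, one_mul] at horth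
    exact Helper81.irr_one_ne_zero χ₁ horth
  · intro n hn
    apply Subgroup.mem_iInf.mpr
    rintro ⟨χ, hχs, hχr⟩
    rw [Helper79.mem_charKer]
    have hN : (Cfsg.pPrimeCore 2 G).Normal := Helper1.pPrimeCore_normal 2
    have hcop : ¬ 2 ∣ Nat.card (Cfsg.pPrimeCore 2 G) :=
      (Nat.Prime.coprime_iff_not_dvd Nat.prime_two).mp (Helper1.pPrimeCore_coprime 2).symm
    have hsame : Cfsg.SameBlock M (Helper81.trivIrr G : G → ℂ) (χ : G → ℂ) := (hmem χ).mp hχs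
    exact Helper81.apply_eq_one_of_sameBlock hM (Cfsg.pPrimeCore 2 G) hcop hsame
      (fun n _ => rfl) n hn
  · apply Subgroup.mem_iInf.mpr
    rintro ⟨χ, hχs, hχr⟩
    rw [Helper79.mem_charKer]
    exact hker' χ hχs hχr

end Last

end Cfsg.Agent.Helper78
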