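import Cfsg.Agent.S4718
import Cfsg.Agent.Helper75.DefClass

/-!
# Deficiency class: centralizers of abelian `p`-subgroups (for S4719)

If `G` has deficiency class `r` (no non-principal `p`-block of defect `≥ r`) and `F` is an abelian
`p`-subgroup of order `p ^ r`, then every block of `C_G(F)` is principal; for `p = 2` the order
of `C_G(F)` is then bounded in terms of the `2`-part of `|G|`.
-/

set_option autoImplicit false
universe u
open Cfsg

namespace Cfsg.Agent.Helper78

/-- Every block of a group with a central `p`-subgroup of order `p ^ r` has defect at least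
`r`. -/
theorem blockDefect_ge_of_central {H : Type*} [Group H] [Finite H] {p : ℕ} [Fact p.Prime]
    {M : Ideal Cfsg.AlgInt} (hM : Cfsg.IsPModular p M) {b : Set (Cfsg.IrrCharacter H)}
    (hb : Cfsg.IsPBlock M b) (Z : Subgroup H) (hZ : Z ≤ Subgroup.center H) (r : ℕ)
    (hr : Nat.card Z = p ^ r) : r ≤ Cfsg.blockDefect p b := by
  classical
  have : Fintype H := Fintype.ofFinite H
  have hp : p.Prime := Fact.out
  obtain ⟨D, hD⟩ := Helper16.exists_isDefectGroup (p := p) hM.2.1 hb
  obtain ⟨g₀, hg₀, hDC, hDcard, hDp⟩ := Helper16.isDefectGroup_exists_data hD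
  have hcard := Helper77.card_of_isDefectGroup hM hb hD
  have h1 : Cfsg.blockDefect p b
      = (Nat.card (Subgroup.centralizer ({g₀} : Set H))).factorization p :=
    Nat.pow_right_injective hp.two_le (hcard.symm.trans hDcard)
  have hZC : Z ≤ Subgroup.centralizer ({g₀} : Set H) :=
    hZ.trans (Subgroup.center_le_centralizer _)
  have h2 := Subgroup.card_dvd_of_le hZC
  rw [hr] at h2
  rw [h1]
  exact (hp.pow_dvd_iff_le_factorization Nat.card_pos.ne').mp h2

/-- The centralizer of an abelian `p`-subgroup inherits the deficiency class. -/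
theorem centralizer_deficiency_class {G : Type*} [Group G] [Finite G] {p : ℕ} [Fact p.Prime]
    {M : Ideal Cfsg.AlgInt} (hM : Cfsg.IsPModular p M) (r : ℕ)
    (hG : ∀ B : Set (Cfsg.IrrCharacter G), Cfsg.IsPBlock M B → B ≠ Cfsg.principalBlock M G →
      Cfsg.blockDefect p B < r)
    (F : Subgroup G) (hFp : IsPGroup p F) (hFc : ∀ x ∈ F, ∀ y ∈ F, x * y = y * x) :
    ∀ b : Set (Cfsg.IrrCharacter ↥(Subgroup.centralizer (F : Set G))), Cfsg.IsPBlock M b →
      b ≠ Cfsg.principalBlock M ↥(Subgroup.centralizer (F : Set G)) →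
      Cfsg.blockDefect p b < r := by
  classical
  have : Fintype G := Fintype.ofFinite G
  have : Fintype (Subgroup.centralizer (F : Set G)) := Fintype.ofFinite _
  intro b hb hbne
  have hPH : F ≤ Subgroup.centralizer (F : Set G) := by
    intro x hx
    rw [Subgroup.mem_centralizer_iff]
    intro y hy
    exact hFc y hy x hx
  obtain ⟨B, hind⟩ := Helper16.exists_isInducedBlock hM F
    (Subgroup.centralizer (F : Set G)) hFp hPH le_rfl (Subgroup.centralizer_le_normalizer _) hb
  have hBne : B ≠ Cfsg.principalBlock M G := by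
    intro hBe
    rw [hBe] at hind
    exact hbne ((Helper75.third_main hM _ b ⟨_, hind⟩).mp hind)
  exact lt_of_le_of_lt (Helper75.blockDefect_le_of_isInducedBlock hM _ hind)
    (hG B hind.2.1 hBne)

/-- If `G` has deficiency class `r` and `F` is an abelian subgroup of order `p ^ r`, then the
principal block is the only block of `C_G(F)`. -/
theorem centralizer_all_principal {G : Type*} [Group G] [Finite G] {p : ℕ} [Fact p.Prime]
    {M : Ideal Cfsg.AlgInt} (hM : Cfsg.IsPModular p M) (r : ℕ)
    (hG : ∀ B : Set (Cfsg.IrrCharacter G), Cfsg.IsPBlock M B → B ≠ Cfsg.principalBlock M G →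
      Cfsg.blockDefect p B < r)
    (F : Subgroup G) (hFc : ∀ x ∈ F, ∀ y ∈ F, x * y = y * x) (hFcard : Nat.card F = p ^ r) :
    ∀ b : Set (Cfsg.IrrCharacter ↥(Subgroup.centralizer (F : Set G))), Cfsg.IsPBlock M b →
      b = Cfsg.principalBlock M ↥(Subgroup.centralizer (F : Set G)) := by
  classical
  intro b hb
  by_contra hne
  have h1 := centralizer_deficiency_class hM r hG F (IsPGroup.of_card hFcard) hFc b hb hne
  have hPH : F ≤ Subgroup.centralizer (F : Set G) := by
    intro x hx
    rw [Subgroup.mem_centralizer_iff]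
    intro y hy
    exact hFc y hy x hx
  have hZ : F.subgroupOf (Subgroup.centralizer (F : Set G))
      ≤ Subgroup.center ↥(Subgroup.centralizer (F : Set G)) := by
    intro x hx
    rw [Subgroup.mem_subgroupOf] at hx
    rw [Subgroup.mem_center_iff]
    intro h
    apply Subtype.ext
    exact (Subgroup.mem_centralizer_iff.mp h.2 (x : G) hx).symm
  have hcard : Nat.card (F.subgroupOf (Subgroup.centralizer (F : Set G))) = p ^ r := by
    rw [← hFcard]
    exact Nat.card_congr (Subgroup.subgroupOfEquivOfLe hPH).toEquiv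
  have h2 := blockDefect_ge_of_central hM hb _ hZ r hcard
  omega

/-- **Bound for centralizers** (`p = 2`): in a group of deficiency class `r` whose order has
`2`-part at most `2 ^ a`, the centralizer of an abelian subgroup of order `2 ^ r` has order
bounded in terms of `a`. -/
theorem exists_centralizer_bound (a : ℕ) : ∃ N : ℕ, ∀ (G : Type u) [Group G] [Finite G]
    (M : Ideal Cfsg.AlgInt) (r : ℕ), Cfsg.IsPModular 2 M → (Nat.card G).factorization 2 ≤ a →
    (∀ B : Set (Cfsg.IrrCharacter G), Cfsg.IsPBlock M B → B ≠ Cfsg.principalBlock M G →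
      Cfsg.blockDefect 2 B < r) →
    ∀ F : Subgroup G, (∀ x ∈ F, ∀ y ∈ F, x * y = y * x) → Nat.card F = 2 ^ r →
    Nat.card ↥(Subgroup.centralizer (F : Set G)) ≤ N := by
  classical
  choose N hN using fun a' : ℕ => Cfsg.Agent.S4718.result.{u} 2 a'
  refine ⟨(Finset.range (a + 1)).sup N, ?_⟩
  intro G _ _ M r hM ha hG F hFc hFcard
  have h1 := hN _ ↥(Subgroup.centralizer (F : Set G)) M hM rfl
    (centralizer_all_principal hM r hG F hFc hFcard)
  refine h1.trans ?_
  have h2 : (Nat.card ↥(Subgroup.centralizer (F : Set G))).factorization 2 ≤ a := by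
    refine le_trans ?_ ha
    exact (Nat.factorization_le_iff_dvd Nat.card_pos.ne' Nat.card_pos.ne').mpr
      (Subgroup.card_subgroup_dvd_card _) 2
  exact Finset.le_sup (f := N) (Finset.mem_range.mpr (by omega))

end Cfsg.Agent.Helper78
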