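import Mathlib
import Cfsg.Agent.Helper79.BrauerWielandt
import Cfsg.Agent.Helper79.BFAut
import Cfsg.Agent.Helper47.QuotCent
import Cfsg.Agent.Helper31.MinNormalBound

/-!
# A Fong-Gaschuetz type bound (for S4719)

A finite group with two commuting involutions `t₁`, `t₂` such that the centralizers of `t₁`,
`t₂`, `t₁ t₂` have order at most `c` has order bounded in terms of `c` and the `2`-part of its
order.  Uses the Brauer-Wielandt inequality (`Helper79.bw_card_le`), the Brauer-Fowler bound
for involutory automorphisms (`Helper79.bf_aut`), the bound for minimal normal subgroups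
(`Helper31.minNormal_card_le_of`) and `Helper47.quot_centralizer_card_le`.
-/

set_option autoImplicit false
universe u

namespace Cfsg.Agent.Helper78

/-- A normal subgroup of odd order of a group with two commuting involutions whose centralizers
(and that of their product) have order at most `c` has order at most `c ^ 3`. -/
theorem odd_normal_card_le {X : Type*} [Group X] [Finite X] (Y : Subgroup X) [Y.Normal]
    (hY : Odd (Nat.card Y)) (t₁ t₂ : X) (h1 : t₁ * t₁ = 1) (h2 : t₂ * t₂ = 1)
    (hc : t₁ * t₂ = t₂ * t₁) (c : ℕ)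
    (hc1 : Nat.card ↥(Subgroup.centralizer ({t₁} : Set X)) ≤ c)
    (hc2 : Nat.card ↥(Subgroup.centralizer ({t₂} : Set X)) ≤ c)
    (hc3 : Nat.card ↥(Subgroup.centralizer ({t₁ * t₂} : Set X)) ≤ c) :
    Nat.card Y ≤ c ^ 3 := by
  have hn : ∀ t : X, ∀ y ∈ Y, t * y * t⁻¹ ∈ Y := fun t y hy =>
    (inferInstance : Y.Normal).conj_mem y hy t
  have h := Helper79.bw_card_le Y hY t₁ t₂ h1 h2 hc (hn t₁) (hn t₂)
  have e1 : Nat.card ↥(Y ⊓ Subgroup.centralizer ({t₁} : Set X)) ≤ c :=
    (Subgroup.card_le_of_le inf_le_right).trans hc1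
  have e2 : Nat.card ↥(Y ⊓ Subgroup.centralizer ({t₂} : Set X)) ≤ c :=
    (Subgroup.card_le_of_le inf_le_right).trans hc2
  have e3 : Nat.card ↥(Y ⊓ Subgroup.centralizer ({t₁ * t₂} : Set X)) ≤ c :=
    (Subgroup.card_le_of_le inf_le_right).trans hc3
  calc Nat.card Y ≤ _ := h
    _ ≤ c * c * c := Nat.mul_le_mul (Nat.mul_le_mul e1 e2) e3
    _ = c ^ 3 := by ring

/-- Cardinality of the preimage of a subgroup of a quotient. -/
theorem card_comap_mk' {X : Type*} [Group X] [Finite X] (Y : Subgroup X) [Y.Normal]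
    (K : Subgroup (X ⧸ Y)) :
    Nat.card ↥(K.comap (QuotientGroup.mk' Y)) = Nat.card K * Nat.card Y := by
  have h1 := Subgroup.card_mul_index (K.comap (QuotientGroup.mk' Y))
  rw [Subgroup.index_comap_of_surjective _ (QuotientGroup.mk'_surjective Y)] at h1
  have h2 := Subgroup.card_mul_index K
  have h3 := Subgroup.card_eq_card_quotient_mul_card_subgroup Y
  have hpos : 0 < K.index := Nat.pos_of_ne_zero Subgroup.index_ne_zero_of_finite
  apply Nat.eq_of_mul_eq_mul_right hpos
  rw [h1, h3, ← h2]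
  ring

/-- **Fong–Gaschütz type bound**: a finite group with two commuting involutions `t₁`, `t₂` such
that the centralizers of `t₁`, `t₂` and `t₁ t₂` have order at most `c`, and whose order has
`2`-part at most `2 ^ a`, has order bounded in terms of `c` and `a`. -/
theorem fg_bound (c : ℕ) : ∀ a : ℕ, ∃ f : ℕ, ∀ (X : Type u) [Group X] [Finite X] (t₁ t₂ : X),
    t₁ * t₁ = 1 → t₂ * t₂ = 1 → t₁ * t₂ = t₂ * t₁ →
    Nat.card ↥(Subgroup.centralizer ({t₁} : Set X)) ≤ c →
    Nat.card ↥(Subgroup.centralizer ({t₂} : Set X)) ≤ c →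
    Nat.card ↥(Subgroup.centralizer ({t₁ * t₂} : Set X)) ≤ c →
    (Nat.card X).factorization 2 ≤ a → Nat.card X ≤ f := by
  intro a
  induction a with
  | zero =>
    refine ⟨c ^ 3, ?_⟩
    intro X _ _ t₁ t₂ h1 h2 hc hc1 hc2 hc3 ha
    have hodd : Odd (Nat.card (⊤ : Subgroup X)) := by
      rw [Subgroup.card_top, ← Nat.not_even_iff_odd, even_iff_two_dvd]
      intro hdvd
      have := (Nat.prime_two.dvd_iff_one_le_factorization Nat.card_pos.ne').mp hdvd
      omega
    have := odd_normal_card_le (⊤ : Subgroup X) hodd t₁ t₂ h1 h2 hc c hc1 hc2 hc3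
    rwa [Subgroup.card_top] at this
  | succ a ih =>
    obtain ⟨f, hf⟩ := ih
    refine ⟨c ^ 3 + f * ((2 * c ^ 2).factorial) ^ (a + 1) * c ^ 3, ?_⟩
    intro X _ _ t₁ t₂ h1 h2 hc hc1 hc2 hc3 ha
    -- a normal subgroup of odd order of maximal order
    obtain ⟨Y, ⟨hYn, hYodd⟩, hYmax⟩ := Set.exists_max_image
      {Y : Subgroup X | Y.Normal ∧ Odd (Nat.card Y)} (fun Y => Nat.card Y) (Set.toFinite _)
      ⟨⊥, by
        refine ⟨inferInstance, ?_⟩
        rw [Subgroup.card_bot]
        exact odd_one⟩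
    have := hYn
    have hYle := odd_normal_card_le Y hYodd t₁ t₂ h1 h2 hc c hc1 hc2 hc3
    have hXY := Subgroup.card_eq_card_quotient_mul_card_subgroup Y
    have hq1 : (QuotientGroup.mk t₁ : X ⧸ Y) * QuotientGroup.mk t₁ = 1 := by
      rw [← QuotientGroup.mk_mul, h1]; rfl
    have hq2 : (QuotientGroup.mk t₂ : X ⧸ Y) * QuotientGroup.mk t₂ = 1 := by
      rw [← QuotientGroup.mk_mul, h2]; rfl
    have hqc : (QuotientGroup.mk t₁ : X ⧸ Y) * QuotientGroup.mk t₂
        = QuotientGroup.mk t₂ * QuotientGroup.mk t₁ := by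
      rw [← QuotientGroup.mk_mul, hc]; rfl
    have hqc1 := (Helper47.quot_centralizer_card_le Y t₁).trans hc1
    have hqc2 := (Helper47.quot_centralizer_card_le Y t₂).trans hc2
    have hqc3 := (Helper47.quot_centralizer_card_le Y (t₁ * t₂)).trans hc3
    by_cases hnt : Nontrivial (X ⧸ Y)
    · -- a minimal normal subgroup of the quotient
      obtain ⟨N, ⟨hNn, hNne⟩, hNmin⟩ := Set.exists_min_image
        {N : Subgroup (X ⧸ Y) | N.Normal ∧ N ≠ ⊥} (fun N => Nat.card N) (Set.toFinite _)
        ⟨⊤, inferInstance, top_ne_bot⟩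
      have := hNn
      have hmin : ∀ K : Subgroup (X ⧸ Y), K.Normal → K ≤ N → K = ⊥ ∨ K = N := by
        intro K hKn hKN
        by_cases hK : K = ⊥
        · exact Or.inl hK
        · exact Or.inr (Subgroup.eq_of_le_of_card_ge hKN (hNmin K ⟨hKn, hK⟩))
      have heven : 2 ∣ Nat.card N := by
        by_contra hnd
        have hNodd : Odd (Nat.card N) := by
          rwa [← Nat.not_even_iff_odd, even_iff_two_dvd]
        have hY' : Odd (Nat.card ↥(N.comap (QuotientGroup.mk' Y))) := by
          rw [card_comap_mk']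
          exact hNodd.mul hYodd
        have hle := hYmax (N.comap (QuotientGroup.mk' Y)) ⟨inferInstance, hY'⟩
        simp only [card_comap_mk'] at hle
        have hN1 : 1 < Nat.card N := by
          rw [Subgroup.one_lt_card_iff_ne_bot]
          exact hNne
        have hYpos : 0 < Nat.card Y := Nat.card_pos
        nlinarith
      have hvq : (Nat.card (X ⧸ Y)).factorization 2 ≤ a + 1 := by
        refine le_trans ?_ ha
        exact (Nat.factorization_le_iff_dvd Nat.card_pos.ne' Nat.card_pos.ne').mpr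
          (Dvd.intro _ hXY.symm) 2
      have hNle := Helper31.minNormal_card_le_of
        (fun S _ hna t ht hn c hc => Helper79.bf_aut S hna t ht hn c hc) N hNne hmin heven (QuotientGroup.mk t₁) hq1 c (a + 1)
        hqc1 hvq
      -- the second quotient
      have hXN := Subgroup.card_eq_card_quotient_mul_card_subgroup N
      have hvqq : (Nat.card ((X ⧸ Y) ⧸ N)).factorization 2 ≤ a := by
        have h3 : (Nat.card (X ⧸ Y)).factorization 2
            = (Nat.card ((X ⧸ Y) ⧸ N)).factorization 2 + (Nat.card N).factorization 2 := by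
          rw [hXN, Nat.factorization_mul Nat.card_pos.ne' Nat.card_pos.ne']
          rfl
        have h4 := (Nat.prime_two.dvd_iff_one_le_factorization Nat.card_pos.ne').mp heven
        omega
      have hr1 : (QuotientGroup.mk (QuotientGroup.mk t₁ : X ⧸ Y) : (X ⧸ Y) ⧸ N)
          * QuotientGroup.mk (QuotientGroup.mk t₁ : X ⧸ Y) = 1 := by
        rw [← QuotientGroup.mk_mul, hq1]; rfl
      have hr2 : (QuotientGroup.mk (QuotientGroup.mk t₂ : X ⧸ Y) : (X ⧸ Y) ⧸ N)
          * QuotientGroup.mk (QuotientGroup.mk t₂ : X ⧸ Y) = 1 := by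
        rw [← QuotientGroup.mk_mul, hq2]; rfl
      have hrc : (QuotientGroup.mk (QuotientGroup.mk t₁ : X ⧸ Y) : (X ⧸ Y) ⧸ N)
          * QuotientGroup.mk (QuotientGroup.mk t₂ : X ⧸ Y)
          = QuotientGroup.mk (QuotientGroup.mk t₂ : X ⧸ Y)
            * QuotientGroup.mk (QuotientGroup.mk t₁ : X ⧸ Y) := by
        rw [← QuotientGroup.mk_mul, hqc]; rfl
      have hrc1 := (Helper47.quot_centralizer_card_le N (QuotientGroup.mk t₁ : X ⧸ Y)).trans hqc1
      have hrc2 := (Helper47.quot_centralizer_card_le N (QuotientGroup.mk t₂ : X ⧸ Y)).trans hqc2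
      have hrc3 := (Helper47.quot_centralizer_card_le N
        (QuotientGroup.mk (t₁ * t₂) : X ⧸ Y)).trans hqc3
      have hfin := hf ((X ⧸ Y) ⧸ N) _ _ hr1 hr2 hrc hrc1 hrc2 hrc3 hvqq
      rw [hXY, hXN]
      exact (Nat.mul_le_mul (Nat.mul_le_mul hfin hNle) hYle).trans (Nat.le_add_left _ _)
    · rw [not_nontrivial_iff_subsingleton] at hnt
      rw [hXY, Nat.card_of_subsingleton (1 : X ⧸ Y), one_mul]
      exact hYle.trans (Nat.le_add_right _ _)

end Cfsg.Agent.Helper78
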