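import Cfsg.Agent.Helper78.DefRA
import Cfsg.Agent.Helper78.DefRB

/-!
# The chain of centralizers (for S4719)

Let `G` have deficiency class `r` for `p = 2` and let `E` be an elementary abelian `2`-subgroup of
order `2 ^ (r + 1)`.  For `F₀ ≤ E` of index at most `2 ^ (j + 1)` the order of `C_G(F₀)` is
bounded in terms of `j` and the `2`-part of `|G|`; `F₀ = 1` bounds `|G|`.
-/

set_option autoImplicit false
universe u
open Cfsg

namespace Cfsg.Agent.Helper78

/-- If `F₀ ≤ E` has index more than two, there are `t₁, t₂ ∈ E` with `t₁, t₂, t₁ t₂ ∉ F₀`. -/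
theorem exists_two_not_mem {G : Type*} [Group G] [Finite G] (E F₀ : Subgroup G)
    (hcard : 2 * Nat.card F₀ < Nat.card E) :
    ∃ t₁ ∈ E, ∃ t₂ ∈ E, t₁ ∉ F₀ ∧ t₂ ∉ F₀ ∧ t₁ * t₂ ∉ F₀ := by
  classical
  obtain ⟨t₁, ht₁E, ht₁⟩ : ∃ t₁ ∈ E, t₁ ∉ F₀ := by
    by_contra hcon
    push Not at hcon
    have h1 : E ≤ F₀ := hcon
    have h2 := Subgroup.card_le_of_le h1
    omega
  refine ⟨t₁, ht₁E, ?_⟩
  by_contra hcon
  push Not at hcon
  have hcon' : ∀ t : E, (t : G) ∉ F₀ → t₁ * (t : G) ∈ F₀ := fun t ht =>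
    hcon t t.2 ht₁ ht
  let φ : E → F₀ ⊕ F₀ := fun t =>
    if h : (t : G) ∈ F₀ then Sum.inl ⟨t, h⟩ else Sum.inr ⟨t₁ * t, hcon' t h⟩
  have hφ : Function.Injective φ := by
    intro s t hst
    by_cases hs : (s : G) ∈ F₀
    · by_cases ht : (t : G) ∈ F₀
      · simp only [φ, dif_pos hs, dif_pos ht, Sum.inl.injEq, Subtype.mk.injEq] at hst
        exact Subtype.ext hst
      · simp only [φ, dif_pos hs, dif_neg ht] at hst
        exact absurd hst (by simp)
    · by_cases ht : (t : G) ∈ F₀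
      · simp only [φ, dif_neg hs, dif_pos ht] at hst
        exact absurd hst (by simp)
      · simp only [φ, dif_neg hs, dif_neg ht, Sum.inr.injEq, Subtype.mk.injEq] at hst
        exact Subtype.ext (mul_left_cancel hst)
  have h3 := Nat.card_le_card_of_injective φ hφ
  rw [Nat.card_sum] at h3
  omega

/-- Adjoining an element outside a subgroup at least doubles the order. -/
theorem two_mul_card_le_card_sup_zpowers {G : Type*} [Group G] [Finite G] (F₀ : Subgroup G)
    (t : G) (ht : t ∉ F₀) : 2 * Nat.card F₀ ≤ Nat.card ↥(F₀ ⊔ Subgroup.zpowers t) := by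
  have hle : F₀ ≤ F₀ ⊔ Subgroup.zpowers t := le_sup_left
  obtain ⟨k, hk⟩ := Subgroup.card_dvd_of_le hle
  have hpos : 0 < Nat.card ↥(F₀ ⊔ Subgroup.zpowers t) := Nat.card_pos
  have hpos0 : 0 < Nat.card F₀ := Nat.card_pos
  have hk1 : k ≠ 1 := by
    intro h1
    rw [h1, mul_one] at hk
    have := Subgroup.eq_of_le_of_card_ge hle hk.le
    apply ht
    rw [this]
    exact (le_sup_right : Subgroup.zpowers t ≤ F₀ ⊔ Subgroup.zpowers t)
      (Subgroup.mem_zpowers t)
  have hk0 : k ≠ 0 := by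
    intro h0
    rw [h0, mul_zero] at hk
    omega
  rw [hk]
  have : 2 ≤ k := by omega
  calc 2 * Nat.card F₀ = Nat.card F₀ * 2 := by ring
    _ ≤ Nat.card F₀ * k := Nat.mul_le_mul_left _ this

/-- The centralizer of `x` in `C_G(F₀)` embeds in `C_G(F₀ ⟨x⟩)`. -/
theorem card_centralizer_in_centralizer_le {G : Type*} [Group G] [Finite G] (F₀ : Subgroup G)
    (x : ↥(Subgroup.centralizer (F₀ : Set G))) :
    Nat.card ↥(Subgroup.centralizer ({x} : Set ↥(Subgroup.centralizer (F₀ : Set G)))) ≤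
      Nat.card ↥(Subgroup.centralizer
        ((F₀ ⊔ Subgroup.zpowers (x : G) : Subgroup G) : Set G)) := by
  rw [← Subgroup.card_map_of_injective
    (Subgroup.subtype_injective (Subgroup.centralizer (F₀ : Set G)))]
  apply Subgroup.card_le_of_le
  rintro y ⟨z, hz, rfl⟩
  have hzx : x * z = z * x := Subgroup.mem_centralizer_iff.mp hz x rfl
  have hzx' : (x : G) * (z : G) = (z : G) * (x : G) := congrArg Subtype.val hzx
  have hsup : F₀ ⊔ Subgroup.zpowers (x : G) ≤ Subgroup.centralizer ({(z : G)} : Set G) := by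
    apply sup_le
    · intro w hw
      rw [Subgroup.mem_centralizer_iff]
      intro h hh
      rw [Set.mem_singleton_iff] at hh
      rw [hh]
      exact (Subgroup.mem_centralizer_iff.mp z.2 w hw).symm
    · rw [Subgroup.zpowers_le, Subgroup.mem_centralizer_iff]
      intro h hh
      rw [Set.mem_singleton_iff] at hh
      rw [hh]
      exact hzx'.symm
  rw [Subgroup.mem_centralizer_iff]
  intro w hw
  have := Subgroup.mem_centralizer_iff.mp (hsup hw) (z : G) rfl
  exact this.symm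

/-- **The chain bound.** -/
theorem exists_chain_bound (a : ℕ) : ∀ j : ℕ, ∃ b : ℕ, ∀ (G : Type u) [Group G] [Finite G]
    (M : Ideal Cfsg.AlgInt) (r : ℕ), Cfsg.IsPModular 2 M → (Nat.card G).factorization 2 ≤ a →
    (∀ B : Set (Cfsg.IrrCharacter G), Cfsg.IsPBlock M B → B ≠ Cfsg.principalBlock M G →
      Cfsg.blockDefect 2 B < r) →
    ∀ E : Subgroup G, (∀ x ∈ E, ∀ y ∈ E, x * y = y * x) → (∀ x ∈ E, x * x = 1) →
    Nat.card E = 2 ^ (r + 1) →
    ∀ F₀ : Subgroup G, F₀ ≤ E → Nat.card E ≤ Nat.card F₀ * 2 ^ (j + 1) →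
    Nat.card ↥(Subgroup.centralizer (F₀ : Set G)) ≤ b := by
  intro j
  induction j with
  | zero =>
    obtain ⟨N, hN⟩ := exists_centralizer_bound.{u} a
    refine ⟨N, ?_⟩
    intro G _ _ M r hM ha hG E hEc hE2 hEcard F₀ hF₀E hcard
    have hr : 2 ^ r ≤ Nat.card F₀ := by
      rw [hEcard, pow_succ] at hcard
      omega
    have hEp : IsPGroup 2 E := IsPGroup.of_card hEcard
    have hF₀p : IsPGroup 2 F₀ := hEp.to_le hF₀E
    obtain ⟨H, hH⟩ := Sylow.exists_subgroup_card_pow_prime_of_le_card Nat.prime_two hF₀p hr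
    have hFle : H.map F₀.subtype ≤ F₀ := Subgroup.map_subtype_le H
    have hFcard : Nat.card ↥(H.map F₀.subtype) = 2 ^ r := by
      rw [Subgroup.card_map_of_injective (Subgroup.subtype_injective F₀), hH]
    have hFc : ∀ x ∈ H.map F₀.subtype, ∀ y ∈ H.map F₀.subtype, x * y = y * x :=
      fun x hx y hy => hEc x (hF₀E (hFle hx)) y (hF₀E (hFle hy))
    have h1 := hN G M r hM ha hG (H.map F₀.subtype) hFc hFcard
    refine le_trans (Subgroup.card_le_of_le (Subgroup.centralizer_le ?_)) h1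
    exact hFle
  | succ j ih =>
    obtain ⟨b, hb⟩ := ih
    obtain ⟨f, hf⟩ := fg_bound.{u} b a
    refine ⟨max b f, ?_⟩
    intro G _ _ M r hM ha hG E hEc hE2 hEcard F₀ hF₀E hcard
    by_cases hsmall : Nat.card E ≤ 2 * Nat.card F₀
    · refine le_trans (hb G M r hM ha hG E hEc hE2 hEcard F₀ hF₀E ?_) (le_max_left _ _)
      have h2 : 2 ≤ 2 ^ (j + 1) := by
        calc 2 = 2 ^ 1 := by norm_num
          _ ≤ 2 ^ (j + 1) := Nat.pow_le_pow_right (by norm_num) (by omega)
      calc Nat.card E ≤ 2 * Nat.card F₀ := hsmall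
        _ = Nat.card F₀ * 2 := by ring
        _ ≤ Nat.card F₀ * 2 ^ (j + 1) := Nat.mul_le_mul_left _ h2
    · rw [not_le] at hsmall
      obtain ⟨t₁, ht₁E, t₂, ht₂E, ht₁, ht₂, ht₁₂⟩ := exists_two_not_mem E F₀ hsmall
      have hcent : ∀ t ∈ E, t ∈ Subgroup.centralizer (F₀ : Set G) := by
        intro t ht
        rw [Subgroup.mem_centralizer_iff]
        intro w hw
        exact hEc w (hF₀E hw) t ht
      have key : ∀ t ∈ E, t ∉ F₀ →
          Nat.card ↥(Subgroup.centralizer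
            ((F₀ ⊔ Subgroup.zpowers t : Subgroup G) : Set G)) ≤ b := by
        intro t ht htF
        have hle : F₀ ⊔ Subgroup.zpowers t ≤ E :=
          sup_le hF₀E (by rw [Subgroup.zpowers_le]; exact ht)
        refine hb G M r hM ha hG E hEc hE2 hEcard _ hle ?_
        have h2 := two_mul_card_le_card_sup_zpowers F₀ t htF
        calc Nat.card E ≤ Nat.card F₀ * 2 ^ (j + 1 + 1) := hcard
          _ = 2 * Nat.card F₀ * 2 ^ (j + 1) := by ring
          _ ≤ Nat.card ↥(F₀ ⊔ Subgroup.zpowers t) * 2 ^ (j + 1) := Nat.mul_le_mul_right _ h2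
      have hva : (Nat.card ↥(Subgroup.centralizer (F₀ : Set G))).factorization 2 ≤ a := by
        refine le_trans ?_ ha
        exact (Nat.factorization_le_iff_dvd Nat.card_pos.ne' Nat.card_pos.ne').mpr
          (Subgroup.card_subgroup_dvd_card _) 2
      have h1 := card_centralizer_in_centralizer_le F₀ ⟨t₁, hcent t₁ ht₁E⟩
      have h2 := card_centralizer_in_centralizer_le F₀ ⟨t₂, hcent t₂ ht₂E⟩
      have h3 := card_centralizer_in_centralizer_le F₀
        (⟨t₁, hcent t₁ ht₁E⟩ * ⟨t₂, hcent t₂ ht₂E⟩)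
      have hfin := hf ↥(Subgroup.centralizer (F₀ : Set G)) ⟨t₁, hcent t₁ ht₁E⟩
        ⟨t₂, hcent t₂ ht₂E⟩ (Subtype.ext (hE2 t₁ ht₁E)) (Subtype.ext (hE2 t₂ ht₂E))
        (Subtype.ext (hEc t₁ ht₁E t₂ ht₂E)) (h1.trans (key t₁ ht₁E ht₁))
        (h2.trans (key t₂ ht₂E ht₂)) (h3.trans (key (t₁ * t₂) (mul_mem ht₁E ht₂E) ht₁₂)) hva
      exact hfin.trans (le_max_right _ _)

end Cfsg.Agent.Helper78
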