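import Cfsg.Agent.Helper81.SectionSum
import Cfsg.Agent.Helper16.BlockOrth

/-!
# Principal block sums of `a_χ(θ) conj a_χ(η)` under a fusion hypothesis

For a `p`-subgroup `P`, `N ≤ N_G(P)` controlling fusion of the elements of `U ⊆ P` in `P`, and
`λ(C_G(u)) = w |C_N(u)|` on `U`: the principal block sum of `χ(v) conj χ(u)` is `w` times the
number of `x ∈ N` conjugating `u` to `v`.
-/

set_option autoImplicit false
open Cfsg
open scoped ComplexConjugate

namespace Cfsg.Agent.Helper78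

universe u

variable {G : Type u} [Group G]

/-- The elements of `N` conjugating `u` to a fixed `N`-conjugate are as many as `C_N(u)`. -/
theorem card_conj_fiber (N : Subgroup G) (u n : G) (hn : n ∈ N) :
    Nat.card {x : ↥N // (x : G) * u * (x : G)⁻¹ = n * u * n⁻¹}
      = Nat.card ↥(N ⊓ Subgroup.centralizer ({u} : Set G)) := by
  apply Nat.card_congr
  exact
    { toFun := fun x => ⟨n⁻¹ * (x.1 : G), Subgroup.mem_inf.mpr
        ⟨N.mul_mem (N.inv_mem hn) x.1.2, Subgroup.mem_centralizer_singleton_iff.mpr (by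
          have hx := x.2
          calc n⁻¹ * (x.1 : G) * u
              = n⁻¹ * ((x.1 : G) * u * (x.1 : G)⁻¹) * (x.1 : G) := by group
            _ = n⁻¹ * (n * u * n⁻¹) * (x.1 : G) := by rw [hx]
            _ = u * (n⁻¹ * (x.1 : G)) := by group)⟩⟩
      invFun := fun c => ⟨⟨n * (c : G), N.mul_mem hn (Subgroup.mem_inf.mp c.2).1⟩, by
          have hc := Subgroup.mem_centralizer_singleton_iff.mp (Subgroup.mem_inf.mp c.2).2
          show n * (c : G) * u * (n * (c : G))⁻¹ = n * u * n⁻¹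
          calc n * (c : G) * u * (n * (c : G))⁻¹
              = n * ((c : G) * u) * (c : G)⁻¹ * n⁻¹ := by group
            _ = n * (u * (c : G)) * (c : G)⁻¹ * n⁻¹ := by rw [hc]
            _ = n * u * n⁻¹ := by group⟩
      left_inv := fun x => by
        apply Subtype.ext; apply Subtype.ext
        show n * (n⁻¹ * (x.1 : G)) = (x.1 : G)
        group
      right_inv := fun c => by
        apply Subtype.ext
        show n⁻¹ * (n * (c : G)) = (c : G)
        group }

section Fin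

variable [Fintype G]

/-- Principal block column products of `p`-elements `u, v ∈ P` under a fusion hypothesis on `u`. -/
theorem principal_fusion_sum {p : ℕ} [Fact p.Prime] {M : Ideal Cfsg.AlgInt}
    (hM : Cfsg.IsPModular p M) (P N : Subgroup G) (hP : IsPGroup p P) (u : G) (huP : u ∈ P)
    (hfus : ∀ g : G, g * u * g⁻¹ ∈ (P : Set G) → ∃ n ∈ N, n * u * n⁻¹ = g * u * g⁻¹)
    (w : ℚ)
    (hw : ((∑ᶠ ψ ∈ Cfsg.principalBlock M ↥(Subgroup.centralizer ({u} : Set G)),
        Cfsg.charDegree (ψ : ↥(Subgroup.centralizer ({u} : Set G)) → ℂ) ^ 2) : ℚ)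
        = w * Nat.card ↥(N ⊓ Subgroup.centralizer ({u} : Set G)))
    (v : G) (hvP : v ∈ P) :
    ∑ᶠ χ ∈ Cfsg.principalBlock M G, (χ : G → ℂ) v * conj ((χ : G → ℂ) u)
      = (w : ℂ) * (Nat.card {x : ↥N // (x : G) * u * (x : G)⁻¹ = v} : ℂ) := by
  classical
  have hMp := Helper81.isPrime_of_isPModular hM
  have hB : Cfsg.IsPBlock M (Cfsg.principalBlock M G) := ⟨Helper81.trivIrr G, rfl⟩
  have hp1 : ¬ p ∣ 1 := (Fact.out : p.Prime).not_dvd_one
  have hpel : ∀ v : G, v ∈ P → ∃ k : ℕ, orderOf v = p ^ k := by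
    intro v hv
    obtain ⟨k, hk⟩ := (IsPGroup.iff_orderOf.mp hP) ⟨v, hv⟩
    exact ⟨k, by rw [← hk, Subgroup.orderOf_mk]⟩
  have hpp : ∀ v : G, v ∈ P → Cfsg.IsPPart p v v := fun v hv =>
    ⟨1, mul_one _, Commute.one_right _, hpel v hv, by rw [orderOf_one]; exact hp1⟩
  by_cases hconj : IsConj u v
  · obtain ⟨g, hg⟩ := isConj_iff.mp hconj
    obtain ⟨n, hn, hnv⟩ := hfus g (by rw [hg]; exact hvP)
    have hcount : Nat.card {x : ↥N // (x : G) * u * (x : G)⁻¹ = v}
        = Nat.card ↥(N ⊓ Subgroup.centralizer ({u} : Set G)) := by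
      rw [← hg, ← hnv]; exact card_conj_fiber N u n hn
    rw [hcount]
    have h1 : ∀ χ : Cfsg.IrrCharacter G, (χ : G → ℂ) v = (χ : G → ℂ) u := by
      intro χ; rw [← hg]; exact Helper81.irr_conj χ _ _
    have h2 := Helper81.sum_principalBlock_section hM u (hpel u huP) 1 1
      (by rw [orderOf_one]; exact hp1) (by rw [orderOf_one]; exact hp1)
    simp only [OneMemClass.coe_one, mul_one] at h2
    rw [finsum_mem_congr rfl (fun χ _ => by rw [h1 χ]), h2]
    have : Fintype (Cfsg.IrrCharacter ↥(Subgroup.centralizer ({u} : Set G))) := Fintype.ofFinite _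
    rw [finsum_mem_eq_finite_toFinset_sum _ (Set.toFinite _)] at hw
    have h3 := congrArg (Rat.cast : ℚ → ℂ) hw
    rw [Rat.cast_mul, Rat.cast_natCast, Rat.cast_sum] at h3
    rw [← h3, finsum_mem_eq_finite_toFinset_sum _ (Set.toFinite _)]
    apply Finset.sum_congr rfl
    intro χ _
    rw [Helper81.irr_one_eq_charDegree, Complex.conj_natCast, Rat.cast_pow, Rat.cast_natCast,
      pow_two]
  · have h0 := Helper16.block_orthogonality hM hB (hpp v hvP) (hpp u huP)
      (fun h => hconj h.symm)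
    rw [h0]
    have : IsEmpty {x : ↥N // (x : G) * u * (x : G)⁻¹ = v} :=
      ⟨fun x => hconj (isConj_iff.mpr ⟨x.1, x.2⟩)⟩
    rw [Nat.card_of_isEmpty, Nat.cast_zero, mul_zero]

/-- The bilinear form `Σ_χ a_χ(θ) conj a_χ(η)` over a set `B` of irreducible characters whose
column products on `U × P` are `w` times the fusion counts. -/
theorem fusion_sum_main (P N : Subgroup G) (hNN : N ≤ Subgroup.normalizer (P : Set G))
    (U : Set G) (B : Set (Cfsg.IrrCharacter G)) (w : ℂ)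
    (hT : ∀ u : ↥P, (u : G) ∈ U → ∀ v : ↥P,
      ∑ᶠ χ ∈ B, (χ : G → ℂ) (v : G) * conj ((χ : G → ℂ) (u : G))
        = w * (Nat.card {x : ↥N // (x : G) * (u : G) * (x : G)⁻¹ = (v : G)} : ℂ))
    (θ η : ↥P → ℂ) (hθU : ∀ y : ↥P, (y : G) ∉ U → θ y = 0) :
    ∑ᶠ χ ∈ B, ((Nat.card ↥P : ℂ)⁻¹ * ∑ᶠ y : ↥P, (χ : G → ℂ) (y : G) * θ y⁻¹)
        * (starRingEnd ℂ) ((Nat.card ↥P : ℂ)⁻¹ * ∑ᶠ y : ↥P, (χ : G → ℂ) (y : G) * η y⁻¹)
      = (w / ((Nat.card ↥P : ℂ) ^ 2)) * ∑ᶠ y : ↥P, θ y * (starRingEnd ℂ)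
          (∑ᶠ x : ↥N, Cfsg.extendByZero P η ((x : G) * (y : G) * (x : G)⁻¹)) := by
  classical
  have : Fintype (Cfsg.IrrCharacter G) := Fintype.ofFinite _
  obtain ⟨s, hs⟩ : ∃ s : Finset (Cfsg.IrrCharacter G), s = (Set.toFinite B).toFinset := ⟨_, rfl⟩
  have hT' : ∀ u : ↥P, (u : G) ∈ U → ∀ v : ↥P,
      ∑ χ ∈ s, (χ : G → ℂ) (v : G) * conj ((χ : G → ℂ) (u : G))
        = w * (Nat.card {x : ↥N // (x : G) * (u : G) * (x : G)⁻¹ = (v : G)} : ℂ) := by
    intro u hu v
    rw [hs, ← finsum_mem_eq_finite_toFinset_sum]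
    exact hT u hu v
  rw [finsum_mem_eq_finite_toFinset_sum _ (Set.toFinite B), ← hs]
  have hA : ∀ (χ : Cfsg.IrrCharacter G) (φ : ↥P → ℂ),
      ∑ᶠ y : ↥P, (χ : G → ℂ) (y : G) * φ y⁻¹
        = ∑ u : ↥P, conj ((χ : G → ℂ) (u : G)) * φ u := by
    intro χ φ
    rw [finsum_eq_sum_of_fintype, ← Equiv.sum_comp (Equiv.inv ↥P)]
    apply Finset.sum_congr rfl
    intro y _
    rw [Equiv.inv_apply, inv_inv, Subgroup.coe_inv, Helper77.irr_inv]
  have hc : conj ((Nat.card ↥P : ℂ)⁻¹) = (Nat.card ↥P : ℂ)⁻¹ := by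
    rw [map_inv₀, Complex.conj_natCast]
  have hterm : ∀ χ : Cfsg.IrrCharacter G,
      ((Nat.card ↥P : ℂ)⁻¹ * ∑ᶠ y : ↥P, (χ : G → ℂ) (y : G) * θ y⁻¹)
        * conj ((Nat.card ↥P : ℂ)⁻¹ * ∑ᶠ y : ↥P, (χ : G → ℂ) (y : G) * η y⁻¹)
      = ((Nat.card ↥P : ℂ)⁻¹) ^ 2 * ∑ u : ↥P, ∑ v : ↥P,
          θ u * conj (η v) * ((χ : G → ℂ) (v : G) * conj ((χ : G → ℂ) (u : G))) := by
    intro χ
    rw [hA, hA, map_mul, hc, map_sum, mul_mul_mul_comm, ← pow_two, Finset.sum_mul_sum]
    congr 1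
    apply Finset.sum_congr rfl; intro u _
    apply Finset.sum_congr rfl; intro v _
    rw [map_mul, Complex.conj_conj]
    ring
  rw [Finset.sum_congr rfl (fun χ _ => hterm χ), ← Finset.mul_sum, Finset.sum_comm]
  have hinner : ∀ u : ↥P, ∑ χ ∈ s, ∑ v : ↥P,
      θ u * conj (η v) * ((χ : G → ℂ) (v : G) * conj ((χ : G → ℂ) (u : G)))
      = w * (θ u * conj (∑ᶠ x : ↥N,
          Cfsg.extendByZero P η ((x : G) * (u : G) * (x : G)⁻¹))) := by
    intro u
    by_cases hu : (u : G) ∈ U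
    · rw [Finset.sum_comm]
      have h1 : ∀ v : ↥P, ∑ χ ∈ s,
          θ u * conj (η v) * ((χ : G → ℂ) (v : G) * conj ((χ : G → ℂ) (u : G)))
          = θ u * conj (η v) *
            (w * (Nat.card {x : ↥N // (x : G) * (u : G) * (x : G)⁻¹ = (v : G)} : ℂ)) := by
        intro v; rw [← Finset.mul_sum, hT' u hu v]
      rw [Finset.sum_congr rfl (fun v _ => h1 v)]
      have h2 : ∑ᶠ x : ↥N, Cfsg.extendByZero P η ((x : G) * (u : G) * (x : G)⁻¹)
          = ∑ v : ↥P, η v *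
            (Nat.card {x : ↥N // (x : G) * (u : G) * (x : G)⁻¹ = (v : G)} : ℂ) := by
        rw [finsum_eq_sum_of_fintype]
        have h3 : ∀ x : ↥N, Cfsg.extendByZero P η ((x : G) * (u : G) * (x : G)⁻¹)
            = ∑ v : ↥P, if (x : G) * (u : G) * (x : G)⁻¹ = (v : G) then η v else 0 := by
          intro x
          have hmem : (x : G) * (u : G) * (x : G)⁻¹ ∈ P :=
            (Subgroup.mem_normalizer_iff.mp (hNN x.2) (u : G)).mp u.2
          rw [Finset.sum_eq_single (⟨_, hmem⟩ : ↥P)]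
          · rw [if_pos rfl]
            exact Subtype.val_injective.extend_apply η 0 ⟨_, hmem⟩
          · intro v _ hv
            rw [if_neg]
            intro h
            exact hv (Subtype.ext h.symm)
          · intro h
            exact absurd (Finset.mem_univ _) h
        rw [Finset.sum_congr rfl (fun x _ => h3 x), Finset.sum_comm]
        apply Finset.sum_congr rfl; intro v _
        rw [← Finset.sum_filter, Finset.sum_const, nsmul_eq_mul, mul_comm]
        congr 2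
        rw [Nat.card_eq_fintype_card, Fintype.card_subtype]
      rw [h2, map_sum, Finset.mul_sum, Finset.mul_sum]
      apply Finset.sum_congr rfl; intro v _
      rw [map_mul, Complex.conj_natCast]
      ring
    · rw [hθU u hu]
      simp
  rw [Finset.sum_congr rfl (fun u _ => hinner u), ← Finset.mul_sum, finsum_eq_sum_of_fintype]
  rw [div_eq_mul_inv, inv_pow]
  ring

end Fin

end Cfsg.Agent.Helper78
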