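import Cfsg.Agent.Helper16.Fong
import Cfsg.Agent.Helper16.HeightZero
import Cfsg.Agent.Helper75.CliffordCorr
import Cfsg.Agent.Helper75.BlockTransport

/-!
# Invariant characters of height zero (helper78)

* `inertia N θ`: the inertia subgroup of a function on a normal subgroup.
* `exists_height_zero_invariant`: a `G`-invariant block `b` of a normal subgroup `N` contains a
  character of height zero whose inertia group has index prime to `p`.
-/

set_option autoImplicit false
open Cfsg

namespace Cfsg.Agent.Helper78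

universe u

section htzero

variable {G : Type u} [Group G]

/-- The inertia subgroup of a function on a normal subgroup. -/
def inertia (N : Subgroup G) [N.Normal] (θ : N → ℂ) : Subgroup G where
  carrier := {g | Helper75.conjFun N g θ = θ}
  one_mem' := Helper75.conjFun_one N θ
  mul_mem' := by
    intro a b ha hb
    have ha' : Helper75.conjFun N a θ = θ := ha
    have hb' : Helper75.conjFun N b θ = θ := hb
    show Helper75.conjFun N (a * b) θ = θ
    rw [Helper75.conjFun_mul, ha', hb']
  inv_mem' := by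
    intro a ha
    have ha' : Helper75.conjFun N a θ = θ := ha
    show Helper75.conjFun N a⁻¹ θ = θ
    have h := Helper75.conjFun_conjFun_inv N a θ
    rw [ha'] at h
    exact h

theorem mem_inertia_iff (N : Subgroup G) [N.Normal] (θ : N → ℂ) (g : G) :
    g ∈ inertia N θ ↔ Helper75.conjFun N g θ = θ := Iff.rfl

variable [Fintype G] {p : ℕ} [Fact p.Prime] {M : Ideal Cfsg.AlgInt}

/-- A `G`-invariant block of a normal subgroup contains a character of height zero whose inertia
group contains a Sylow `p`-subgroup of `G`. -/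
theorem exists_height_zero_invariant (N : Subgroup G) [hN : N.Normal] [Fintype N]
    (hM : Cfsg.IsPModular p M) {b : Set (Cfsg.IrrCharacter N)} (hb : Cfsg.IsPBlock M b)
    (hinv : ∀ g : G, ∀ θ ∈ b, Helper16.irrConj N g θ ∈ b) :
    ∃ θ ∈ b, Cfsg.blockHeight p b (θ : N → ℂ) = 0 ∧
      (Nat.card G).factorization p ≤ (Nat.card (inertia N (θ : N → ℂ))).factorization p := by
  classical
  have hp : p.Prime := Fact.out
  have hMm := hM.2.1
  obtain ⟨B', hB', ⟨χ₀, hχ₀B', θ₀, hθ₀b, hθ₀⟩, hge⟩ :=
    Helper16.fong_exists_cover_defect_ge N hM hb hinv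
  obtain ⟨χ, hχB', hχ0⟩ := Helper16.exists_height_zero (p := p) hMm hB'
  have hχdeg := Helper16.factorization_charDegree_add_blockDefect hχB' hχ0
  have hχcov : χ ∈ Helper16.fongCover N b :=
    Helper16.fong_cover_closed N hMm hb hinv χ₀ χ ⟨θ₀, hθ₀b, hθ₀⟩
      (Helper16.sameBlock_of_mem hMm hB' hχ₀B' hχB')
  obtain ⟨θ, hθb, hθ⟩ := hχcov
  refine ⟨θ, hθb, ?_⟩
  -- Clifford
  have hcl := Helper75.clifford_restrict N χ.2 θ.2 hθ
  have h1 := congrFun hcl 1
  rw [Pi.smul_apply, Helper75.orbitSum_one N (θ : N → ℂ), smul_eq_mul] at h1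
  obtain ⟨e, he⟩ := Helper3.classInner_isCharacter_nat
    (Helper79.isCharacter_restrict (Helper80.isCharacter_of_irr χ.2) N)
    (Helper80.isCharacter_of_irr θ.2)
  have hcardI : Nat.card {g : G // Helper75.conjFun N g (θ : N → ℂ) = (θ : N → ℂ)}
      = Nat.card (inertia N (θ : N → ℂ)) := rfl
  rw [hcardI, he] at h1
  have hidx := (inertia N (θ : N → ℂ)).index_mul_card
  have hIpos : (Nat.card (inertia N (θ : N → ℂ)) : ℂ) ≠ 0 := by
    exact_mod_cast (Nat.card_pos (α := inertia N (θ : N → ℂ))).ne'
  have h2 : (Nat.card G : ℂ) / (Nat.card (inertia N (θ : N → ℂ)) : ℂ)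
      = ((inertia N (θ : N → ℂ)).index : ℂ) := by
    rw [div_eq_iff hIpos, ← hidx]
    push_cast
    ring
  rw [h2] at h1
  have h3 : (χ : G → ℂ) 1 = (Cfsg.charDegree (χ : G → ℂ) : ℂ) := Helper81.irr_one_eq_charDegree χ
  have h4 : (θ : N → ℂ) 1 = (Cfsg.charDegree (θ : N → ℂ) : ℂ) := Helper81.irr_one_eq_charDegree θ
  have h5 : Cfsg.charDegree (χ : G → ℂ)
      = e * ((inertia N (θ : N → ℂ)).index * Cfsg.charDegree (θ : N → ℂ)) := by
    have h6 : ((χ : G → ℂ) ((1 : N) : G)) = (χ : G → ℂ) 1 := rfl
    rw [h6, h3, h4] at h1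
    exact_mod_cast h1
  have hχpos := Helper81.charDegree_pos χ
  have hθpos := Helper81.charDegree_pos θ
  have he0 : e ≠ 0 := by
    rintro rfl
    rw [zero_mul] at h5
    omega
  have hidx0 : (inertia N (θ : N → ℂ)).index ≠ 0 := Subgroup.index_ne_zero_of_finite
  have hfac : (Cfsg.charDegree (χ : G → ℂ)).factorization p
      = e.factorization p + ((inertia N (θ : N → ℂ)).index.factorization p
        + (Cfsg.charDegree (θ : N → ℂ)).factorization p) := by
    rw [h5, Nat.factorization_mul he0 (Nat.mul_ne_zero hidx0 hθpos.ne'),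
      Nat.factorization_mul hidx0 hθpos.ne']
    rfl
  have hinf : sInf ((fun ψ : Cfsg.IrrCharacter N =>
      (Cfsg.charDegree (ψ : N → ℂ)).factorization p) '' b)
      ≤ (Cfsg.charDegree (θ : N → ℂ)).factorization p := Nat.sInf_le ⟨θ, hθb, rfl⟩
  have hθle : (Cfsg.charDegree (θ : N → ℂ)).factorization p ≤ (Nat.card N).factorization p := by
    have hd := Helper81.charDegree_dvd_card θ
    exact (Nat.factorization_le_iff_dvd hθpos.ne' Nat.card_pos.ne').mpr hd p
  have hNidx := Helper16.factorization_index_add p N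
  have hIidx := Helper16.factorization_index_add p (inertia N (θ : N → ℂ))
  have hdb : Cfsg.blockDefect p b = (Nat.card N).factorization p -
      sInf ((fun ψ : Cfsg.IrrCharacter N =>
        (Cfsg.charDegree (ψ : N → ℂ)).factorization p) '' b) := rfl
  constructor
  · unfold Cfsg.blockHeight
    omega
  · omega

end htzero

end Cfsg.Agent.Helper78
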