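import Cfsg.Agent.Helper78.KerInd

/-!
# Chains of induced blocks and kernels (helper78)

* `IndChar M H ξ B`: the irreducible character `ξ` of the subgroup `H` induces the block `B`.
* `RelInd M L N hLN θ ξ`: for `L ≤ N`, inside `N` the block of `θ` induces the block of `ξ`.
* `RelInd.indChar_iff`, `RelInd.ker_iff`: transitivity and the kernel principle in relative form.
* `exists_relInd_of_defectGroup`: extended first main theorem inside a subgroup.
* `exists_relInd_normalizer`: induction from `Q C_G(Q) ≤ L ≤ N_G(Q)` to `N_G(Q)`.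
-/

set_option autoImplicit false
open Cfsg
open scoped ComplexConjugate

namespace Cfsg.Agent.Helper78

universe u

variable {G : Type u} [Group G]

/-- The irreducible character `ξ` of the subgroup `H` induces the block `B` of `G`. -/
def IndChar (M : Ideal Cfsg.AlgInt) (H : Subgroup G) (ξ : Cfsg.IrrCharacter H)
    (B : Set (Cfsg.IrrCharacter G)) : Prop :=
  ∀ χ ∈ B, ∀ g : G, Cfsg.MemLocalIdeal M
    (Cfsg.inducedCentralChar H (ξ : H → ℂ) g - Cfsg.centralChar (χ : G → ℂ) g)

theorem indChar_of_isInducedBlock {M : Ideal Cfsg.AlgInt} {H : Subgroup G}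
    {b : Set (Cfsg.IrrCharacter H)} {B : Set (Cfsg.IrrCharacter G)}
    (hind : Cfsg.IsInducedBlock M H b B) {ξ : Cfsg.IrrCharacter H} (hξ : ξ ∈ b) :
    IndChar M H ξ B :=
  fun χ hχ g => hind.2.2 ξ hξ χ hχ g

theorem inducedCentralChar_sub_of_sameBlock [Finite G] {M : Ideal Cfsg.AlgInt} (hM : M.IsMaximal)
    (H : Subgroup G) {ξ ξ' : Cfsg.IrrCharacter H}
    (h : Cfsg.SameBlock M (ξ : H → ℂ) (ξ' : H → ℂ)) (g : G) :
    Cfsg.MemLocalIdeal M (Cfsg.inducedCentralChar H (ξ' : H → ℂ) g
      - Cfsg.inducedCentralChar H (ξ : H → ℂ) g) := by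
  classical
  have := Fintype.ofFinite G
  have : Fintype H := Fintype.ofFinite H
  rw [Helper16.inducedCentralChar_eq_omega_res H _ g, Helper16.inducedCentralChar_eq_omega_res H _ g]
  have hcl := Helper16.isClassFunction_res (Helper81.classInd_isClassFunction g) H
  rw [Helper77.omega_eq_sum_conjClasses ξ' hcl, Helper77.omega_eq_sum_conjClasses ξ hcl,
    ← Finset.sum_sub_distrib]
  refine Helper77.memLocalIdeal_sum hM _ _ fun c _ => ?_
  rw [← mul_sub]
  refine Helper77.memLocalIdeal_mul hM (Helper16.classInd_memLocalRing hM g _) ?_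
  have := Helper77.memLocalIdeal_neg (h (Quotient.out c))
  rwa [neg_sub] at this

theorem isInducedBlock_blockOf [Finite G] {M : Ideal Cfsg.AlgInt} (hM : M.IsMaximal)
    (H : Subgroup G) (ξ : Cfsg.IrrCharacter H) {B : Set (Cfsg.IrrCharacter G)}
    (hB : Cfsg.IsPBlock M B) (h : IndChar M H ξ B) :
    Cfsg.IsInducedBlock M H (Cfsg.blockOf M (ξ : H → ℂ)) B := by
  refine ⟨⟨ξ, rfl⟩, hB, fun ξ' hξ' χ hχ g => ?_⟩
  have h1 := inducedCentralChar_sub_of_sameBlock hM H hξ' g
  have h2 := h χ hχ g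
  have := Helper77.memLocalIdeal_add hM h1 h2
  rwa [sub_add_sub_cancel] at this

/-- Relative induction: for `L ≤ N`, inside the group `N` the block of `θ` induces the block of
`ξ`. -/
def RelInd (M : Ideal Cfsg.AlgInt) (L N : Subgroup G) (hLN : L ≤ N) (θ : Cfsg.IrrCharacter L)
    (ξ : Cfsg.IrrCharacter N) : Prop :=
  Cfsg.IsInducedBlock M (L.subgroupOf N)
    (Cfsg.blockOf M ((Helper75.irrComp (Subgroup.subgroupOfEquivOfLe hLN) θ :
      Cfsg.IrrCharacter (L.subgroupOf N)) : L.subgroupOf N → ℂ))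
    (Cfsg.blockOf M (ξ : N → ℂ))

theorem RelInd.inducedCentralChar_sub [Finite G] {M : Ideal Cfsg.AlgInt} (hM : M.IsMaximal)
    {L N : Subgroup G} {hLN : L ≤ N} {θ : Cfsg.IrrCharacter L} {ξ : Cfsg.IrrCharacter N}
    (h : RelInd M L N hLN θ ξ) (g : G) :
    Cfsg.MemLocalIdeal M (Cfsg.inducedCentralChar L (θ : L → ℂ) g
      - Cfsg.inducedCentralChar N (ξ : N → ℂ) g) := by
  classical
  have := Fintype.ofFinite G
  have : Fintype N := Fintype.ofFinite N
  have : Fintype L := Fintype.ofFinite L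
  have : Fintype (L.subgroupOf N) := Fintype.ofFinite _
  exact Helper16.inducedCentralChar_trans hM hLN (θ : L → ℂ) ξ
    (fun n => h.2.2 _ (Helper16.sameBlock_refl hM _) ξ (Helper16.sameBlock_refl hM _) n) g

theorem RelInd.indChar_iff [Finite G] {M : Ideal Cfsg.AlgInt} (hM : M.IsMaximal)
    {L N : Subgroup G} {hLN : L ≤ N} {θ : Cfsg.IrrCharacter L} {ξ : Cfsg.IrrCharacter N}
    (h : RelInd M L N hLN θ ξ) {B : Set (Cfsg.IrrCharacter G)} :
    IndChar M L θ B ↔ IndChar M N ξ B := by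
  constructor
  · intro h1 χ hχ g
    have h2 := h.inducedCentralChar_sub hM g
    have h3 := h1 χ hχ g
    have := Helper77.memLocalIdeal_sub hM h3 h2
    rwa [sub_sub_sub_cancel_left] at this
  · intro h1 χ hχ g
    have := Helper77.memLocalIdeal_add hM (h.inducedCentralChar_sub hM g) (h1 χ hχ g)
    rwa [sub_add_sub_cancel] at this

theorem RelInd.ker_iff [Finite G] {p : ℕ} [Fact p.Prime] {M : Ideal Cfsg.AlgInt}
    (hM : Cfsg.IsPModular p M) {L N : Subgroup G} {hLN : L ≤ N} {θ : Cfsg.IrrCharacter L}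
    {ξ : Cfsg.IrrCharacter N} (h : RelInd M L N hLN θ ξ) (K : Subgroup G)
    (hKn : ∀ n ∈ N, ∀ k ∈ K, n * k * n⁻¹ ∈ K) (hK : ¬ p ∣ Nat.card K) :
    (∀ n : N, (n : G) ∈ K → (ξ : N → ℂ) n = (ξ : N → ℂ) 1) ↔
      (∀ l : L, (l : G) ∈ K → (θ : L → ℂ) l = (θ : L → ℂ) 1) := by
  classical
  have hMm := hM.2.1
  have : (K.subgroupOf N).Normal := Helper31.normal_subgroupOf_of_conj_mem' hKn
  have hK' : ¬ p ∣ Nat.card (K.subgroupOf N) := by
    intro hd
    apply hK
    have h1 : Nat.card (K.subgroupOf N) = Nat.card ↥(K ⊓ N) := by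
      rw [← Subgroup.subgroupOf_map_subtype, Subgroup.card_map_of_injective N.subtype_injective]
    rw [h1] at hd
    exact hd.trans (Subgroup.card_dvd_of_le inf_le_left)
  have key := ker_induced_iff (G := ↥N) hM (L.subgroupOf N) h
    (ξ := Helper75.irrComp (Subgroup.subgroupOfEquivOfLe hLN) θ) (Helper16.sameBlock_refl hMm _)
    (χ := ξ) (Helper16.sameBlock_refl hMm _) (K.subgroupOf N) hK'
  constructor
  · intro h1 l hl
    have h2 := key.mp (fun k hk => h1 k (Subgroup.mem_subgroupOf.mp hk))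
    have h3 := h2 ((Subgroup.subgroupOfEquivOfLe hLN).symm l)
      (by rw [Subgroup.mem_subgroupOf]; simpa using hl)
    simpa [Helper75.irrComp_apply] using h3
  · intro h1 n hn
    apply key.mpr _ n (Subgroup.mem_subgroupOf.mpr hn)
    intro k hk
    rw [Helper75.irrComp_apply, Helper75.irrComp_apply, map_one]
    apply h1
    rw [Subgroup.mem_subgroupOf] at hk
    simpa using hk

/-- **Extended first main theorem inside a subgroup.**  If `R` is a defect group of the block of
`ξ ∈ Irr(H)` and `R C_G(R) ≤ L ≤ N_G(R)`, `L ≤ H`, then some `θ ∈ Irr(L)` relatively induces every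
member of the block of `ξ`. -/
theorem exists_relInd_of_defectGroup [Finite G] {p : ℕ} [Fact p.Prime] {M : Ideal Cfsg.AlgInt}
    (hM : Cfsg.IsPModular p M) (H : Subgroup G) (ξ : Cfsg.IrrCharacter H) (R : Subgroup H)
    (hR : Cfsg.IsDefectGroup p M (Cfsg.blockOf M (ξ : H → ℂ)) R) (L : Subgroup G)
    (hRL : R.map H.subtype ≤ L)
    (hCL : Subgroup.centralizer ((R.map H.subtype : Subgroup G) : Set G) ≤ L)
    (hLN : L ≤ Subgroup.normalizer ((R.map H.subtype : Subgroup G) : Set G)) (hLH : L ≤ H) :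
    ∃ θ : Cfsg.IrrCharacter L, ∀ ξ' ∈ Cfsg.blockOf M (ξ : H → ℂ), RelInd M L H hLH θ ξ' := by
  classical
  have hMm := hM.2.1
  have : Fintype H := Fintype.ofFinite H
  have : Fintype (L.subgroupOf H) := Fintype.ofFinite _
  have e1 : ∀ z : H, (z : G) ∈ R.map H.subtype ↔ z ∈ R := by
    intro z
    constructor
    · rintro ⟨w, hw, hwz⟩
      have : w = z := Subtype.ext hwz
      rwa [← this]
    · intro hz
      exact ⟨z, hz, rfl⟩
  have hPL : R ≤ L.subgroupOf H := by
    intro r hr
    rw [Subgroup.mem_subgroupOf]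
    exact hRL ⟨r, hr, rfl⟩
  have hCL' : Subgroup.centralizer (R : Set H) ≤ L.subgroupOf H := by
    intro y hy
    rw [Subgroup.mem_subgroupOf]
    apply hCL
    rw [Subgroup.mem_centralizer_iff]
    rintro _ ⟨r, hr, rfl⟩
    have := Subgroup.mem_centralizer_iff.mp hy r hr
    exact congrArg Subtype.val this
  have hLN' : L.subgroupOf H ≤ Subgroup.normalizer (R : Set H) := by
    intro y hy
    rw [Subgroup.mem_subgroupOf] at hy
    have h1 := hLN hy
    rw [Subgroup.mem_normalizer_iff] at h1 ⊢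
    intro r
    have h2 := h1 (r : G)
    rw [← e1 r, ← e1 (y * r * y⁻¹)]
    exact h2
  obtain ⟨b, -, hind⟩ := Helper16.extfmt_exists (G := ↥H) hM ⟨ξ, rfl⟩ hR (L.subgroupOf H)
    hPL hCL' hLN'
  obtain ⟨θH, hθH⟩ := Helper16.exists_mem_of_isPBlock hMm hind.1
  refine ⟨Helper75.irrComp (Subgroup.subgroupOfEquivOfLe hLH).symm θH, fun ξ' hξ' => ?_⟩
  unfold RelInd
  have e2 : Helper75.irrComp (Subgroup.subgroupOfEquivOfLe hLH)
      (Helper75.irrComp (Subgroup.subgroupOfEquivOfLe hLH).symm θH) = θH := by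
    apply Subtype.ext
    funext k
    simp [Helper75.irrComp_apply]
  rw [e2, ← Helper16.eq_blockOf_of_mem hMm hind.1 hθH, Helper16.blockOf_eq_of_mem hMm hξ']
  exact hind

/-- **Induction to the normalizer.**  For a `p`-subgroup `Q` and `Q C_G(Q) ≤ L ≤ N_G(Q)`, every
irreducible character of `L` relatively induces some irreducible character of `N_G(Q)`. -/
theorem exists_relInd_normalizer [Finite G] {p : ℕ} [Fact p.Prime] {M : Ideal Cfsg.AlgInt}
    (hM : Cfsg.IsPModular p M) (Q : Subgroup G) (hQ : IsPGroup p Q) (L : Subgroup G)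
    (hQL : Q ≤ L) (hCL : Subgroup.centralizer (Q : Set G) ≤ L)
    (hLN : L ≤ Subgroup.normalizer (Q : Set G)) (θ : Cfsg.IrrCharacter L) :
    ∃ ξ : Cfsg.IrrCharacter ↥(Subgroup.normalizer (Q : Set G)),
      RelInd M L (Subgroup.normalizer (Q : Set G)) hLN θ ξ := by
  classical
  have hMm := hM.2.1
  have : Fintype ↥(Subgroup.normalizer (Q : Set G)) := Fintype.ofFinite _
  have : Fintype (L.subgroupOf (Subgroup.normalizer (Q : Set G))) := Fintype.ofFinite _
  have hP : IsPGroup p (Q.subgroupOf (Subgroup.normalizer (Q : Set G))) := hQ.comap_subtype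
  have hPH : Q.subgroupOf (Subgroup.normalizer (Q : Set G))
      ≤ L.subgroupOf (Subgroup.normalizer (Q : Set G)) := Subgroup.subgroupOf_mono _ hQL
  have hCH : Subgroup.centralizer
      ((Q.subgroupOf (Subgroup.normalizer (Q : Set G)) : Subgroup _) : Set _)
      ≤ L.subgroupOf (Subgroup.normalizer (Q : Set G)) := by
    intro y hy
    rw [Subgroup.mem_subgroupOf]
    apply hCL
    rw [Subgroup.mem_centralizer_iff]
    intro q hq
    have := Subgroup.mem_centralizer_iff.mp hy ⟨q, Subgroup.le_normalizer hq⟩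
      (by rw [SetLike.mem_coe, Subgroup.mem_subgroupOf]; exact hq)
    exact congrArg Subtype.val this
  have hHN : L.subgroupOf (Subgroup.normalizer (Q : Set G))
      ≤ Subgroup.normalizer
        ((Q.subgroupOf (Subgroup.normalizer (Q : Set G)) : Subgroup _) : Set _) := by
    have : (Q.subgroupOf (Subgroup.normalizer (Q : Set G))).Normal :=
      Subgroup.normal_subgroupOf_of_le_normalizer le_rfl
    intro y _
    rw [Subgroup.mem_normalizer_iff]
    intro r
    constructor
    · intro hr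
      exact this.conj_mem r hr y
    · intro hr
      have h1 := this.conj_mem _ hr y⁻¹
      simpa [mul_assoc] using h1
  obtain ⟨β, hind⟩ := Helper16.exists_isInducedBlock (G := ↥(Subgroup.normalizer (Q : Set G))) hM
    (Q.subgroupOf (Subgroup.normalizer (Q : Set G)))
    (L.subgroupOf (Subgroup.normalizer (Q : Set G))) hP hPH hCH hHN
    (b := Cfsg.blockOf M ((Helper75.irrComp (Subgroup.subgroupOfEquivOfLe hLN) θ :
      Cfsg.IrrCharacter (L.subgroupOf (Subgroup.normalizer (Q : Set G)))) : _ → ℂ)) ⟨_, rfl⟩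
  obtain ⟨ξ, hξ⟩ := Helper16.exists_mem_of_isPBlock hMm hind.2.1
  refine ⟨ξ, ?_⟩
  unfold RelInd
  rw [← Helper16.eq_blockOf_of_mem hMm hind.2.1 hξ]
  exact hind

end Cfsg.Agent.Helper78
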