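import Cfsg.Agent.Helper16.ExtFMT
import Cfsg.Agent.Helper16.FMT
import Cfsg.Agent.Helper81.BlockKer
import Cfsg.Agent.Helper75.PrincipalTransport
import Cfsg.Agent.Helper31.Core
import Cfsg.Prelude.Def_OddOrderLocal

/-!
# Kernels of blocks and induced blocks (helper78)

* `kerInd K`: the indicator function of a subgroup.
* `ker_iff_omega`: a normal `p'`-subgroup `K` lies in the kernel of the irreducible character `χ`
  iff `Ω_χ` of the indicator of `K` is not in the local ideal.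
* `ker_sameBlock`: kernels containing a normal `p'`-subgroup are a block invariant.
* `ker_induced_iff`: if `b^G = B`, `ξ ∈ b`, `χ ∈ B`, then `K ≤ ker χ ↔ K ∩ H ≤ ker ξ`.
* `IndChar`, `isInducedBlock_blockOf`: a character inducing a block.
-/

set_option autoImplicit false
open Cfsg
open scoped ComplexConjugate

namespace Cfsg.Agent.Helper78

universe u

section ker
variable {G : Type u} [Group G]

/-- The indicator function of a subgroup. -/
noncomputable def kerInd (K : Subgroup G) : G → ℂ := by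
  classical exact fun g => if g ∈ K then 1 else 0

theorem kerInd_isClassFunction (K : Subgroup G) [hK : K.Normal] :
    Cfsg.IsClassFunction G (kerInd K) := by
  classical
  intro g h
  unfold kerInd
  have : h * g * h⁻¹ ∈ K ↔ g ∈ K := by
    constructor
    · intro h1
      have := hK.conj_mem _ h1 h⁻¹
      simpa [mul_assoc] using this
    · intro h1
      exact hK.conj_mem _ h1 h
  simp only [this]

theorem kerInd_memLocalRing {M : Ideal Cfsg.AlgInt} (hM : M.IsMaximal) (K : Subgroup G) (g : G) :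
    Cfsg.MemLocalRing M (kerInd K g) := by
  classical
  unfold kerInd
  by_cases h : g ∈ K
  · rw [if_pos h]; exact Helper77.memLocalRing_one hM
  · rw [if_neg h]; exact Helper77.memLocalRing_zero hM

theorem omega_kerInd [Fintype G] (χ : G → ℂ) (K : Subgroup G) [Fintype K] :
    Helper81.omega χ (kerInd K) = (∑ k : K, χ (k : G)) / χ 1 := by
  classical
  unfold Helper81.omega kerInd
  congr 1
  simp only [ite_mul, one_mul, zero_mul]
  rw [← Finset.sum_filter]
  exact Finset.sum_subtype (Finset.univ.filter (fun g : G => g ∈ K)) (by simp) (fun g => χ g)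

/-- A normal `p'`-subgroup lies in the kernel of an irreducible character iff `Ω` of its
indicator is a unit of the local ring. -/
theorem ker_iff_omega [Fintype G] {p : ℕ} [Fact p.Prime] {M : Ideal Cfsg.AlgInt}
    (hM : Cfsg.IsPModular p M) (χ : Cfsg.IrrCharacter G) (K : Subgroup G) [K.Normal]
    (hK : ¬ p ∣ Nat.card K) :
    (∀ k ∈ K, (χ : G → ℂ) k = (χ : G → ℂ) 1) ↔
      ¬ Cfsg.MemLocalIdeal M (Helper81.omega (χ : G → ℂ) (kerInd K)) := by
  classical
  have : Fintype K := Fintype.ofFinite K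
  have hχ1 : (χ : G → ℂ) 1 ≠ 0 := Helper81.irr_one_ne_zero χ
  rw [omega_kerInd]
  constructor
  · intro h
    have e : (∑ k : K, (χ : G → ℂ) (k : G)) / (χ : G → ℂ) 1 = (Nat.card K : ℂ) := by
      rw [Finset.sum_congr rfl (fun (k : K) _ => h (k : G) k.2), Finset.sum_const, Finset.card_univ,
        nsmul_eq_mul, Nat.card_eq_fintype_card]
      field_simp
    rw [e]
    exact Helper77.not_memLocalIdeal_natCast hM hK
  · intro h
    rcases Helper81.irr_sum_mul_normal χ K with h1 | h1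
    · exfalso
      apply h
      have := h1 1
      simp only [one_mul] at this
      rw [this, zero_div]
      exact Helper77.memLocalIdeal_zero hM.2.1
    · exact h1

/-- Characters in the same block have the same normal `p'`-subgroups in their kernels. -/
theorem ker_sameBlock [Finite G] {p : ℕ} [Fact p.Prime] {M : Ideal Cfsg.AlgInt}
    (hM : Cfsg.IsPModular p M) {χ ψ : Cfsg.IrrCharacter G}
    (h : Cfsg.SameBlock M (χ : G → ℂ) (ψ : G → ℂ)) (K : Subgroup G) [K.Normal]
    (hK : ¬ p ∣ Nat.card K) (hχ : ∀ k ∈ K, (χ : G → ℂ) k = (χ : G → ℂ) 1) :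
    ∀ k ∈ K, (ψ : G → ℂ) k = (ψ : G → ℂ) 1 := by
  classical
  have := Fintype.ofFinite G
  have hMm := hM.2.1
  rw [ker_iff_omega hM χ K hK] at hχ
  rw [ker_iff_omega hM ψ K hK]
  intro h2
  apply hχ
  have h3 : Cfsg.MemLocalIdeal M (Helper81.omega (χ : G → ℂ) (kerInd K)
      - Helper81.omega (ψ : G → ℂ) (kerInd K)) := by
    rw [Helper77.omega_eq_sum_conjClasses χ (kerInd_isClassFunction K),
      Helper77.omega_eq_sum_conjClasses ψ (kerInd_isClassFunction K), ← Finset.sum_sub_distrib]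
    refine Helper77.memLocalIdeal_sum hMm _ _ fun c _ => ?_
    rw [← mul_sub]
    exact Helper77.memLocalIdeal_mul hMm (kerInd_memLocalRing hMm K _) (h _)
  have := Helper77.memLocalIdeal_add hMm h3 h2
  rwa [sub_add_cancel] at this

/-- **Kernels and induced blocks.**  If the block `b` of `H` induces the block `B` of `G` and `K`
is a normal `p'`-subgroup of `G`, then `K` lies in the kernel of `χ ∈ B` iff `K ∩ H` lies in the
kernel of `ξ ∈ b`. -/
theorem ker_induced_iff [Finite G] {p : ℕ} [Fact p.Prime] {M : Ideal Cfsg.AlgInt}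
    (hM : Cfsg.IsPModular p M) (H : Subgroup G) {b : Set (Cfsg.IrrCharacter H)}
    {B : Set (Cfsg.IrrCharacter G)} (hind : Cfsg.IsInducedBlock M H b B)
    {ξ : Cfsg.IrrCharacter H} (hξ : ξ ∈ b) {χ : Cfsg.IrrCharacter G} (hχ : χ ∈ B)
    (K : Subgroup G) [K.Normal] (hK : ¬ p ∣ Nat.card K) :
    (∀ k ∈ K, (χ : G → ℂ) k = (χ : G → ℂ) 1) ↔
      (∀ h : H, (h : G) ∈ K → (ξ : H → ℂ) h = (ξ : H → ℂ) 1) := by
  classical
  have := Fintype.ofFinite G
  have : Fintype H := Fintype.ofFinite H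
  have hMm := hM.2.1
  have hK' : ¬ p ∣ Nat.card (K.subgroupOf H) := by
    intro hd
    apply hK
    have h1 : Nat.card (K.subgroupOf H) = Nat.card ↥(K ⊓ H) := by
      rw [← Subgroup.subgroupOf_map_subtype, Subgroup.card_map_of_injective H.subtype_injective]
    rw [h1] at hd
    exact hd.trans (Subgroup.card_dvd_of_le inf_le_left)
  have key := Helper16.omega_res_sub_memLocalIdeal hMm H hind hξ hχ (kerInd_isClassFunction K)
    (kerInd_memLocalRing hMm K)
  have e : (fun h : H => kerInd K (h : G)) = kerInd (K.subgroupOf H) := by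
    funext h
    unfold kerInd
    simp only [Subgroup.mem_subgroupOf]
  rw [e] at key
  rw [ker_iff_omega hM χ K hK]
  have h2 := ker_iff_omega hM ξ (K.subgroupOf H) hK'
  have h3 : (∀ h : H, (h : G) ∈ K → (ξ : H → ℂ) h = (ξ : H → ℂ) 1) ↔
      (∀ k ∈ K.subgroupOf H, (ξ : H → ℂ) k = (ξ : H → ℂ) 1) := by
    constructor
    · intro h4 k hk
      exact h4 k (Subgroup.mem_subgroupOf.mp hk)
    · intro h4 k hk
      exact h4 k (Subgroup.mem_subgroupOf.mpr hk)
  rw [h3, h2]
  constructor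
  · intro h4 h5
    apply h4
    have := Helper77.memLocalIdeal_sub hMm h5 key
    rwa [sub_sub_cancel] at this
  · intro h4 h5
    apply h4
    have := Helper77.memLocalIdeal_add hMm key h5
    rwa [sub_add_cancel] at this

end ker

section core
variable {G : Type u} [Group G]

/-- The class of numbers all of whose prime divisors lie in `π`. -/
def piNum (π : Set ℕ) : ℕ → Prop := fun n => ∀ p : ℕ, p.Prime → p ∣ n → p ∈ π

theorem piNum_isOrderClass (π : Set ℕ) : Helper31.IsOrderClass (piNum π) := by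
  refine ⟨?_, ?_, ?_⟩
  · intro p hp h
    exact absurd (Nat.dvd_one.mp h) hp.ne_one
  · intro a b ha hb p hp h
    rcases (Nat.Prime.dvd_mul hp).mp h with h | h
    · exact ha p hp h
    · exact hb p hp h
  · intro a b ha hd p hp h
    exact ha p hp (h.trans hd)

theorem piCore_eq_gcore_piNum (π : Set ℕ) (G : Type u) [Group G] :
    Cfsg.piCore π G = Helper31.gcore (piNum π) G := rfl

theorem mem_gcoreIn_iff (π : Set ℕ) (H : Subgroup G) (x : H) :
    (x : G) ∈ Helper31.gcoreIn (piNum π) H ↔ x ∈ Cfsg.piCore π H := by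
  show (x : G) ∈ (Helper31.gcore (piNum π) ↥H).map H.subtype ↔ x ∈ Helper31.gcore (piNum π) ↥H
  constructor
  · rintro ⟨y, hy, hyx⟩
    have : y = x := Subtype.ext hyx
    rw [← this]
    exact hy
  · intro h
    exact ⟨x, h, rfl⟩

theorem not_dvd_card_gcoreIn_compl [Finite G] {π : Set ℕ} {p : ℕ} (hp : p.Prime) (hpπ : p ∈ π)
    (H : Subgroup G) : ¬ p ∣ Nat.card (Helper31.gcoreIn (piNum {q | q ∉ π}) H) := by
  intro h
  exact Helper31.card_gcoreIn (piNum_isOrderClass {q | q ∉ π}) H p hp h hpπ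

theorem not_dvd_card_piCore_compl [Finite G] {π : Set ℕ} {p : ℕ} (hp : p.Prime) (hpπ : p ∈ π) :
    ¬ p ∣ Nat.card (Cfsg.piCore {q | q ∉ π} G) := by
  intro h
  exact Helper31.card_gcore (piNum_isOrderClass {q | q ∉ π}) G p hp h hpπ

theorem conj_mem_gcoreIn_of_mem (π : Set ℕ) (H : Subgroup G) {h k : G} (hh : h ∈ H)
    (hk : k ∈ Helper31.gcoreIn (piNum π) H) : h * k * h⁻¹ ∈ Helper31.gcoreIn (piNum π) H := by
  refine Helper31.conj_mem_gcoreIn (fun a ha => ?_) (fun a ha => ?_) hk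
  · exact H.mul_mem (H.mul_mem hh ha) (H.inv_mem hh)
  · exact H.mul_mem (H.mul_mem (H.inv_mem hh) ha) hh

theorem conj_mem_centralizer_of_mem_normalizer (Q : Subgroup G) {n c : G}
    (hn : n ∈ Subgroup.normalizer (Q : Set G)) (hc : c ∈ Subgroup.centralizer (Q : Set G)) :
    n * c * n⁻¹ ∈ Subgroup.centralizer (Q : Set G) := by
  rw [Subgroup.mem_centralizer_iff] at hc ⊢
  intro q hq
  have h1 : n⁻¹ * q * n ∈ Q := by
    have := (Subgroup.mem_normalizer_iff.mp hn (n⁻¹ * q * n))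
    rw [this]
    simpa [mul_assoc] using hq
  have h2 := hc _ h1
  calc q * (n * c * n⁻¹) = n * ((n⁻¹ * q * n) * c) * n⁻¹ := by group
    _ = n * (c * (n⁻¹ * q * n)) * n⁻¹ := by rw [h2]
    _ = n * c * n⁻¹ * q := by group

/-- `O_π'(H) ∩ N_G(Q) ≤ C_G(Q)` for a `p`-subgroup `Q ≤ H`, `p ∈ π`. -/
theorem gcoreIn_inf_normalizer_le_centralizer [Finite G] {π : Set ℕ} {p : ℕ} [hp : Fact p.Prime]
    (hpπ : p ∈ π) {H Q : Subgroup G} (hQ : IsPGroup p Q) (hQH : Q ≤ H) {x : G}
    (hx : x ∈ Helper31.gcoreIn (piNum {q | q ∉ π}) H)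
    (hxN : x ∈ Subgroup.normalizer (Q : Set G)) : x ∈ Subgroup.centralizer (Q : Set G) := by
  have hcop : Nat.Coprime (Nat.card (Helper31.gcoreIn (piNum {q | q ∉ π}) H)) (Nat.card Q) := by
    obtain ⟨n, hn⟩ := hQ.exists_card_eq
    rw [hn]
    apply Nat.Coprime.pow_right
    rw [Nat.coprime_comm, Nat.Prime.coprime_iff_not_dvd hp.out]
    exact not_dvd_card_gcoreIn_compl hp.out hpπ H
  have hbot := disjoint_iff.mp (Subgroup.disjoint_of_coprime_natCard hcop)
  rw [Subgroup.mem_centralizer_iff]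
  intro q hq
  have h1 : x * q * x⁻¹ * q⁻¹ ∈ Q :=
    Q.mul_mem ((Subgroup.mem_normalizer_iff.mp hxN q).mp hq) (Q.inv_mem hq)
  have h2 : x * q * x⁻¹ * q⁻¹ ∈ Helper31.gcoreIn (piNum {q | q ∉ π}) H := by
    have h3 := conj_mem_gcoreIn_of_mem {q | q ∉ π} H (hQH hq) (Subgroup.inv_mem _ hx)
    have h4 := Subgroup.mul_mem _ hx h3
    have e : x * (q * x⁻¹ * q⁻¹) = x * q * x⁻¹ * q⁻¹ := by group
    rwa [e] at h4
  have h5 : x * q * x⁻¹ * q⁻¹ ∈ Helper31.gcoreIn (piNum {q | q ∉ π}) H ⊓ Q := ⟨h2, h1⟩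
  rw [hbot, Subgroup.mem_bot] at h5
  calc q * x = (x * q * x⁻¹ * q⁻¹)⁻¹ * (x * q) := by group
    _ = x * q := by rw [h5, inv_one, one_mul]

/-- `O_π'(H) ∩ N_G(Q) ≤ O_π'(N_G(Q))` when `Q ≤ H` is a `p`-subgroup with `C_G(Q) ≤ H`. -/
theorem gcoreIn_inf_normalizer_le [Finite G] {π : Set ℕ} {p : ℕ} [hp : Fact p.Prime]
    (hpπ : p ∈ π) {H Q : Subgroup G} (hQ : IsPGroup p Q) (hQH : Q ≤ H)
    (hCH : Subgroup.centralizer (Q : Set G) ≤ H) {x : G}
    (hx : x ∈ Helper31.gcoreIn (piNum {q | q ∉ π}) H)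
    (hxN : x ∈ Subgroup.normalizer (Q : Set G)) :
    x ∈ Helper31.gcoreIn (piNum {q | q ∉ π}) (Subgroup.normalizer (Q : Set G)) := by
  have hxC := gcoreIn_inf_normalizer_le_centralizer hpπ hQ hQH hx hxN
  have hP := piNum_isOrderClass {q | q ∉ π}
  have h1 : Helper31.gcoreIn (piNum {q | q ∉ π}) H ⊓ Subgroup.centralizer (Q : Set G)
      ≤ Helper31.gcoreIn (piNum {q | q ∉ π}) (Subgroup.centralizer (Q : Set G)) := by
    apply Helper31.le_gcoreIn inf_le_right
    · intro k hk m hm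
      refine ⟨conj_mem_gcoreIn_of_mem _ H (hCH hk) hm.1, ?_⟩
      exact Subgroup.mul_mem _ (Subgroup.mul_mem _ hk hm.2) (Subgroup.inv_mem _ hk)
    · exact hP.2.2 _ _ (Helper31.card_gcoreIn hP H) (Subgroup.card_dvd_of_le inf_le_left)
  have h2 : Helper31.gcoreIn (piNum {q | q ∉ π}) (Subgroup.centralizer (Q : Set G))
      ≤ Helper31.gcoreIn (piNum {q | q ∉ π}) (Subgroup.normalizer (Q : Set G)) :=
    Helper31.gcoreIn_le_gcoreIn_of_normal hP (Subgroup.centralizer_le_normalizer _)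
      (fun k hk h hh => conj_mem_centralizer_of_mem_normalizer Q hk hh)
  exact h2 (h1 ⟨hx, hxC⟩)

end core

end Cfsg.Agent.Helper78
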