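import Cfsg.Agent.Helper78.KerChain

/-!
# Kernels of blocks and `O_π'` of local subgroups (helper78)

Brauer, *Some applications of the theory of blocks of characters of finite groups IV*.

* `conjSubEquiv`, `indChar_conj`: transport along conjugation.
* `ker_correspondent_of_conj`: the property "`O_π'(N_G(D))` lies in the kernel of the Brauer
  correspondent" does not depend on the defect group `D`.
* `ker_of_induced`: if `O_π'(N_G(D)) ≤ ker B₁`, then `O_π'(H) ≤ ker β` for every block `β` of a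
  subgroup `H` inducing `B` with a defect group `R` such that `C_G(R) ≤ H`.
* `ker_top_of_hall`: the converse direction, starting from a subpair with a normal Hall
  `π'`-subgroup of the centralizer in the kernel.
-/

set_option autoImplicit false
open Cfsg
open scoped ComplexConjugate

namespace Cfsg.Agent.Helper78

universe u

variable {G : Type u} [Group G]

/-- Conjugation by `x` as an isomorphism between the subgroups `A` and `A' = x A x⁻¹`. -/
def conjSubEquiv (A A' : Subgroup G) (x : G) (h : ∀ a, a ∈ A ↔ x * a * x⁻¹ ∈ A') : ↥A ≃* ↥A' where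
  toFun a := ⟨x * a * x⁻¹, (h a).1 a.2⟩
  invFun a := ⟨x⁻¹ * a * x, (h _).2 (by simp [mul_assoc])⟩
  left_inv a := by
    apply Subtype.ext
    simp [mul_assoc]
  right_inv a := by
    apply Subtype.ext
    simp [mul_assoc]
  map_mul' a b := by
    apply Subtype.ext
    simp [mul_assoc]

theorem inducedCentralChar_conj {A A' : Subgroup G} (σ : ↥A ≃* ↥A') (x : G)
    (hσ : ∀ a : A, ((σ a : A') : G) = x * a * x⁻¹) (ξ : A' → ℂ) (g : G) :
    Cfsg.inducedCentralChar A (fun a => ξ (σ a)) g = Cfsg.inducedCentralChar A' ξ g := by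
  unfold Cfsg.inducedCentralChar
  apply finsum_mem_eq_of_bijOn (fun a => σ a)
  · refine ⟨?_, ?_, ?_⟩
    · intro a ha
      show IsConj g ((σ a : A') : G)
      rw [hσ]
      exact IsConj.trans ha (isConj_iff.mpr ⟨x, rfl⟩)
    · exact σ.injective.injOn
    · intro a' ha'
      refine ⟨σ.symm a', ?_, by simp⟩
      show IsConj g ((σ.symm a' : A) : G)
      have h1 : ((σ (σ.symm a') : A') : G) = x * (σ.symm a' : A) * x⁻¹ := hσ _
      rw [σ.apply_symm_apply] at h1
      have h2 : IsConj ((σ.symm a' : A) : G) (a' : G) := isConj_iff.mpr ⟨x, h1.symm⟩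
      exact IsConj.trans ha' h2.symm
  · intro a _
    show ξ (σ a) / ξ (σ 1) = ξ (σ a) / ξ 1
    rw [map_one]

theorem indChar_conj {M : Ideal Cfsg.AlgInt} {A A' : Subgroup G} (σ : ↥A ≃* ↥A') (x : G)
    (hσ : ∀ a : A, ((σ a : A') : G) = x * a * x⁻¹) (ξ : Cfsg.IrrCharacter A')
    {B : Set (Cfsg.IrrCharacter G)} (h : IndChar M A' ξ B) :
    IndChar M A (Helper75.irrComp σ ξ) B := by
  intro χ hχ g
  have := h χ hχ g
  rw [← inducedCentralChar_conj σ x hσ] at this
  exact this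

theorem mem_normalizer_conj_iff {D R : Subgroup G} {x : G}
    (h : ∀ a, a ∈ D ↔ x * a * x⁻¹ ∈ R) (a : G) :
    a ∈ Subgroup.normalizer (D : Set G) ↔ x * a * x⁻¹ ∈ Subgroup.normalizer (R : Set G) := by
  have h' : ∀ b, b ∈ R ↔ x⁻¹ * b * x ∈ D := by
    intro b
    rw [h (x⁻¹ * b * x)]
    have : x * (x⁻¹ * b * x) * x⁻¹ = b := by group
    rw [this]
  rw [Subgroup.mem_normalizer_iff, Subgroup.mem_normalizer_iff]
  constructor
  · intro h1 b
    rw [h' b, h1 (x⁻¹ * b * x), h (a * (x⁻¹ * b * x) * a⁻¹)]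
    have : x * (a * (x⁻¹ * b * x) * a⁻¹) * x⁻¹ = x * a * x⁻¹ * b * (x * a * x⁻¹)⁻¹ := by group
    rw [this]
  · intro h1 d
    rw [h d, h1 (x * d * x⁻¹), h (a * d * a⁻¹)]
    have : x * a * x⁻¹ * (x * d * x⁻¹) * (x * a * x⁻¹)⁻¹ = x * (a * d * a⁻¹) * x⁻¹ := by group
    rw [this]

/-- If, for one defect group `R` of `B` and one character `ξ` of `N_G(R)` inducing `B`, the
subgroup `O_π'(N_G(R))` lies in the kernel of `ξ`, then for every defect group `D` the subgroup
`O_π'(N_G(D))` lies in the kernel of the Brauer correspondent of `B` in `N_G(D)`. -/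
theorem ker_correspondent_of_conj [Finite G] {p : ℕ} [Fact p.Prime] {M : Ideal Cfsg.AlgInt}
    (hM : Cfsg.IsPModular p M) {π : Set ℕ} (hpπ : p ∈ π) {B : Set (Cfsg.IrrCharacter G)}
    (hB : Cfsg.IsPBlock M B) {D : Subgroup G} (hBD : Cfsg.IsDefectGroup p M B D)
    {B₁ : Set (Cfsg.IrrCharacter ↥(Subgroup.normalizer (D : Set G)))}
    (hB₁ : Cfsg.IsInducedBlock M (Subgroup.normalizer (D : Set G)) B₁ B)
    {R : Subgroup G} (hR : Cfsg.IsDefectGroup p M B R)
    (ξ : Cfsg.IrrCharacter ↥(Subgroup.normalizer (R : Set G)))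
    (hξ : IndChar M (Subgroup.normalizer (R : Set G)) ξ B)
    (hker : ∀ n : ↥(Subgroup.normalizer (R : Set G)),
      n ∈ Cfsg.piCore {q | q ∉ π} ↥(Subgroup.normalizer (R : Set G)) →
        (ξ : ↥(Subgroup.normalizer (R : Set G)) → ℂ) n
          = (ξ : ↥(Subgroup.normalizer (R : Set G)) → ℂ) 1) :
    ∀ n : ↥(Subgroup.normalizer (D : Set G)),
      n ∈ Cfsg.piCore {q | q ∉ π} ↥(Subgroup.normalizer (D : Set G)) → n ∈ Cfsg.blockKer B₁ := by
  classical
  have hMm := hM.2.1
  have hp : p.Prime := Fact.out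
  have := Fintype.ofFinite G
  have : Fintype ↥(Subgroup.normalizer (R : Set G)) := Fintype.ofFinite _
  have : Fintype ↥(Subgroup.normalizer (D : Set G)) := Fintype.ofFinite _
  obtain ⟨x, hx⟩ := Helper16.isDefectGroup_conjLE hM hB hBD hR
  have hcard := Helper16.isDefectGroup_card_eq hM hB hBD hR
  have hDR : ∀ a, a ∈ D ↔ x * a * x⁻¹ ∈ R := by
    have hle : D.map (MulAut.conj x).toMonoidHom ≤ R := by
      rintro _ ⟨d, hd, rfl⟩
      exact hx d hd
    have heq : D.map (MulAut.conj x).toMonoidHom = R := by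
      apply Subgroup.eq_of_le_of_card_ge hle
      rw [Subgroup.card_map_of_injective (MulAut.conj x).injective, hcard]
    intro a
    constructor
    · exact hx a
    · intro ha
      rw [← heq] at ha
      obtain ⟨d, hd, hda⟩ := ha
      have h2 : x * d * x⁻¹ = x * a * x⁻¹ := hda
      have : d = a := by simpa using h2
      rwa [← this]
  have hN := mem_normalizer_conj_iff hDR
  obtain ⟨σ, hσ_def⟩ : ∃ σ, σ = conjSubEquiv (Subgroup.normalizer (D : Set G))
    (Subgroup.normalizer (R : Set G)) x hN := ⟨_, rfl⟩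
  have hσ' : ∀ a' : ↥(Subgroup.normalizer (R : Set G)),
      ((σ.symm a' : ↥(Subgroup.normalizer (D : Set G))) : G) = x⁻¹ * a' * x⁻¹⁻¹ := by
    intro a'
    rw [inv_inv, hσ_def]
    rfl
  obtain ⟨-, -, -, -, hRp⟩ := Helper16.isDefectGroup_exists_data hR
  have hindξ := isInducedBlock_blockOf hMm _ ξ hB hξ
  have hdefξ := Helper16.isDefectGroup_subgroupOf_of_induced hM hRp Subgroup.le_normalizer le_rfl
    hindξ hR
  intro n hn θ hθ
  have hθ' : IndChar M _ (Helper75.irrComp σ.symm θ) B :=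
    indChar_conj σ.symm x⁻¹ hσ' θ (indChar_of_isInducedBlock hB₁ hθ)
  have hindθ' := isInducedBlock_blockOf hMm _ (Helper75.irrComp σ.symm θ) hB hθ'
  have heq := Helper16.fmt_unique hM R hRp hdefξ hindξ hindθ'
  have hsame : Cfsg.SameBlock M (ξ : ↥(Subgroup.normalizer (R : Set G)) → ℂ)
      (Helper75.irrComp σ.symm θ : ↥(Subgroup.normalizer (R : Set G)) → ℂ) := by
    have h1 : Helper75.irrComp σ.symm θ ∈ Cfsg.blockOf M (ξ : _ → ℂ) := by
      rw [← heq]
      exact Helper16.sameBlock_refl hMm _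
    exact h1
  have hK : ¬ p ∣ Nat.card (Cfsg.piCore {q | q ∉ π} ↥(Subgroup.normalizer (R : Set G))) :=
    not_dvd_card_piCore_compl hp hpπ
  have h1 := ker_sameBlock hM hsame (Cfsg.piCore {q | q ∉ π} ↥(Subgroup.normalizer (R : Set G)))
    hK hker
  have h2 : σ n ∈ Cfsg.piCore {q | q ∉ π} ↥(Subgroup.normalizer (R : Set G)) := by
    have := Helper31.map_equiv_gcore_le (piNum {q | q ∉ π}) σ
    exact this ⟨n, hn, rfl⟩
  have h3 := h1 (σ n) h2
  rw [Helper75.irrComp_apply, Helper75.irrComp_apply, map_one, σ.symm_apply_apply] at h3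
  exact h3

/-- A defect group of a block of `N_G(Q)` contains the `p`-subgroup `Q`. -/
theorem exists_defectGroup_normalizer [Finite G] {p : ℕ} [Fact p.Prime] {M : Ideal Cfsg.AlgInt}
    (hM : Cfsg.IsPModular p M) (Q : Subgroup G) (hQ : IsPGroup p Q)
    (ξ : Cfsg.IrrCharacter ↥(Subgroup.normalizer (Q : Set G))) :
    ∃ R₁ : Subgroup ↥(Subgroup.normalizer (Q : Set G)),
      Cfsg.IsDefectGroup p M (Cfsg.blockOf M (ξ : ↥(Subgroup.normalizer (Q : Set G)) → ℂ)) R₁ ∧
      Q ≤ R₁.map (Subgroup.normalizer (Q : Set G)).subtype ∧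
      (Nat.card R₁ ≤ Nat.card Q → R₁ = Q.subgroupOf (Subgroup.normalizer (Q : Set G))) := by
  classical
  have hMm := hM.2.1
  have : Fintype ↥(Subgroup.normalizer (Q : Set G)) := Fintype.ofFinite _
  obtain ⟨R₁, hR₁⟩ := Helper16.exists_isDefectGroup (p := p) hMm
    (B := Cfsg.blockOf M (ξ : ↥(Subgroup.normalizer (Q : Set G)) → ℂ)) ⟨ξ, rfl⟩
  have hn : (Q.subgroupOf (Subgroup.normalizer (Q : Set G))).Normal :=
    Subgroup.normal_subgroupOf_of_le_normalizer le_rfl
  have h1 := Helper16.normal_pSubgroup_le_defectGroup hM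
    (Q.subgroupOf (Subgroup.normalizer (Q : Set G))) hQ.comap_subtype ⟨ξ, rfl⟩ hR₁
  refine ⟨R₁, hR₁, ?_, ?_⟩
  · intro q hq
    exact ⟨⟨q, Subgroup.le_normalizer hq⟩, h1 (by rw [Subgroup.mem_subgroupOf]; exact hq), rfl⟩
  · intro hc
    symm
    apply Subgroup.eq_of_le_of_card_ge h1
    rw [Nat.card_congr (Subgroup.subgroupOfEquivOfLe
      (Subgroup.le_normalizer (H := Q))).toEquiv]
    exact hc

/-- **Kernels of induced blocks (going down).**  Let `B` have defect group `D` and Brauer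
correspondent `B₁` in `N_G(D)`, and suppose `O_π'(N_G(D))` lies in the kernel of `B₁` (`p ∈ π`).
If `ξ ∈ Irr(H)` induces `B` and the block of `ξ` has a defect group `R` with `C_G(R) ≤ H`, then
`O_π'(H)` lies in the kernel of every member of the block of `ξ`. -/
theorem ker_of_induced [Finite G] {p : ℕ} [Fact p.Prime] {M : Ideal Cfsg.AlgInt}
    (hM : Cfsg.IsPModular p M) {π : Set ℕ} (hpπ : p ∈ π) {B : Set (Cfsg.IrrCharacter G)}
    (hB : Cfsg.IsPBlock M B) {D : Subgroup G} (hBD : Cfsg.IsDefectGroup p M B D)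
    {B₁ : Set (Cfsg.IrrCharacter ↥(Subgroup.normalizer (D : Set G)))}
    (hB₁ : Cfsg.IsInducedBlock M (Subgroup.normalizer (D : Set G)) B₁ B)
    (hker : ∀ n : ↥(Subgroup.normalizer (D : Set G)),
      n ∈ Cfsg.piCore {q | q ∉ π} ↥(Subgroup.normalizer (D : Set G)) → n ∈ Cfsg.blockKer B₁)
    (m : ℕ) : ∀ (H : Subgroup G) (ξ : Cfsg.IrrCharacter H) (R : Subgroup H), IndChar M H ξ B →
      Cfsg.IsDefectGroup p M (Cfsg.blockOf M (ξ : H → ℂ)) R →
      Subgroup.centralizer ((R.map H.subtype : Subgroup G) : Set G) ≤ H →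
      Nat.card G - Nat.card R = m →
      ∀ x : H, x ∈ Cfsg.piCore {q | q ∉ π} ↥H → ∀ ξ' ∈ Cfsg.blockOf M (ξ : H → ℂ),
        (ξ' : H → ℂ) x = (ξ' : H → ℂ) 1 := by
  induction m using Nat.strong_induction_on with
  | _ m ih =>
  intro H ξ R hξ hR hC hm x hx ξ' hξ'
  classical
  have hMm := hM.2.1
  have hp : p.Prime := Fact.out
  have := Fintype.ofFinite G
  have : Fintype H := Fintype.ofFinite H
  obtain ⟨-, -, -, -, hRp⟩ := Helper16.isDefectGroup_exists_data hR
  obtain ⟨R', hR'⟩ : ∃ R' : Subgroup G, R' = R.map H.subtype := ⟨_, rfl⟩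
  rw [← hR'] at hC
  have hR'p : IsPGroup p R' := by
    rw [hR']
    exact hRp.map _
  have hR'H : R' ≤ H := by
    rw [hR']
    exact Subgroup.map_subtype_le _
  have hcardR : Nat.card R' = Nat.card R := by
    rw [hR']
    exact Subgroup.card_map_of_injective H.subtype_injective
  obtain ⟨L, hL⟩ : ∃ L : Subgroup G, L = R' ⊔ Subgroup.centralizer (R' : Set G) := ⟨_, rfl⟩
  have hR'L : R' ≤ L := hL ▸ le_sup_left
  have hCL : Subgroup.centralizer (R' : Set G) ≤ L := hL ▸ le_sup_right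
  have hLH : L ≤ H := hL ▸ sup_le hR'H hC
  have hLN : L ≤ Subgroup.normalizer (R' : Set G) :=
    hL ▸ sup_le Subgroup.le_normalizer (Subgroup.centralizer_le_normalizer _)
  obtain ⟨θ, hθ⟩ := exists_relInd_of_defectGroup hM H ξ R hR L (hR' ▸ hR'L) (hR' ▸ hCL)
    (hR' ▸ hLN) hLH
  have hθB : IndChar M L θ B :=
    ((hθ ξ (Helper16.sameBlock_refl hMm _)).indChar_iff hMm).mpr hξ
  obtain ⟨ξ₁, hξ₁⟩ := exists_relInd_normalizer hM R' hR'p L hR'L hCL hLN θ
  have hξ₁B : IndChar M _ ξ₁ B := (hξ₁.indChar_iff hMm).mp hθB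
  obtain ⟨R₁, hR₁, hle', heq⟩ := exists_defectGroup_normalizer hM R' hR'p ξ₁
  have key : ∀ n : ↥(Subgroup.normalizer (R' : Set G)),
      n ∈ Cfsg.piCore {q | q ∉ π} ↥(Subgroup.normalizer (R' : Set G)) →
        (ξ₁ : ↥(Subgroup.normalizer (R' : Set G)) → ℂ) n
          = (ξ₁ : ↥(Subgroup.normalizer (R' : Set G)) → ℂ) 1 := by
    by_cases hc : Nat.card R₁ ≤ Nat.card R'
    · have h1 := heq hc
      rw [h1] at hR₁
      have hind := isInducedBlock_blockOf hMm _ ξ₁ hB hξ₁B
      have hdef : Cfsg.IsDefectGroup p M B R' := Helper16.fmt_defectGroup hM R' hR'p hind hR₁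
      intro n hn
      obtain ⟨θ₀, hθ₀⟩ := Helper16.exists_mem_of_isPBlock hMm hB₁.1
      have h2 := ker_correspondent_of_conj hM hpπ hB hdef hind hBD θ₀
        (indChar_of_isInducedBlock hB₁ hθ₀) (fun n hn => hker n hn θ₀ hθ₀) n hn
      exact h2 ξ₁ (Helper16.sameBlock_refl hMm _)
    · push Not at hc
      intro n hn
      have hC₁ : Subgroup.centralizer
          ((R₁.map (Subgroup.normalizer (R' : Set G)).subtype : Subgroup G) : Set G)
          ≤ Subgroup.normalizer (R' : Set G) :=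
        (Subgroup.centralizer_le (SetLike.coe_subset_coe.mpr hle')).trans
          (Subgroup.centralizer_le_normalizer _)
      have hlt : Nat.card G - Nat.card R₁ < m := by
        have h1 : Nat.card R₁ ≤ Nat.card G :=
          (Subgroup.card_le_card_group R₁).trans (Subgroup.card_le_card_group _)
        omega
      exact ih _ hlt _ ξ₁ R₁ hξ₁B hR₁ hC₁ rfl n hn ξ₁ (Helper16.sameBlock_refl hMm _)
  have hRel := hθ ξ' hξ'
  have hKH : ¬ p ∣ Nat.card (Helper31.gcoreIn (piNum {q | q ∉ π}) H) :=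
    not_dvd_card_gcoreIn_compl hp hpπ H
  have h1 := (hRel.ker_iff hM (Helper31.gcoreIn (piNum {q | q ∉ π}) H)
    (fun h hh k hk => conj_mem_gcoreIn_of_mem _ H hh hk) hKH).mpr ?_
  · exact h1 x ((mem_gcoreIn_iff _ H x).mpr hx)
  · intro l hl
    have hlN : (l : G) ∈ Helper31.gcoreIn (piNum {q | q ∉ π})
        (Subgroup.normalizer (R' : Set G)) :=
      gcoreIn_inf_normalizer_le hpπ hR'p hR'H hC hl (hLN l.2)
    have hKN : ¬ p ∣ Nat.card (Helper31.gcoreIn (piNum {q | q ∉ π})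
        (Subgroup.normalizer (R' : Set G))) := not_dvd_card_gcoreIn_compl hp hpπ _
    have h2 := (hξ₁.ker_iff hM (Helper31.gcoreIn (piNum {q | q ∉ π})
      (Subgroup.normalizer (R' : Set G)))
      (fun h hh k hk => conj_mem_gcoreIn_of_mem _ _ hh hk) hKN).mp
      (fun n hn => key n ((mem_gcoreIn_iff _ _ n).mp hn))
    exact h2 l hlN

end Cfsg.Agent.Helper78
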