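import Cfsg.Agent.Helper78.KerMain
import Cfsg.Agent.Helper16.BlockPart

/-!
# The second main theorem as an expansion over characters inducing `B` (helper78)

* `classFunction_expand`: a class function is the sum of its inner products with the irreducible
  characters.
* `section_expand_induced`: for a `p`-element `y`, `χ ∈ B` and a `p`-regular `s ∈ C_G(y)`:
  `χ(y s) = ∑ ⟨χ(y ·), ψ⟩ ψ(s)`, the sum over the irreducible characters `ψ` of `C_G(y)` inducing
  `B`.
-/

set_option autoImplicit false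
open Cfsg
open scoped ComplexConjugate

namespace Cfsg.Agent.Helper78

universe u

theorem classFunction_expand {H : Type u} [Group H] [Fintype H] [Fintype (Cfsg.IrrCharacter H)]
    {ϑ : H → ℂ} (hϑ : Cfsg.IsClassFunction H ϑ) (s : H) :
    ∑ ψ : Cfsg.IrrCharacter H, Cfsg.classInner ϑ (ψ : H → ℂ) * (ψ : H → ℂ) s = ϑ s := by
  classical
  have h1 := Helper16.finsum_classInner_mul_eq_sum_blockCoeff (Set.univ) hϑ s
  simp only [Set.mem_univ, finsum_true] at h1
  rw [finsum_eq_sum_of_fintype] at h1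
  rw [h1]
  have hcard : (Nat.card H : ℂ) ≠ 0 := by
    have : 0 < Nat.card H := Nat.card_pos
    exact_mod_cast this.ne'
  have h2 : ∀ k : H, Cfsg.blockCoeff (Set.univ : Set (Cfsg.IrrCharacter H)) k
      = if k = 1 then 1 else 0 := by
    intro k
    unfold Cfsg.blockCoeff
    simp only [Set.mem_univ, finsum_true]
    rw [finsum_eq_sum_of_fintype]
    have h3 : ∑ χ : Cfsg.IrrCharacter H, (χ : H → ℂ) 1 * conj ((χ : H → ℂ) k)
        = ∑ χ : Cfsg.IrrCharacter H, (χ : H → ℂ) 1 * (χ : H → ℂ) k⁻¹ := by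
      refine Finset.sum_congr rfl fun χ _ => ?_
      rw [Helper77.irr_inv]
    rw [h3, Helper81.sum_irr_one_mul]
    by_cases hk : k = 1
    · subst hk
      simp only [inv_one, if_true]
      field_simp
    · have : k⁻¹ ≠ 1 := fun h => hk (inv_eq_one.mp h)
      rw [if_neg this, if_neg hk, mul_zero]
  simp only [h2, ite_mul, one_mul, zero_mul]
  rw [Finset.sum_ite_eq' Finset.univ (1 : H) (fun k => ϑ (k * s))]
  simp

variable {G : Type u} [Group G]

theorem indChar_of_sameBlock [Finite G] {M : Ideal Cfsg.AlgInt} (hM : M.IsMaximal)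
    (H : Subgroup G) {ξ ξ' : Cfsg.IrrCharacter H}
    (h : Cfsg.SameBlock M (ξ : H → ℂ) (ξ' : H → ℂ)) {B : Set (Cfsg.IrrCharacter G)}
    (hξ : IndChar M H ξ B) : IndChar M H ξ' B := by
  intro χ hχ g
  have h1 := inducedCentralChar_sub_of_sameBlock hM H h g
  have := Helper77.memLocalIdeal_add hM h1 (hξ χ hχ g)
  rwa [sub_add_sub_cancel] at this

/-- **Second main theorem, expansion form.** -/
theorem section_expand_induced [Finite G] {p : ℕ} [Fact p.Prime] {M : Ideal Cfsg.AlgInt}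
    (hM : Cfsg.IsPModular p M) (y : G) (hy : ∃ k : ℕ, orderOf y = p ^ k)
    {B : Set (Cfsg.IrrCharacter G)} (hB : Cfsg.IsPBlock M B) (χ : Cfsg.IrrCharacter G)
    (hχ : χ ∈ B) [Fintype ↥(Subgroup.centralizer ({y} : Set G))]
    [Fintype (Cfsg.IrrCharacter ↥(Subgroup.centralizer ({y} : Set G)))]
    (S : Finset (Cfsg.IrrCharacter ↥(Subgroup.centralizer ({y} : Set G))))
    (hS : ∀ ψ, ψ ∈ S ↔ IndChar M (Subgroup.centralizer ({y} : Set G)) ψ B)
    (s : ↥(Subgroup.centralizer ({y} : Set G))) (hs : ¬ p ∣ orderOf s) :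
    (χ : G → ℂ) (y * s) = ∑ ψ ∈ S,
      Cfsg.classInner (fun c : ↥(Subgroup.centralizer ({y} : Set G)) => (χ : G → ℂ) (y * c))
        (ψ : ↥(Subgroup.centralizer ({y} : Set G)) → ℂ)
        * (ψ : ↥(Subgroup.centralizer ({y} : Set G)) → ℂ) s := by
  classical
  have hMm := hM.2.1
  have := Fintype.ofFinite G
  have hϑ : Cfsg.IsClassFunction ↥(Subgroup.centralizer ({y} : Set G))
      (fun c : ↥(Subgroup.centralizer ({y} : Set G)) => (χ : G → ℂ) (y * c)) := by
    intro g h
    show (χ : G → ℂ) (y * ((h * g * h⁻¹ : ↥(Subgroup.centralizer ({y} : Set G))) : G))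
      = (χ : G → ℂ) (y * g)
    have hc : (h : G) * y = y * h := (Subgroup.mem_centralizer_iff.mp h.2 y rfl).symm
    have e : y * ((h * g * h⁻¹ : ↥(Subgroup.centralizer ({y} : Set G))) : G)
        = (h : G) * (y * g) * (h : G)⁻¹ := by
      push_cast
      rw [← mul_assoc, ← mul_assoc, ← hc]
      group
    rw [e, Helper81.irr_conj]
  have hexp := classFunction_expand hϑ s
  rw [← Finset.sum_filter_add_sum_filter_not Finset.univ (fun ψ => ψ ∈ S)] at hexp
  have hS' : Finset.univ.filter (fun ψ => ψ ∈ S) = S := by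
    ext ψ
    simp
  rw [hS'] at hexp
  have hzero : ∑ ψ ∈ Finset.univ.filter (fun ψ => ψ ∉ S),
      Cfsg.classInner (fun c : ↥(Subgroup.centralizer ({y} : Set G)) => (χ : G → ℂ) (y * c))
        (ψ : ↥(Subgroup.centralizer ({y} : Set G)) → ℂ)
        * (ψ : ↥(Subgroup.centralizer ({y} : Set G)) → ℂ) s = 0 := by
    have hfib := Finset.sum_fiberwise_of_maps_to
      (s := Finset.univ.filter (fun ψ : Cfsg.IrrCharacter ↥(Subgroup.centralizer ({y} : Set G)) =>
        ψ ∉ S))
      (t := (Finset.univ.filter (fun ψ : Cfsg.IrrCharacter ↥(Subgroup.centralizer ({y} : Set G)) =>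
        ψ ∉ S)).image
        (fun ψ : Cfsg.IrrCharacter ↥(Subgroup.centralizer ({y} : Set G)) =>
          Cfsg.blockOf M (ψ : ↥(Subgroup.centralizer ({y} : Set G)) → ℂ)))
      (g := fun ψ : Cfsg.IrrCharacter ↥(Subgroup.centralizer ({y} : Set G)) =>
        Cfsg.blockOf M (ψ : ↥(Subgroup.centralizer ({y} : Set G)) → ℂ))
      (fun ψ hψ => Finset.mem_image_of_mem _ hψ)
      (fun ψ : Cfsg.IrrCharacter ↥(Subgroup.centralizer ({y} : Set G)) => Cfsg.classInner
        (fun c : ↥(Subgroup.centralizer ({y} : Set G)) => (χ : G → ℂ) (y * c))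
        (ψ : ↥(Subgroup.centralizer ({y} : Set G)) → ℂ)
        * (ψ : ↥(Subgroup.centralizer ({y} : Set G)) → ℂ) s)
    rw [← hfib]
    refine Finset.sum_eq_zero fun b hb => ?_
    obtain ⟨ψ₀, hψ₀, rfl⟩ := Finset.mem_image.mp hb
    rw [Finset.mem_filter] at hψ₀
    have hnot : ¬ Cfsg.IsInducedBlock M (Subgroup.centralizer ({y} : Set G))
        (Cfsg.blockOf M (ψ₀ : ↥(Subgroup.centralizer ({y} : Set G)) → ℂ)) B := by
      intro hind
      exact hψ₀.2 ((hS ψ₀).mpr (indChar_of_isInducedBlock hind (Helper16.sameBlock_refl hMm _)))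
    have h0 := Helper16.finsum_classInner_centralizer_eq_zero hM y hy hB χ hχ ⟨ψ₀, rfl⟩ hnot s hs
    rw [finsum_mem_eq_finite_toFinset_sum _ (Set.toFinite _)] at h0
    rw [← h0]
    apply Finset.sum_congr _ (fun _ _ => rfl)
    ext ψ
    simp only [Finset.mem_filter, Finset.mem_univ, true_and, Set.Finite.mem_toFinset]
    constructor
    · rintro ⟨-, h2⟩
      have : ψ ∈ Cfsg.blockOf M (ψ : ↥(Subgroup.centralizer ({y} : Set G)) → ℂ) :=
        Helper16.sameBlock_refl hMm _
      rw [h2] at this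
      exact this
    · intro h2
      refine ⟨fun h3 => hψ₀.2 ((hS ψ₀).mpr ?_), Helper16.blockOf_eq_of_mem hMm h2⟩
      have h4 : Cfsg.SameBlock M (ψ : ↥(Subgroup.centralizer ({y} : Set G)) → ℂ)
          (ψ₀ : ↥(Subgroup.centralizer ({y} : Set G)) → ℂ) := Helper81.sameBlock_symm h2
      exact indChar_of_sameBlock hMm _ h4 ((hS ψ).mp h3)
  rw [hzero, add_zero] at hexp
  exact hexp.symm

end Cfsg.Agent.Helper78
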