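import Cfsg.Agent.Helper78.KerMain

/-!
# Kernels of blocks and `O_π'` of local subgroups: going up (helper78)

* `ker_top_of_hall`: let `Q` be a `p`-subgroup, `Q C_G(Q) ≤ L ≤ N_G(Q)`, `θ ∈ Irr(L)` inducing
  the block `B`, and suppose the `π'`-elements of `C_G(Q)` form a subgroup `K` lying in the kernel
  of `θ` (`p ∈ π`).  Then for some defect group `R` of `B` and some `ξ ∈ Irr(N_G(R))` inducing `B`,
  `O_π'(N_G(R))` lies in the kernel of `ξ`.
-/

set_option autoImplicit false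
open Cfsg
open scoped ComplexConjugate

namespace Cfsg.Agent.Helper78

universe u

variable {G : Type u} [Group G]

theorem ker_top_of_hall [Finite G] {p : ℕ} [Fact p.Prime] {M : Ideal Cfsg.AlgInt}
    (hM : Cfsg.IsPModular p M) {π : Set ℕ} (hpπ : p ∈ π) {B : Set (Cfsg.IrrCharacter G)}
    (hB : Cfsg.IsPBlock M B) (m : ℕ) :
    ∀ (Q L : Subgroup G) (hLN : L ≤ Subgroup.normalizer (Q : Set G)) (θ : Cfsg.IrrCharacter L)
      (K : Subgroup G), IsPGroup p Q → Q ≤ L → Subgroup.centralizer (Q : Set G) ≤ L →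
      IndChar M L θ B →
      (∀ x, x ∈ K ↔ x ∈ Subgroup.centralizer (Q : Set G) ∧
        ∀ q : ℕ, q.Prime → q ∣ orderOf x → q ∉ π) →
      (∀ l : L, (l : G) ∈ K → (θ : L → ℂ) l = (θ : L → ℂ) 1) →
      Nat.card G - Nat.card Q = m →
      ∃ (R : Subgroup G) (ξ : Cfsg.IrrCharacter ↥(Subgroup.normalizer (R : Set G))),
        Cfsg.IsDefectGroup p M B R ∧ IndChar M (Subgroup.normalizer (R : Set G)) ξ B ∧
        ∀ n : ↥(Subgroup.normalizer (R : Set G)),
          n ∈ Cfsg.piCore {q | q ∉ π} ↥(Subgroup.normalizer (R : Set G)) →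
            (ξ : ↥(Subgroup.normalizer (R : Set G)) → ℂ) n
              = (ξ : ↥(Subgroup.normalizer (R : Set G)) → ℂ) 1 := by
  induction m using Nat.strong_induction_on with
  | _ m ih =>
  intro Q L hLN θ K hQ hQL hCL hθB hKchar hθK hm
  classical
  have hMm := hM.2.1
  have hp : p.Prime := Fact.out
  have := Fintype.ofFinite G
  obtain ⟨ξ, hξ⟩ := exists_relInd_normalizer hM Q hQ L hQL hCL hLN θ
  have hξB : IndChar M _ ξ B := (hξ.indChar_iff hMm).mp hθB
  have hKn : ∀ n ∈ Subgroup.normalizer (Q : Set G), ∀ k ∈ K, n * k * n⁻¹ ∈ K := by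
    intro n hn k hk
    rw [hKchar] at hk ⊢
    refine ⟨conj_mem_centralizer_of_mem_normalizer Q hn hk.1, ?_⟩
    have h1 : orderOf (n * k * n⁻¹) = orderOf k :=
      orderOf_injective (MulAut.conj n).toMonoidHom (MulAut.conj n).injective k
    rw [h1]
    exact hk.2
  have hK : ¬ p ∣ Nat.card K := by
    intro hd
    obtain ⟨x, hx⟩ := exists_prime_orderOf_dvd_card' (G := ↥K) p hd
    have h1 : orderOf (x : G) = p := by rw [Subgroup.orderOf_coe, hx]
    exact ((hKchar (x : G)).mp x.2).2 p hp (by rw [h1]) hpπ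
  have hKξ := (hξ.ker_iff hM K hKn hK).mpr hθK
  obtain ⟨R₁, hR₁, hle', heq⟩ := exists_defectGroup_normalizer hM Q hQ ξ
  by_cases hc : Nat.card R₁ ≤ Nat.card Q
  · have h1 := heq hc
    rw [h1] at hR₁
    have hind := isInducedBlock_blockOf hMm _ ξ hB hξB
    have hdef : Cfsg.IsDefectGroup p M B Q := Helper16.fmt_defectGroup hM Q hQ hind hR₁
    refine ⟨Q, ξ, hdef, hξB, fun n hn => ?_⟩
    have hKN : ¬ p ∣ Nat.card (Helper31.gcoreIn (piNum {q | q ∉ π})
        (Subgroup.normalizer (Q : Set G))) := not_dvd_card_gcoreIn_compl hp hpπ _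
    refine (hξ.ker_iff hM (Helper31.gcoreIn (piNum {q | q ∉ π})
      (Subgroup.normalizer (Q : Set G)))
      (fun h hh k hk => conj_mem_gcoreIn_of_mem _ _ hh hk) hKN).mpr (fun l hl => ?_) n
      ((mem_gcoreIn_iff _ _ n).mpr hn)
    apply hθK l
    rw [hKchar]
    refine ⟨gcoreIn_inf_normalizer_le_centralizer hpπ hQ Subgroup.le_normalizer hl (hLN l.2), ?_⟩
    intro q hq hqd
    exact Helper31.card_gcoreIn (piNum_isOrderClass {q | q ∉ π})
      (Subgroup.normalizer (Q : Set G)) q hq (hqd.trans (Subgroup.orderOf_dvd_natCard _ hl))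
  · push Not at hc
    obtain ⟨-, -, -, -, hR₁p⟩ := Helper16.isDefectGroup_exists_data hR₁
    obtain ⟨R', hR'⟩ : ∃ R' : Subgroup G,
      R' = R₁.map (Subgroup.normalizer (Q : Set G)).subtype := ⟨_, rfl⟩
    rw [← hR'] at hle'
    have hR'p : IsPGroup p R' := by
      rw [hR']
      exact hR₁p.map _
    have hR'N : R' ≤ Subgroup.normalizer (Q : Set G) := by
      rw [hR']
      exact Subgroup.map_subtype_le _
    have hcardR : Nat.card R' = Nat.card R₁ := by
      rw [hR']
      exact Subgroup.card_map_of_injective (Subgroup.subtype_injective _)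
    have hCC : Subgroup.centralizer (R' : Set G) ≤ Subgroup.centralizer (Q : Set G) :=
      Subgroup.centralizer_le (SetLike.coe_subset_coe.mpr hle')
    obtain ⟨L', hL'⟩ : ∃ L' : Subgroup G, L' = R' ⊔ Subgroup.centralizer (R' : Set G) := ⟨_, rfl⟩
    have hR'L : R' ≤ L' := hL' ▸ le_sup_left
    have hCL' : Subgroup.centralizer (R' : Set G) ≤ L' := hL' ▸ le_sup_right
    have hL'N : L' ≤ Subgroup.normalizer (Q : Set G) :=
      hL' ▸ sup_le hR'N (hCC.trans (Subgroup.centralizer_le_normalizer _))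
    have hL'N' : L' ≤ Subgroup.normalizer (R' : Set G) :=
      hL' ▸ sup_le Subgroup.le_normalizer (Subgroup.centralizer_le_normalizer _)
    obtain ⟨θ', hθ'⟩ := exists_relInd_of_defectGroup hM _ ξ R₁ hR₁ L' (hR' ▸ hR'L)
      (hR' ▸ hCL') (hR' ▸ hL'N') hL'N
    have hRel' := hθ' ξ (Helper16.sameBlock_refl hMm _)
    have hθ'B : IndChar M L' θ' B := (hRel'.indChar_iff hMm).mpr hξB
    have hK'char : ∀ x, x ∈ K ⊓ Subgroup.centralizer (R' : Set G) ↔
        x ∈ Subgroup.centralizer (R' : Set G) ∧ ∀ q : ℕ, q.Prime → q ∣ orderOf x → q ∉ π := by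
      intro x
      constructor
      · intro hx
        exact ⟨hx.2, ((hKchar x).mp hx.1).2⟩
      · intro hx
        exact ⟨(hKchar x).mpr ⟨hCC hx.1, hx.2⟩, hx.1⟩
    have hθ'K' : ∀ l : L', (l : G) ∈ K ⊓ Subgroup.centralizer (R' : Set G) →
        (θ' : L' → ℂ) l = (θ' : L' → ℂ) 1 :=
      fun l hl => (hRel'.ker_iff hM K hKn hK).mp hKξ l hl.1
    have hlt : Nat.card G - Nat.card R' < m := by
      have h1 : Nat.card R₁ ≤ Nat.card G :=
        (Subgroup.card_le_card_group R₁).trans (Subgroup.card_le_card_group _)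
      omega
    exact ih _ hlt R' L' hL'N' θ' (K ⊓ Subgroup.centralizer (R' : Set G)) hR'p hR'L hCL' hθ'B
      hK'char hθ'K' rfl

end Cfsg.Agent.Helper78
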