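import Cfsg.Agent.Helper77.AbelNilRank1
import Cfsg.Agent.Helper77.Defect
import Cfsg.Agent.Helper73.BrauerFeit
import Cfsg.Agent.Helper81.CharBasic

/-!
# Piece J of helper77's CALL S4648 (Külshammer): the arithmetic step

`kul_arith`: a block `B` with `l(B) = 1` all of whose characters have the same degree has
`|D| = k(B)` for a defect group `D`.
-/

set_option autoImplicit false
open Cfsg Cfsg.Agent.Helper77
open scoped ComplexConjugate

namespace Cfsg.Agent.Helper78

universe u v w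

variable {G : Type u} [Group G] [Fintype G] {M : Ideal Cfsg.AlgInt} (hM : M.IsMaximal)

/-- With `l(B) = 1` and equal degrees, two members of a block agree on the `p`-regular elements. -/
theorem kulJ_preg_eq (p : ℕ) {B : Set (Cfsg.IrrCharacter G)}
    (hl : Cfsg.blockRank p B = 1) (n : ℕ)
    (hdeg : ∀ χ ∈ B, Cfsg.charDegree (χ : G → ℂ) = n)
    {χ ψ : Cfsg.IrrCharacter G} (hχ : χ ∈ B) (hψ : ψ ∈ B) (g : G) (hg : ¬ p ∣ orderOf g) :
    (ψ : G → ℂ) g = (χ : G → ℂ) g := by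
  classical
  set S : Submodule ℂ (G → ℂ) :=
    Submodule.span ℂ ((fun χ : Cfsg.IrrCharacter G => Cfsg.pRegularPart p (χ : G → ℂ)) '' B)
    with hS
  have hfr : Module.finrank ℂ ↥S = 1 := hl
  have hχS : Cfsg.pRegularPart p (χ : G → ℂ) ∈ S := Submodule.subset_span ⟨χ, hχ, rfl⟩
  have hψS : Cfsg.pRegularPart p (ψ : G → ℂ) ∈ S := Submodule.subset_span ⟨ψ, hψ, rfl⟩
  have h1reg : Cfsg.IsPRegular p (1 : G) := by
    unfold Cfsg.IsPRegular
    rw [orderOf_one]
    intro h
    have := Nat.le_of_dvd Nat.one_pos h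
    by_cases hp1 : p = 1
    · subst hp1
      exact hg (one_dvd _)
    · have hp0 : p = 0 := by omega
      subst hp0
      simp at h
  have hχ1 : Cfsg.pRegularPart p (χ : G → ℂ) 1 = (n : ℂ) := by
    unfold Cfsg.pRegularPart
    rw [if_pos h1reg, Helper81.irr_one_eq_charDegree, hdeg χ hχ]
  have hψ1 : Cfsg.pRegularPart p (ψ : G → ℂ) 1 = (n : ℂ) := by
    unfold Cfsg.pRegularPart
    rw [if_pos h1reg, Helper81.irr_one_eq_charDegree, hdeg ψ hψ]
  have hn0 : (n : ℂ) ≠ 0 := by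
    have := Helper81.charDegree_pos χ
    rw [hdeg χ hχ] at this
    exact_mod_cast this.ne'
  have hv0 : (⟨Cfsg.pRegularPart p (χ : G → ℂ), hχS⟩ : ↥S) ≠ 0 := by
    intro h
    have h2 := congrArg (fun v : ↥S => (v : G → ℂ) 1) h
    simp only [Submodule.coe_zero, Pi.zero_apply] at h2
    rw [hχ1] at h2
    exact hn0 h2
  obtain ⟨c, hc⟩ := (finrank_eq_one_iff_of_nonzero' _ hv0).mp hfr
    ⟨Cfsg.pRegularPart p (ψ : G → ℂ), hψS⟩
  have hc' : c • Cfsg.pRegularPart p (χ : G → ℂ) = Cfsg.pRegularPart p (ψ : G → ℂ) := by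
    have := congrArg (fun v : ↥S => (v : G → ℂ)) hc
    simpa using this
  have hc1 : c = 1 := by
    have h2 := congrFun hc' 1
    rw [Pi.smul_apply, hχ1, hψ1, smul_eq_mul] at h2
    exact mul_right_cancel₀ hn0 (by rw [h2, one_mul])
  have h3 := congrFun hc' g
  rw [hc1, one_smul] at h3
  unfold Cfsg.pRegularPart at h3
  have hgreg : Cfsg.IsPRegular p g := hg
  rw [if_pos hgreg, if_pos hgreg] at h3
  exact h3.symm

/-- Piece J of CALL S4648. -/
theorem kul_arith (p : ℕ) [Fact p.Prime] (hMp : Cfsg.IsPModular p M)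
    {B : Set (Cfsg.IrrCharacter G)}
    (hB : Cfsg.IsPBlock M B) {D : Subgroup G} (hD : Cfsg.IsDefectGroup p M B D)
    (hl : Cfsg.blockRank p B = 1) (n : ℕ)
    (hdeg : ∀ χ ∈ B, Cfsg.charDegree (χ : G → ℂ) = n) :
    Nat.card D = Nat.card B := by
  classical
  have hp : p.Prime := Fact.out
  have := Fintype.ofFinite (Cfsg.IrrCharacter G)
  obtain ⟨χ₀, hχ₀⟩ := block_nonempty hMp.2.1 hB
  -- all heights are zero
  have hinf : sInf ((fun χ : Cfsg.IrrCharacter G =>
      (Cfsg.charDegree (χ : G → ℂ)).factorization p) '' B) = n.factorization p := by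
    have himg : (fun χ : Cfsg.IrrCharacter G =>
        (Cfsg.charDegree (χ : G → ℂ)).factorization p) '' B = {n.factorization p} := by
      ext t
      constructor
      · rintro ⟨χ, hχ, rfl⟩
        simp only [Set.mem_singleton_iff]
        rw [hdeg χ hχ]
      · intro ht
        rw [Set.mem_singleton_iff] at ht
        exact ⟨χ₀, hχ₀, by simp only; rw [hdeg χ₀ hχ₀, ht]⟩
    rw [himg, csInf_singleton]
  have h0 : Cfsg.blockHeight p B (χ₀ : G → ℂ) = 0 := by
    unfold Cfsg.blockHeight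
    rw [hinf, hdeg χ₀ hχ₀, Nat.sub_self]
  obtain ⟨m, hm, hmout, hmin⟩ := Helper73.exists_mult_of_height_zero hMp hB hχ₀ h0
  -- the multiplicities are constant on `B`
  have hconst : ∀ ψ : Cfsg.IrrCharacter G, ψ ∈ B → m ψ = m χ₀ := by
    intro ψ hψ
    have h1 : Cfsg.classInner
        (Helper73.pregScal p ((p ^ Cfsg.blockDefect p B : ℕ) : ℂ) (χ₀ : G → ℂ)) (ψ : G → ℂ)
        = Cfsg.classInner
        (Helper73.pregScal p ((p ^ Cfsg.blockDefect p B : ℕ) : ℂ) (χ₀ : G → ℂ)) (χ₀ : G → ℂ) := by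
      unfold Cfsg.classInner
      congr 1
      refine Finset.sum_congr rfl fun g _ => ?_
      by_cases hg : p ∣ orderOf g
      · simp [Helper73.pregScal, hg]
      · rw [kulJ_preg_eq p hl n hdeg hχ₀ hψ g hg]
    rw [hm ψ, hm χ₀] at h1
    exact_mod_cast h1
  have hsum := Helper73.sum_sq_classInner_pregScal p (p ^ Cfsg.blockDefect p B) χ₀ m hm
  have hcardB : Nat.card B = (Finset.univ.filter (fun ζ : Cfsg.IrrCharacter G => ζ ∈ B)).card := by
    rw [← Fintype.card_subtype]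
    exact Nat.card_eq_fintype_card
  have hsum2 : ∑ ψ : Cfsg.IrrCharacter G, (m ψ) ^ 2 = (Nat.card B : ℤ) * (m χ₀) ^ 2 := by
    rw [hcardB, Finset.card_eq_sum_ones, Nat.cast_sum, Finset.sum_mul, Finset.sum_filter]
    refine Finset.sum_congr rfl fun ψ _ => ?_
    split_ifs with hψ
    · rw [hconst ψ hψ]; push_cast; ring
    · rw [hmout ψ hψ]; ring
  obtain ⟨hne, hval⟩ := hmin χ₀ hχ₀
  rw [h0] at hval
  -- `|B| * m χ₀ = p ^ d`
  have hkey : (Nat.card B : ℤ) * m χ₀ = ((p ^ Cfsg.blockDefect p B : ℕ) : ℤ) := by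
    have h2 : ((Nat.card B : ℤ) * m χ₀) * m χ₀ = ((p ^ Cfsg.blockDefect p B : ℕ) : ℤ) * m χ₀ := by
      rw [← hsum, hsum2]; ring
    exact mul_right_cancel₀ hne h2
  -- `m χ₀` divides `p ^ d` and is prime to `p`, hence is `± 1`; positivity gives `1`
  have hdvd : m χ₀ ∣ ((p : ℤ)) ^ Cfsg.blockDefect p B := by
    refine ⟨(Nat.card B : ℤ), ?_⟩
    rw [mul_comm, hkey]; push_cast; rfl
  have hnotp : ¬ (p : ℤ) ∣ m χ₀ := by
    intro hpd
    have hfact : Fact p.Prime := ⟨hp⟩
    have := (padicValInt_dvd_iff (p := p) 1 (m χ₀)).mp (by simpa using hpd)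
    rcases this with h | h
    · exact hne h
    · omega
  have hcop : IsCoprime (m χ₀) ((p : ℤ) ^ Cfsg.blockDefect p B) := by
    have hprime : Prime (p : ℤ) := Nat.prime_iff_prime_int.mp hp
    have h1 : IsCoprime ((p : ℤ)) (m χ₀) := (Prime.coprime_iff_not_dvd hprime).mpr hnotp
    exact (h1.pow_left).symm
  have hunit : IsUnit (m χ₀) := hcop.isUnit_of_dvd' dvd_rfl hdvd
  have hpos : 0 < m χ₀ := by
    have hB0 : (0 : ℤ) ≤ (Nat.card B : ℤ) := Int.natCast_nonneg _
    have hpd : (0 : ℤ) < ((p ^ Cfsg.blockDefect p B : ℕ) : ℤ) := by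
      exact_mod_cast pow_pos hp.pos _
    by_contra hneg
    have hle : m χ₀ ≤ 0 := not_lt.mp hneg
    have := mul_nonpos_of_nonneg_of_nonpos hB0 hle
    rw [hkey] at this
    omega
  have hone : m χ₀ = 1 := by
    rcases Int.isUnit_iff.mp hunit with h | h
    · exact h
    · omega
  rw [hone, mul_one] at hkey
  rw [card_of_isDefectGroup hMp hB hD]
  exact_mod_cast hkey.symm

end Cfsg.Agent.Helper78
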