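import Mathlib
import Cfsg.Prelude.Def_GeometricClasses
import Cfsg.Prelude.Def_Classical
import Cfsg.Agent.Helper96.OHDefs
import Cfsg.Agent.Helper98.OPar

/-!
Pieces GDUAL and BLK4 of sub-CALL S74T2 (helper65; stages T2G / T2B of row S5974, `r = p = 2`):
a family with a dual family spans a nondegenerate subspace; an involution of `O(Q)` in
characteristic `2` with `polar u (T u) = 0` on an invariant nondegenerate `K` and `T v ≠ v` has an
invariant nondegenerate plus-type `4`-space inside `K`.  (Spare copies: helper5's are on main too.)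
-/

set_option autoImplicit false
set_option linter.unusedSectionVars false
set_option linter.unusedVariables false

namespace Cfsg.Agent.Helper78.S74T2

open Module Cfsg Cfsg.Geo Cfsg.Agent.Helper96.OH
open scoped MatrixGroups

variable {ι : Type} [Fintype ι] [DecidableEq ι] {F : Type*} [Field F] (Q : (ι → F) → F)

/-- GDUAL in Prelude wording. -/
theorem gdual_core (hQ : IsNondegenerateQuadraticForm Q) {n : ℕ} (b b' : Fin n → (ι → F))
    (hb' : ∀ j, b' j ∈ Submodule.span F (Set.range b))
    (hdual : ∀ i j, QuadraticMap.polar Q (b i) (b' j) = if i = j then 1 else 0) :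
    IsNondegenerateOn (QuadraticMap.polar Q) (Submodule.span F (Set.range b)) ∧
      finrank F ↥(Submodule.span F (Set.range b)) = n := by
  have hB : ∀ x y, QuadraticMap.polarBilin (Cfsg.Agent.Helper98.op_qf Q hQ) x y =
      QuadraticMap.polar Q x y := fun _ _ => rfl
  have key : ∀ (c : Fin n → F) (j : Fin n),
      QuadraticMap.polar Q (∑ i, c i • b i) (b' j) = c j := by
    intro c j
    rw [← hB, map_sum, LinearMap.sum_apply]
    simp only [map_smul, LinearMap.smul_apply, smul_eq_mul, hB, hdual]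
    simp
  have hli : LinearIndependent F b := by
    rw [Fintype.linearIndependent_iff]
    intro g hg j
    have h1 := key g j
    rw [hg] at h1
    rw [← h1, ← hB, map_zero, LinearMap.zero_apply]
  refine ⟨?_, ?_⟩
  · intro w hw hw0
    obtain ⟨c, rfl⟩ := (Submodule.mem_span_range_iff_exists_fun F).mp hw
    have hex : ∃ j, c j ≠ 0 := by
      by_contra hcon
      push Not at hcon
      exact hw0 (by simp [hcon])
    obtain ⟨j, hj⟩ := hex
    have h1 : QuadraticMap.polar Q (∑ i, c i • b i) (b' j) ≠ 0 := by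
      rw [key]
      exact hj
    exact ⟨⟨b' j, hb' j, by rwa [QuadraticMap.polar_comm]⟩, ⟨b' j, hb' j, h1⟩⟩
  · rw [finrank_span_eq_card hli, Fintype.card_fin]

/-- BLK4 in Prelude wording. -/
theorem blk4_core (hQ : IsNondegenerateQuadraticForm Q) (h2 : (2 : F) = 0)
    (T : Module.End F (ι → F)) (hT : ∀ v, Q (T v) = Q v) (hTT : T ^ 2 = 1)
    (K : Submodule F (ι → F)) (hKT : K.map T ≤ K)
    (hK : IsNondegenerateOn (QuadraticMap.polar Q) K)
    (halt : ∀ u ∈ K, QuadraticMap.polar Q u (T u) = 0) (v : ι → F) (hv : v ∈ K)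
    (hne : T v ≠ v) :
    ∃ P : Submodule F (ι → F), P ≤ K ∧ P.map T ≤ P ∧
      IsNondegenerateOn (QuadraticMap.polar Q) P ∧ finrank F ↥P = 4 ∧ IsPlusTypeOn Q P := by
  have hB : ∀ x y, QuadraticMap.polarBilin (Cfsg.Agent.Helper98.op_qf Q hQ) x y =
      QuadraticMap.polar Q x y := fun _ _ => rfl
  -- abbreviation for the bilinear form
  obtain ⟨B, hBdef⟩ : ∃ B : LinearMap.BilinForm F (ι → F),
      B = QuadraticMap.polarBilin (Cfsg.Agent.Helper98.op_qf Q hQ) := ⟨_, rfl⟩
  have hBp : ∀ x y, B x y = QuadraticMap.polar Q x y := fun x y => by rw [hBdef]; rfl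
  have hBc : ∀ x y, B x y = B y x := fun x y => by rw [hBp, hBp, QuadraticMap.polar_comm]
  have haa : ∀ a : F, a + a = 0 := fun a => by rw [← two_mul, h2, zero_mul]
  have hxx : ∀ x : ι → F, x + x = 0 := fun x => by rw [← two_smul F x, h2, zero_smul]
  have hBs : ∀ x, B x x = 0 := by
    intro x
    have h := QuadraticMap.polar_self (Cfsg.Agent.Helper98.op_qf Q hQ) x
    rw [hBp]
    have h3 : QuadraticMap.polar Q x x = 2 • Q x := h
    rw [h3, two_smul]
    exact haa _
  have hT2 : ∀ x, T (T x) = x := by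
    intro x
    have h := congrArg (fun f : Module.End F (ι → F) => f x) hTT
    simpa [pow_two] using h
  have hBT : ∀ x y, B (T x) (T y) = B x y := by
    intro x y
    rw [hBp, hBp]
    unfold QuadraticMap.polar
    rw [← map_add, hT, hT, hT]
  have hBT' : ∀ x y, B (T x) y = B x (T y) := by
    intro x y
    rw [← hBT x (T y), hT2]
  have hTK : ∀ x ∈ K, T x ∈ K := fun x hx => hKT (Submodule.mem_map_of_mem hx)
  -- N v ≠ 0
  obtain ⟨nv, hnvdef⟩ : ∃ nv : ι → F, nv = T v + v := ⟨_, rfl⟩
  have hnv0 : nv ≠ 0 := by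
    intro h
    apply hne
    have h3 : T v = T v + (v + v) := by rw [hxx, add_zero]
    rw [h3, ← add_assoc, ← hnvdef, h, zero_add]
  have hnvK : nv ∈ K := by rw [hnvdef]; exact K.add_mem (hTK v hv) hv
  obtain ⟨-, w0, hw0K, hw0⟩ := hK nv hnvK hnv0
  obtain ⟨w, hwK, hw1⟩ : ∃ w ∈ K, B nv w = 1 := by
    refine ⟨(QuadraticMap.polar Q nv w0)⁻¹ • w0, K.smul_mem _ hw0K, ?_⟩
    rw [map_smul, smul_eq_mul, hBp, inv_mul_cancel₀ hw0]
  obtain ⟨nw, hnwdef⟩ : ∃ nw : ι → F, nw = T w + w := ⟨_, rfl⟩
  have hnwK : nw ∈ K := by rw [hnwdef]; exact K.add_mem (hTK w hwK) hwK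
  -- the values of the form
  have e_v_Tv : B v (T v) = 0 := by rw [hBp]; exact halt v hv
  have e_w_Tw : B w (T w) = 0 := by rw [hBp]; exact halt w hwK
  have e_Tv_w : B (T v) w = B v (T w) := hBT' v w
  have e1 : B (T v) w + B v w = 1 := by
    have h := hw1
    rw [hnvdef, map_add, LinearMap.add_apply] at h
    exact h
  have e_v_nv : B v nv = 0 := by rw [hnvdef, map_add, e_v_Tv, hBs, add_zero]
  have e_w_nw : B w nw = 0 := by rw [hnwdef, map_add, e_w_Tw, hBs, add_zero]
  have e_v_nw : B v nw = 1 := by rw [hnwdef, map_add, ← e_Tv_w]; exact e1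
  have e_nv_nw : B nv nw = 0 := by
    rw [hnvdef, hnwdef, map_add, map_add, LinearMap.add_apply, LinearMap.add_apply, hBT, e_Tv_w]
    have h3 : B v w + B v (T w) + (B v (T w) + B v w) =
        (B v w + B v w) + (B v (T w) + B v (T w)) := by
      ring
    rw [h3, haa, haa, add_zero]
  have e_nv_v : B nv v = 0 := by rw [hBc]; exact e_v_nv
  have e_nw_w : B nw w = 0 := by rw [hBc]; exact e_w_nw
  have e_nw_v : B nw v = 1 := by rw [hBc]; exact e_v_nw
  have e_w_nv : B w nv = 1 := by rw [hBc]; exact hw1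
  have e_nw_nv : B nw nv = 0 := by rw [hBc]; exact e_nv_nw
  have e_w_v : B w v = B v w := hBc w v
  -- the family and its dual family
  have hdual : ∀ i j : Fin 4,
      QuadraticMap.polar Q ((![v, nv, w, nw] : Fin 4 → (ι → F)) i)
        ((![nw, w + B v w • nw, nv, v + B v w • nv] : Fin 4 → (ι → F)) j) =
          if i = j then 1 else 0 := by
    intro i j
    rw [← hBp]
    fin_cases i <;> fin_cases j <;>
      simp [map_add, map_smul, hBs, e_v_nv, e_w_nw, e_v_nw, e_nv_nw, e_nv_v, e_nw_w, e_nw_v,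
        e_w_nv, e_nw_nv, e_w_v, hw1, haa]
  have hmemP : ∀ i : Fin 4, (![v, nv, w, nw] : Fin 4 → (ι → F)) i ∈
      Submodule.span F (Set.range (![v, nv, w, nw] : Fin 4 → (ι → F))) :=
    fun i => Submodule.subset_span ⟨i, rfl⟩
  have hb' : ∀ j : Fin 4,
      (![nw, w + B v w • nw, nv, v + B v w • nv] : Fin 4 → (ι → F)) j ∈
      Submodule.span F (Set.range (![v, nv, w, nw] : Fin 4 → (ι → F))) := by
    intro j
    fin_cases j
    · exact hmemP 3
    · exact Submodule.add_mem _ (hmemP 2) (Submodule.smul_mem _ _ (hmemP 3))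
    · exact hmemP 1
    · exact Submodule.add_mem _ (hmemP 0) (Submodule.smul_mem _ _ (hmemP 1))
  obtain ⟨hnd, hdim⟩ := gdual_core Q hQ _ _ hb' hdual
  refine ⟨Submodule.span F (Set.range (![v, nv, w, nw] : Fin 4 → (ι → F))), ?_, ?_,
    hnd, hdim, ?_⟩
  · rw [Submodule.span_le]
    rintro _ ⟨i, rfl⟩
    fin_cases i
    · exact hv
    · exact hnvK
    · exact hwK
    · exact hnwK
  · rw [Submodule.map_span_le]
    rintro _ ⟨i, rfl⟩
    have hTnv : ∀ x, T (T x + x) = T x + x := by
      intro x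
      rw [map_add, hT2, add_comm]
    have hTx : ∀ x, T x = (T x + x) + x := by
      intro x
      rw [add_assoc, hxx, add_zero]
    fin_cases i
    · show T v ∈ _
      rw [hTx v, ← hnvdef]
      exact Submodule.add_mem _ (hmemP 1) (hmemP 0)
    · show T nv ∈ _
      rw [hnvdef, hTnv v, ← hnvdef]
      exact hmemP 1
    · show T w ∈ _
      rw [hTx w, ← hnwdef]
      exact Submodule.add_mem _ (hmemP 3) (hmemP 2)
    · show T nw ∈ _
      rw [hnwdef, hTnv w, ← hnwdef]
      exact hmemP 3
  · -- plus type: U = span {N v, N w}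
    have hQN : ∀ x ∈ K, Q (T x + x) = 0 := by
      intro x hx
      have h := QuadraticMap.map_add (Cfsg.Agent.Helper98.op_qf Q hQ) (T x) x
      have h3 : Q (T x + x) = Q (T x) + Q x + QuadraticMap.polar Q (T x) x := h
      rw [h3, hT, haa, zero_add, QuadraticMap.polar_comm]
      exact halt x hx
    have hQnv : Q nv = 0 := by rw [hnvdef]; exact hQN v hv
    have hQnw : Q nw = 0 := by rw [hnwdef]; exact hQN w hwK
    have hli : LinearIndependent F (![nv, nw] : Fin 2 → (ι → F)) := by
      rw [LinearIndependent.pair_iff]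
      intro a c hac
      have h3 : B (a • nv + c • nw) w = a := by
        rw [map_add, LinearMap.add_apply, map_smul, map_smul, LinearMap.smul_apply,
          LinearMap.smul_apply, hw1, e_nw_w, smul_eq_mul, smul_eq_mul, mul_one, mul_zero, add_zero]
      have h4 : B (a • nv + c • nw) v = c := by
        rw [map_add, LinearMap.add_apply, map_smul, map_smul, LinearMap.smul_apply,
          LinearMap.smul_apply, e_nv_v, e_nw_v, smul_eq_mul, smul_eq_mul, mul_one, mul_zero,
          zero_add]
      rw [hac, map_zero, LinearMap.zero_apply] at h3 h4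
      exact ⟨h3.symm, h4.symm⟩
    refine ⟨Submodule.span F (Set.range (![nv, nw] : Fin 2 → (ι → F))), ?_, ?_, ?_⟩
    · rw [Submodule.span_le]
      rintro _ ⟨i, rfl⟩
      fin_cases i
      · exact hmemP 1
      · exact hmemP 3
    · intro x hx
      obtain ⟨c, rfl⟩ := (Submodule.mem_span_range_iff_exists_fun F).mp hx
      rw [Fin.sum_univ_two]
      have h := QuadraticMap.map_add (Cfsg.Agent.Helper98.op_qf Q hQ) (c 0 • nv) (c 1 • nw)
      have h3 : Q (c 0 • nv + c 1 • nw) =
          Q (c 0 • nv) + Q (c 1 • nw) + QuadraticMap.polar Q (c 0 • nv) (c 1 • nw) := h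
      have h5 : QuadraticMap.polar Q (c 0 • nv) (c 1 • nw) = 0 := by
        rw [← hBp, map_smul, map_smul, LinearMap.smul_apply, e_nv_nw, smul_zero, smul_zero]
      show Q (c 0 • nv + c 1 • nw) = 0
      rw [h3, h5, hQ.smul, hQ.smul, hQnv, hQnw, mul_zero, mul_zero, add_zero, add_zero]
    · rw [finrank_span_eq_card hli, hdim, Fintype.card_fin]

/-- GDUAL: a family `b` with a dual family `b'` inside its span (`polar (b i) (b' j) = δ`)
spans a nondegenerate subspace of dimension `n`. -/
theorem t2_gdual (hQ : IsNondegenerateQuadraticForm Q) {n : ℕ} (b b' : Fin n → (ι → F))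
    (hb' : ∀ j, b' j ∈ Submodule.span F (Set.range b))
    (hdual : ∀ i j, QuadraticMap.polar Q (b i) (b' j) = if i = j then 1 else 0) :
    ONd Q (Submodule.span F (Set.range b)) ∧ finrank F ↥(Submodule.span F (Set.range b)) = n :=
  gdual_core Q hQ b b' hb' hdual

/-- BLK4: `polar u (T u) = 0` on the invariant nondegenerate `K`, `T v ≠ v`: an invariant
nondegenerate plus-type `4`-space `span {v, N v, w, N w}` inside `K`. -/
theorem t2_blk4 (hQ : IsNondegenerateQuadraticForm Q) (h2 : (2 : F) = 0)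
    (T : Module.End F (ι → F)) (hT : OPres Q T) (hTT : T ^ 2 = 1)
    (K : Submodule F (ι → F)) (hKT : K.map T ≤ K) (hK : ONd Q K)
    (halt : ∀ u ∈ K, QuadraticMap.polar Q u (T u) = 0) (v : ι → F) (hv : v ∈ K)
    (hne : T v ≠ v) :
    ∃ P : Submodule F (ι → F), P ≤ K ∧ P.map T ≤ P ∧ ONd Q P ∧ finrank F ↥P = 4 ∧ OPl Q P :=
  blk4_core Q hQ h2 T hT hTT K hKT hK halt v hv hne

end Cfsg.Agent.Helper78.S74T2
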