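-- helper78 library: piece ZTH of CALL S0997 (helper79).
import Mathlib
import Cfsg.Agent.Helper79.PrimeDeg
import Cfsg.Agent.Helper3.Burnside2

set_option autoImplicit false

namespace Cfsg.Agent.Helper78

universe u

open Cfsg Cfsg.Agent.Helper79 Cfsg.Agent.Helper3

/-- ZTH: a non-linear irreducible character of a non-abelian simple group has
`|θ(g)| < θ(1)` for `g ≠ 1`. -/
theorem s997_norm_lt {G : Type u} [Group G] [Finite G] [IsSimpleGroup G]
    (hnc : ¬ ∀ a b : G, a * b = b * a) (θ : Cfsg.IrrCharacter G)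
    (hθ : Cfsg.charDegree (θ : G → ℂ) ≠ 1) (g : G) (hg : g ≠ 1) :
    ‖(θ : G → ℂ) g‖ < (Cfsg.charDegree (θ : G → ℂ) : ℝ) := by
  classical
  obtain ⟨n, ρ, hρ, hχeq⟩ := θ.2
  have hdeg : (Cfsg.charDegree (θ : G → ℂ) : ℂ) = (Module.finrank ℂ (Fin n → ℂ) : ℂ) := by
    rw [← isCharacter_one_eq_charDegree (irr_isCharacter θ), ← hχeq, Representation.char_one]
  have hdegN : Cfsg.charDegree (θ : G → ℂ) = Module.finrank ℂ (Fin n → ℂ) := by
    exact_mod_cast hdeg
  obtain ⟨b, ζ, h1, h2, h3⟩ := rep_exists_eigenbasis ρ g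
  have hζ : ∀ i, ‖ζ i‖ = 1 := fun i =>
    Complex.norm_eq_one_of_pow_eq_one (h1 i) (orderOf_pos g).ne'
  have hle : ‖ρ.character g‖ ≤ (Module.finrank ℂ (Fin n → ℂ) : ℝ) := by
    rw [h3]
    calc ‖∑ i, ζ i‖ ≤ ∑ i, ‖ζ i‖ := norm_sum_le _ _
      _ = (Module.finrank ℂ (Fin n → ℂ) : ℝ) := by simp [hζ]
  rw [hdegN, ← hχeq]
  rcases lt_or_eq_of_le hle with hlt | heq
  · exact hlt
  · exfalso
    obtain ⟨ω, hω⟩ := rep_scalar_of_norm_eq ρ g heq
    have hfaith := simple_irr_faithful θ hθ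
    have hcen : g ∈ Subgroup.center G := by
      rw [Subgroup.mem_center_iff]
      intro h
      have e1 : ρ (h * g) = ρ (g * h) := by
        rw [map_mul, map_mul, hω]
        ext v
        simp
      have e2 : ρ ((h * g) * (g * h)⁻¹) = 1 := by
        rw [map_mul, e1, ← map_mul, mul_inv_cancel, map_one]
      have e3 : (θ : G → ℂ) ((h * g) * (g * h)⁻¹) = (θ : G → ℂ) 1 := by
        rw [← hχeq]
        show LinearMap.trace ℂ _ (ρ ((h * g) * (g * h)⁻¹)) = LinearMap.trace ℂ _ (ρ 1)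
        rw [e2, map_one ρ]
      exact mul_inv_eq_one.mp (hfaith _ e3)
    rw [simple_center_eq_bot hnc, Subgroup.mem_bot] at hcen
    exact hg hcen

end Cfsg.Agent.Helper78
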