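-- helper78 library: piece MIN1 of CALL S2547 (helper45): the S2549 statement for m = 1
-- (PΩ⁻₄(q) ≃* PSL₂(q²), Steinberg character of PSL₂, transport along the isomorphism).
import Mathlib
import Cfsg.Prelude.Def_Classical
import Cfsg.Agent.S0300
import Cfsg.Agent.S2544
import Cfsg.Agent.Helper79.Quotient

set_option autoImplicit false

namespace Cfsg.Agent.Helper78.StMIN1

open Cfsg

/-- transport of a "Steinberg-like" character along a group isomorphism -/
theorem st_min1_transport {G' : Type*} {H' : Type*} [Group G'] [Group H'] [Finite G']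
    (e : G' ≃* H') (p : ℕ) [Fact p.Prime]
    (h : ∃ χ : H' → ℂ, Cfsg.IsIrrCharacter H' χ ∧ ∀ P : Sylow p H', χ 1 = Nat.card P ∧
      ∀ x : H', x ∈ P → x ≠ 1 → χ x = 0) :
    ∃ χ : G' → ℂ, Cfsg.IsIrrCharacter G' χ ∧ ∀ P : Sylow p G', χ 1 = Nat.card P ∧
      ∀ x : G', x ∈ P → x ≠ 1 → χ x = 0 := by
  obtain ⟨χ, hχ, hP⟩ := h
  have hfin : Finite H' := Finite.of_equiv _ e.toEquiv
  refine ⟨fun x => χ (e x),
    Cfsg.Agent.Helper79.isIrrCharacter_comp e.toMonoidHom e.surjective hχ, ?_⟩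
  intro P
  have hle : (P : Subgroup G') ≤ e.symm.toMonoidHom.range := by
    intro x _
    exact ⟨e x, e.symm_apply_apply x⟩
  have hinj : Function.Injective e.symm.toMonoidHom := e.symm.injective
  have hcoe : ((P.comapOfInjective e.symm.toMonoidHom hinj hle : Sylow p H') : Subgroup H') =
      (P : Subgroup G').comap e.symm.toMonoidHom :=
    Sylow.coe_comapOfInjective P e.symm.toMonoidHom hinj hle
  obtain ⟨h1, h2⟩ := hP (P.comapOfInjective e.symm.toMonoidHom hinj hle)
  constructor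
  · show χ (e 1) = _
    rw [map_one, h1, Sylow.card_eq_multiplicity, Sylow.card_eq_multiplicity,
      Nat.card_congr e.toEquiv]
  · intro x hx hx1
    apply h2 (e x)
    · have h5 : e x ∈ (P : Subgroup G').comap e.symm.toMonoidHom := by
        rw [Subgroup.mem_comap]
        show e.symm (e x) ∈ (P : Subgroup G')
        rw [e.symm_apply_apply]
        exact hx
      have h6 : e x ∈ ((P.comapOfInjective e.symm.toMonoidHom hinj hle : Sylow p H') :
          Subgroup H') := by
        rw [hcoe]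
        exact h5
      exact h6
    · intro h3
      apply hx1
      have h4 := congrArg e.symm h3
      rw [e.symm_apply_apply, map_one] at h4
      exact h4

-- === PIECE MIN1 ===  (S0300 + S2544 + transport)
theorem p_MIN1 {F : Type*} [Field F] [Fintype F] (p : ℕ) [Fact p.Prime] [CharP F p] (a b : F)
    (hab : ∀ z₁ z₂ : F, z₁ ^ 2 + a * z₁ * z₂ + b * z₂ ^ 2 = 0 → z₁ = 0 ∧ z₂ = 0) :
    ∃ χ : Cfsg.POmega F (Cfsg.quadFormMinus 1 F a b) → ℂ,
      Cfsg.IsIrrCharacter (Cfsg.POmega F (Cfsg.quadFormMinus 1 F a b)) χ ∧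
      ∀ P : Sylow p (Cfsg.POmega F (Cfsg.quadFormMinus 1 F a b)), χ 1 = Nat.card P ∧
        ∀ x : Cfsg.POmega F (Cfsg.quadFormMinus 1 F a b), x ∈ P → x ≠ 1 → χ x = 0 := by
  obtain ⟨k, hk⟩ := FiniteField.card F p
  have hk0 : 2 * (k : ℕ) ≠ 0 := by
    have := k.pos
    omega
  obtain ⟨instK⟩ : Nonempty (Fintype (GaloisField p (2 * (k : ℕ)))) := ⟨Fintype.ofFinite _⟩
  have hK : Fintype.card (GaloisField p (2 * (k : ℕ))) = (p ^ (k : ℕ)) ^ 2 := by
    rw [← Nat.card_eq_fintype_card, GaloisField.card p _ hk0, ← pow_mul, mul_comm]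
  obtain ⟨e⟩ := Cfsg.Agent.S0300.result (F := F) (K := GaloisField p (2 * (k : ℕ))) hk.2 hK a b hab
  have h2 := Cfsg.Agent.S2544.result (F := GaloisField p (2 * (k : ℕ))) p 2 le_rfl
  have hfin : Finite (Cfsg.POmega F (Cfsg.quadFormMinus 1 F a b)) :=
    Finite.of_equiv _ e.symm.toEquiv
  exact st_min1_transport e p h2

end Cfsg.Agent.Helper78.StMIN1
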