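-- helper78 library: piece TOR of CALL S2413 (helper97).
import Mathlib
import Cfsg.Agent.Helper97.TNDefs

set_option autoImplicit false

universe u

namespace Cfsg.Agent.Helper78

open Cfsg Matrix Cfsg.Agent.Helper45 Cfsg.Agent.Helper98 Cfsg.Agent.Helper97.TM
  Cfsg.Agent.Helper97.TN

variable {m : ℕ} {F : Type u} [Field F]

theorem tn_eO_zu (i : Fin m) (w : Unit) : eO m F i (Sum.inl w) = 0 := eO_z i

theorem tn_fO_zu (i : Fin m) (w : Unit) : fO m F i (Sum.inl w) = 0 := fO_z i

/-- TOR (first statement): the action of the torus element. -/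
theorem tn_mv_tor (i : Fin m) (l : Fˣ) (x : Unit ⊕ (Fin m ⊕ Fin m) → F) :
    mv ⇑(QO m F) (tor i l) x =
      x + (((l : F) ^ 2 - 1) * x (Sum.inr (Sum.inl i))) • eO m F i
        + ((((l⁻¹ : Fˣ) : F) ^ 2 - 1) * x (Sum.inr (Sum.inr i))) • fO m F i := by
  unfold tor
  rw [mv_mul, mv_reflO, mv_reflO, QO_tor1, QO_tor2]
  have hl : ((l⁻¹ : Fˣ) : F) * (l : F) = 1 := by
    rw [← Units.val_mul, inv_mul_cancel, Units.val_one]
  have p2 : QuadraticMap.polar ⇑(QO m F) (eO m F i - fO m F i) x =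
      x (Sum.inr (Sum.inr i)) - x (Sum.inr (Sum.inl i)) := by
    rw [QuadraticMap.polar_sub_left, polar_eO_left, polar_fO_left]
  have p1 : ∀ y : Unit ⊕ (Fin m ⊕ Fin m) → F,
      QuadraticMap.polar ⇑(QO m F) ((l : F) • eO m F i - ((l⁻¹ : Fˣ) : F) • fO m F i) y =
        (l : F) * y (Sum.inr (Sum.inr i)) - ((l⁻¹ : Fˣ) : F) * y (Sum.inr (Sum.inl i)) := by
    intro y
    rw [QuadraticMap.polar_sub_left, QuadraticMap.polar_smul_left, QuadraticMap.polar_smul_left,
      polar_eO_left, polar_fO_left, smul_eq_mul, smul_eq_mul]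
  rw [p2, p1]
  have hneg : ((-1 : F))⁻¹ = -1 := by rw [inv_neg, inv_one]
  rw [hneg]
  funext j
  rcases j with ⟨⟩ | j | j
  · simp only [Pi.add_apply, Pi.sub_apply, Pi.smul_apply, smul_eq_mul, tn_eO_zu, tn_fO_zu, mul_zero,
      sub_zero, add_zero]
  · by_cases hj : j = i
    · subst hj
      simp only [Pi.add_apply, Pi.sub_apply, Pi.smul_apply, smul_eq_mul, eO_ee, eO_ff, fO_ee,
        fO_ff, if_true, mul_zero, mul_one, sub_zero, add_zero]
      linear_combination (-(x (Sum.inr (Sum.inr j)))) * hl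
    · simp only [Pi.add_apply, Pi.sub_apply, Pi.smul_apply, smul_eq_mul, eO_ee, eO_ff, fO_ee,
        fO_ff, if_neg hj, mul_zero, sub_zero, add_zero]
  · by_cases hj : j = i
    · subst hj
      simp only [Pi.add_apply, Pi.sub_apply, Pi.smul_apply, smul_eq_mul, eO_ee, eO_ff, fO_ee,
        fO_ff, if_true, mul_zero, mul_one, sub_zero, add_zero, zero_sub, zero_add]
      linear_combination (-(x (Sum.inr (Sum.inl j)))) * hl
    · simp only [Pi.add_apply, Pi.sub_apply, Pi.smul_apply, smul_eq_mul, eO_ee, eO_ff, fO_ee,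
        fO_ff, if_neg hj, mul_zero, sub_zero, add_zero]

/-- the action of a power of the torus element -/
theorem tn_mv_tor_pow (i : Fin m) (l : Fˣ) (j : ℕ) (x : Unit ⊕ (Fin m ⊕ Fin m) → F) :
    mv ⇑(QO m F) ((tor i l) ^ j) x =
      x + ((((l : F) ^ 2) ^ j - 1) * x (Sum.inr (Sum.inl i))) • eO m F i
        + (((((l⁻¹ : Fˣ) : F) ^ 2) ^ j - 1) * x (Sum.inr (Sum.inr i))) • fO m F i := by
  induction j generalizing x with
  | zero =>
    rw [pow_zero, mv_one]
    simp
  | succ j ih =>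
    rw [pow_succ, mv_mul, ih, tn_mv_tor]
    funext k
    rcases k with ⟨⟩ | k | k
    · simp only [Pi.add_apply, Pi.smul_apply, smul_eq_mul, tn_eO_zu, tn_fO_zu, mul_zero, add_zero]
    · by_cases hk : k = i
      · subst hk
        simp only [Pi.add_apply, Pi.smul_apply, smul_eq_mul, eO_ee, eO_ff, fO_ee, fO_ff, if_true,
          mul_zero, mul_one, add_zero]
        ring
      · simp only [Pi.add_apply, Pi.smul_apply, smul_eq_mul, eO_ee, eO_ff, fO_ee, fO_ff,
          if_neg hk, mul_zero, add_zero]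
    · by_cases hk : k = i
      · subst hk
        simp only [Pi.add_apply, Pi.smul_apply, smul_eq_mul, eO_ee, eO_ff, fO_ee, fO_ff, if_true,
          mul_zero, mul_one, add_zero, zero_add]
        ring
      · simp only [Pi.add_apply, Pi.smul_apply, smul_eq_mul, eO_ee, eO_ff, fO_ee, fO_ff,
          if_neg hk, mul_zero, add_zero]

/-- TOR (second statement): the torus element has order dividing `q - 1`. -/
theorem tn_tor_pow [Fintype F] (i : Fin m) (l : Fˣ) :
    (tor (F := F) i l) ^ (Fintype.card F - 1) = 1 := by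
  apply ext_mv
  intro x
  rw [tn_mv_tor_pow, mv_one]
  have h1 : ((l : F) ^ 2) ^ (Fintype.card F - 1) = 1 := by
    rw [← pow_mul, mul_comm, pow_mul, FiniteField.pow_card_sub_one_eq_one _ l.ne_zero, one_pow]
  have h2 : ((((l⁻¹ : Fˣ) : F)) ^ 2) ^ (Fintype.card F - 1) = 1 := by
    rw [← pow_mul, mul_comm, pow_mul, FiniteField.pow_card_sub_one_eq_one _ (l⁻¹).ne_zero,
      one_pow]
  rw [h1, h2]
  simp

end Cfsg.Agent.Helper78
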