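import Cfsg.Agent.Helper15.RamGen
import Cfsg.Agent.Helper15.BergerTools
import Cfsg.Agent.Helper4.CentralSection
import Cfsg.Agent.Helper75.InnerLin
import Cfsg.Agent.Helper75.CliffordCorr
import Cfsg.Agent.Helper80.CharKer
import Cfsg.Agent.Helper81.BlockDefect
import Cfsg.Agent.Helper79.Basic

/-!
# Weights: a defect-zero character of `T / Q` (helper78)

`χ` an irreducible character of `X` with the normal `p`-subgroup `Q` in its kernel and
`ν_p(χ 1) + ν_p |Q| = ν_p |X|`.

* `weight_ker_constituent`: constituents of a restriction inherit kernel elements.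
* `weight_normal_le`: every normal `p`-subgroup of `X` lies in `Q`.
* `weight_exists`: for `C ⊴ X` a constituent `η` of `χ` on `Q C` with `Q` in its kernel and
  `ν_p |C| ≤ ν_p(η 1) + ν_p |Q ∩ C|`.
-/

set_option autoImplicit false
set_option linter.unusedSectionVars false
open Cfsg
open scoped ComplexConjugate

namespace Cfsg.Agent.Helper78

universe u

section weight

variable {X : Type u} [Group X] [Fintype X]

/-- An element in the kernel of `χ` lies in the kernel of every constituent of a restriction. -/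
theorem weight_ker_constituent (N : Subgroup X) [Fintype N] (χ : Cfsg.IrrCharacter X) (q : N)
    (hq : (χ : X → ℂ) q = (χ : X → ℂ) 1) (η : Cfsg.IrrCharacter N)
    (hη : Cfsg.classInner (fun n : N => (χ : X → ℂ) n) (η : N → ℂ) ≠ 0) :
    (η : N → ℂ) q = (η : N → ℂ) 1 := by
  classical
  have : Fintype (Cfsg.IrrCharacter N) := Fintype.ofFinite _
  have hres : Cfsg.IsCharacter N (fun n : N => (χ : X → ℂ) n) :=
    Helper79.isCharacter_restrict (Helper80.isCharacter_of_irr χ.2) N
  obtain ⟨m, hm⟩ := Helper75.exists_nat_mult hres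
  have hsum := Helper75.character_eq_sum_irr hres
  have hval : ∀ n : N, (χ : X → ℂ) n
      = ∑ ψ : Cfsg.IrrCharacter N, (m ψ : ℂ) * (ψ : N → ℂ) n := by
    intro n
    have h1 := congrFun hsum n
    rw [Finset.sum_apply] at h1
    rw [h1]
    apply Finset.sum_congr rfl
    intro ψ _
    rw [Pi.smul_apply, smul_eq_mul, hm]
  apply Helper4.constituent_eq_one_of_eq_one m q _ η
  · intro h0
    apply hη
    rw [hm, h0, Nat.cast_zero]
  · rw [← hval, ← hval]
    exact hq

/-- Every normal `p`-subgroup lies in `Q`. -/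
theorem weight_normal_le {p : ℕ} [Fact p.Prime] (χ : Cfsg.IrrCharacter X) (Q R : Subgroup X)
    [hQn : Q.Normal] [hRn : R.Normal] (hQ : IsPGroup p Q) (hR : IsPGroup p R)
    (hker : ∀ q ∈ Q, (χ : X → ℂ) q = (χ : X → ℂ) 1)
    (hdeg : (Cfsg.charDegree (χ : X → ℂ)).factorization p + (Nat.card Q).factorization p
      = (Nat.card X).factorization p) : R ≤ Q := by
  classical
  have hp : p.Prime := Fact.out
  obtain ⟨N, hN⟩ : ∃ N : Subgroup X, N = Q ⊔ R := ⟨_, rfl⟩
  have hNn : N.Normal := by rw [hN]; infer_instance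
  have hQN : Q ≤ N := by rw [hN]; exact le_sup_left
  have hRN : R ≤ N := by rw [hN]; exact le_sup_right
  have hNp : IsPGroup p N := by rw [hN]; exact IsPGroup.to_sup_of_normal_right hQ hR
  have : Fintype N := Fintype.ofFinite _
  have hres : Cfsg.IsCharacter N (fun n : N => (χ : X → ℂ) n) :=
    Helper79.isCharacter_restrict (Helper80.isCharacter_of_irr χ.2) N
  obtain ⟨lam, hlamirr, hlam⟩ := Helper75.exists_irr_constituent hres (Helper80.irr_one_ne_zero χ)
  obtain ⟨k, hk, hkd⟩ := Helper15.degree_eq_mul_of_constituent N (χ : X → ℂ) χ.2 lam hlamirr hlam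
  have hkerl : ∀ q : N, (q : X) ∈ Q → lam q = lam 1 := fun q hq =>
    weight_ker_constituent N χ q (hker q hq) ⟨lam, hlamirr⟩ hlam
  -- `lam 1 ^ 2 ≤ |N : Q|`
  have hsq : Cfsg.charDegree lam ^ 2 ≤ Q.relIndex N := by
    have : Fintype (Cfsg.IrrCharacter N) := Fintype.ofFinite _
    have h1 := Helper80.irr_sum_sq_of_le_ker (G := N) (Q.subgroupOf N)
    have h2 : (Q.subgroupOf N).index = Q.relIndex N := rfl
    rw [← h2, ← h1]
    refine Finset.single_le_sum (f := fun ψ : Cfsg.IrrCharacter N =>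
      Cfsg.charDegree (ψ : N → ℂ) ^ 2) (fun _ _ => Nat.zero_le _)
      (a := (⟨lam, hlamirr⟩ : Cfsg.IrrCharacter N)) ?_
    simp only [Finset.mem_filter, Finset.mem_univ, true_and]
    exact fun n hn => hkerl n (Subgroup.mem_subgroupOf.mp hn)
  -- cardinalities
  obtain ⟨n, hn⟩ := IsPGroup.exists_card_eq hNp
  obtain ⟨a, ha⟩ := IsPGroup.exists_card_eq hQ
  have hcard : Nat.card Q * Q.relIndex N = Nat.card N := by
    have h3 := Subgroup.relIndex_mul_relIndex (⊥ : Subgroup X) Q N bot_le hQN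
    rwa [Subgroup.relIndex_bot_left, Subgroup.relIndex_bot_left] at h3
  have hdl : Cfsg.charDegree lam ∣ Nat.card N :=
    Helper81.charDegree_dvd_card (⟨lam, hlamirr⟩ : Cfsg.IrrCharacter N)
  rw [hn] at hdl
  obtain ⟨j, -, hj⟩ := (Nat.dvd_prime_pow hp).mp hdl
  have hrel : Q.relIndex N ∣ p ^ n := by
    rw [← hn, ← hcard]
    exact dvd_mul_left _ _
  obtain ⟨m, -, hm⟩ := (Nat.dvd_prime_pow hp).mp hrel
  have hnam : n = a + m := by
    rw [ha, hn, hm, ← pow_add] at hcard
    exact (Nat.pow_right_injective hp.two_le hcard).symm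
  have h2jm : 2 * j ≤ m := by
    rw [hj, hm, ← pow_mul] at hsq
    have := (Nat.pow_le_pow_iff_right hp.one_lt).mp hsq
    omega
  -- degrees
  have hdχ : Cfsg.charDegree (χ : X → ℂ) = k * Cfsg.charDegree lam := by
    have h4 : ((Cfsg.charDegree (χ : X → ℂ) : ℕ) : ℂ) = ((k * Cfsg.charDegree lam : ℕ) : ℂ) := by
      rw [Nat.cast_mul, ← Helper80.irr_one_eq χ,
        ← Helper80.irr_one_eq (⟨lam, hlamirr⟩ : Cfsg.IrrCharacter N)]
      exact hk
    exact_mod_cast h4
  have hdpos : 0 < Cfsg.charDegree (χ : X → ℂ) := Helper81.charDegree_pos χ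
  have hk0 : k ≠ 0 := by
    rintro rfl
    rw [zero_mul] at hdχ
    omega
  have hidx0 : N.index ≠ 0 := Subgroup.index_ne_zero_of_finite
  have hfk : k.factorization p ≤ N.index.factorization p :=
    (Nat.factorization_le_iff_dvd hk0 hidx0).mpr hkd p
  have hfχ : (Cfsg.charDegree (χ : X → ℂ)).factorization p = k.factorization p + j := by
    rw [hdχ, hj, Nat.factorization_mul hk0 (pow_pos hp.pos j).ne', Finsupp.add_apply,
      hp.factorization_pow, Finsupp.single_eq_same]
  have hfX : (Nat.card X).factorization p = n + N.index.factorization p := by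
    rw [← Subgroup.card_mul_index N, Nat.factorization_mul Nat.card_pos.ne' hidx0,
      Finsupp.add_apply, hn, hp.factorization_pow, Finsupp.single_eq_same]
  have hfQ : (Nat.card Q).factorization p = a := by
    rw [ha, hp.factorization_pow, Finsupp.single_eq_same]
  have hm0 : m = 0 := by omega
  have hle : Nat.card N ≤ Nat.card Q := by
    rw [hn, ha, hnam, hm0, add_zero]
  have hNQ : Q = N := Subgroup.eq_of_le_of_card_ge hQN hle
  rw [hNQ]
  exact hRN

/-- A constituent of `χ` on `Q C` with `Q` in its kernel and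
`ν_p |C| ≤ ν_p(η 1) + ν_p |Q ∩ C|`. -/
theorem weight_exists {p : ℕ} [Fact p.Prime] (χ : Cfsg.IrrCharacter X) (Q C : Subgroup X)
    [hQn : Q.Normal] [hCn : C.Normal] [Fintype ↥(Q ⊔ C)]
    (hker : ∀ q ∈ Q, (χ : X → ℂ) q = (χ : X → ℂ) 1)
    (hdeg : (Cfsg.charDegree (χ : X → ℂ)).factorization p + (Nat.card Q).factorization p
      = (Nat.card X).factorization p) :
    ∃ η : Cfsg.IrrCharacter ↥(Q ⊔ C),
      Cfsg.classInner (fun n : ↥(Q ⊔ C) => (χ : X → ℂ) n) (η : ↥(Q ⊔ C) → ℂ) ≠ 0 ∧
      (∀ q : ↥(Q ⊔ C), (q : X) ∈ Q → (η : ↥(Q ⊔ C) → ℂ) q = (η : ↥(Q ⊔ C) → ℂ) 1) ∧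
      (Nat.card C).factorization p
        ≤ (Cfsg.charDegree (η : ↥(Q ⊔ C) → ℂ)).factorization p
          + (Nat.card ↥(Q ⊓ C)).factorization p := by
  classical
  have hp : p.Prime := Fact.out
  have hNn : (Q ⊔ C).Normal := inferInstance
  have hQN : Q ≤ Q ⊔ C := le_sup_left
  have hres : Cfsg.IsCharacter ↥(Q ⊔ C) (fun n : ↥(Q ⊔ C) => (χ : X → ℂ) n) :=
    Helper79.isCharacter_restrict (Helper80.isCharacter_of_irr χ.2) (Q ⊔ C)
  obtain ⟨η, hηirr, hη⟩ := Helper75.exists_irr_constituent hres (Helper80.irr_one_ne_zero χ)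
  obtain ⟨k, hk, hkd⟩ := Helper15.degree_eq_mul_of_constituent (Q ⊔ C) (χ : X → ℂ) χ.2 η hηirr hη
  refine ⟨⟨η, hηirr⟩, hη, fun q hq => weight_ker_constituent (Q ⊔ C) χ q (hker q hq) ⟨η, hηirr⟩ hη,
    ?_⟩
  have hcardN : Nat.card Q * Q.relIndex C = Nat.card ↥(Q ⊔ C) := by
    have h3 := Subgroup.relIndex_mul_relIndex (⊥ : Subgroup X) Q (Q ⊔ C) bot_le hQN
    rwa [Subgroup.relIndex_bot_left, Subgroup.relIndex_bot_left, Subgroup.relIndex_sup_left] at h3
  have hcardC : Nat.card ↥(Q ⊓ C) * Q.relIndex C = Nat.card C := by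
    have h3 := Subgroup.relIndex_mul_relIndex (⊥ : Subgroup X) (Q ⊓ C) C bot_le inf_le_right
    rwa [Subgroup.relIndex_bot_left, Subgroup.relIndex_bot_left, Subgroup.inf_relIndex_right] at h3
  have hrel0 : Q.relIndex C ≠ 0 := by
    intro h0
    rw [h0, mul_zero] at hcardC
    exact Nat.card_pos.ne' hcardC.symm
  have hdχ : Cfsg.charDegree (χ : X → ℂ) = k * Cfsg.charDegree η := by
    have h4 : ((Cfsg.charDegree (χ : X → ℂ) : ℕ) : ℂ) = ((k * Cfsg.charDegree η : ℕ) : ℂ) := by
      rw [Nat.cast_mul, ← Helper80.irr_one_eq χ,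
        ← Helper80.irr_one_eq (⟨η, hηirr⟩ : Cfsg.IrrCharacter ↥(Q ⊔ C))]
      exact hk
    exact_mod_cast h4
  have hdpos : 0 < Cfsg.charDegree (χ : X → ℂ) := Helper81.charDegree_pos χ
  have hηpos : 0 < Cfsg.charDegree η :=
    Helper81.charDegree_pos (⟨η, hηirr⟩ : Cfsg.IrrCharacter ↥(Q ⊔ C))
  have hk0 : k ≠ 0 := by
    rintro rfl
    rw [zero_mul] at hdχ
    omega
  have hidx0 : (Q ⊔ C).index ≠ 0 := Subgroup.index_ne_zero_of_finite
  have hfk : k.factorization p ≤ (Q ⊔ C).index.factorization p :=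
    (Nat.factorization_le_iff_dvd hk0 hidx0).mpr hkd p
  have hfχ : (Cfsg.charDegree (χ : X → ℂ)).factorization p
      = k.factorization p + (Cfsg.charDegree η).factorization p := by
    rw [hdχ, Nat.factorization_mul hk0 hηpos.ne', Finsupp.add_apply]
  have hfX : (Nat.card X).factorization p = (Nat.card Q).factorization p
      + (Q.relIndex C).factorization p + (Q ⊔ C).index.factorization p := by
    rw [← Subgroup.card_mul_index (Q ⊔ C), Nat.factorization_mul Nat.card_pos.ne' hidx0,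
      Finsupp.add_apply, ← hcardN, Nat.factorization_mul Nat.card_pos.ne' hrel0,
      Finsupp.add_apply]
  have hfC : (Nat.card C).factorization p = (Nat.card ↥(Q ⊓ C)).factorization p
      + (Q.relIndex C).factorization p := by
    rw [← hcardC, Nat.factorization_mul Nat.card_pos.ne' hrel0, Finsupp.add_apply]
  show (Nat.card C).factorization p ≤ (Cfsg.charDegree η).factorization p
          + (Nat.card ↥(Q ⊓ C)).factorization p
  omega

end weight

end Cfsg.Agent.Helper78
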