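import Cfsg.Agent.Helper78.Weight
import Cfsg.Agent.Helper76.Cover
import Cfsg.Agent.Helper77.BlockIdem
import Cfsg.Agent.Helper73.CentralDefect
import Cfsg.Agent.Helper79.Quotient
import Cfsg.Prelude.Def_BrauerPairs

/-!
# Weights of Brauer pairs (helper78)

`weight_core`: `Q` a `p`-subgroup, `C` a subgroup centralized by `Q`, both normal in `T`, `e` a
block of `C`, `F'` a set of characters of `T` with the idempotent of `e`, `χ ∈ F'` with `Q` in its
kernel and `ν_p(χ 1) + ν_p |Q| = ν_p |T|`.  Then `Q ∩ C` is a defect group of `e` and every normal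
`p`-subgroup of `T` lies in `Q`.
-/

set_option autoImplicit false
set_option linter.unusedSectionVars false
open Cfsg
open scoped ComplexConjugate

namespace Cfsg.Agent.Helper78

universe u

section weight2

variable {G : Type u} [Group G] [Fintype G] {p : ℕ} [Fact p.Prime] {M : Ideal Cfsg.AlgInt}

theorem weight_core (hM : Cfsg.IsPModular p M) (Q C T : Subgroup G) (hQp : IsPGroup p Q)
    (hQT : Q ≤ T) (hCT : C ≤ T) (hTQ : T ≤ Subgroup.normalizer (Q : Set G))
    (hTC : T ≤ Subgroup.normalizer (C : Set G))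
    (hcomm : ∀ q ∈ Q, ∀ c ∈ C, q * c = c * q)
    (e : Set (Cfsg.IrrCharacter C)) (he : Cfsg.IsPBlock M e)
    (F' : Set (Cfsg.IrrCharacter T))
    (hF'e : ∀ t : T, Cfsg.blockCoeff F' t = Cfsg.subgroupBlockCoeff C e (t : G))
    (χ : Cfsg.IrrCharacter T) (hχ : χ ∈ F')
    (hχQ : ∀ q : G, q ∈ Q → ∀ t : T, ∀ t' : T, (t' : G) = q * (t : G) →
      (χ : T → ℂ) t' = (χ : T → ℂ) t)
    (hdeg : (Cfsg.charDegree (χ : T → ℂ)).factorization p + (Nat.card Q).factorization p
      = (Nat.card T).factorization p) :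
    Cfsg.IsDefectGroup p M e ((Q ⊓ C).subgroupOf C) ∧
    ∀ R : Subgroup G, R ≤ T → IsPGroup p R →
      (∀ t ∈ T, t ∈ Subgroup.normalizer (R : Set G)) → R ≤ Q := by
  classical
  have hMm := hM.2.1
  have hp : p.Prime := Fact.out
  have : Fintype T := Fintype.ofFinite _
  have : Fintype C := Fintype.ofFinite _
  have hQXn : (Q.subgroupOf T).Normal := (Subgroup.normal_subgroupOf_iff_le_normalizer hQT).mpr hTQ
  have hCXn : (C.subgroupOf T).Normal := (Subgroup.normal_subgroupOf_iff_le_normalizer hCT).mpr hTC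
  have hQXp : IsPGroup p (Q.subgroupOf T) := hQp.comap_subtype
  have hkerX : ∀ q ∈ Q.subgroupOf T, (χ : T → ℂ) q = (χ : T → ℂ) 1 := by
    intro q hq
    exact hχQ (q : G) (Subgroup.mem_subgroupOf.mp hq) 1 q (by simp)
  have hcardQ : Nat.card (Q.subgroupOf T) = Nat.card Q :=
    Nat.card_congr (Subgroup.subgroupOfEquivOfLe hQT).toEquiv
  have hcardC : Nat.card (C.subgroupOf T) = Nat.card C :=
    Nat.card_congr (Subgroup.subgroupOfEquivOfLe hCT).toEquiv
  have hdegX : (Cfsg.charDegree (χ : T → ℂ)).factorization p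
      + (Nat.card (Q.subgroupOf T)).factorization p = (Nat.card T).factorization p := by
    rw [hcardQ]
    exact hdeg
  refine ⟨?_, ?_⟩
  · -- the defect group
    have : Fintype ↥(Q.subgroupOf T ⊔ C.subgroupOf T) := Fintype.ofFinite _
    obtain ⟨η, hη, hηker, hηdeg⟩ :=
      weight_exists χ (Q.subgroupOf T) (C.subgroupOf T) hkerX hdegX
    obtain ⟨f, hf⟩ : ∃ f : ↥C →* ↥(Q.subgroupOf T ⊔ C.subgroupOf T),
        ∀ c : C, (((f c : ↥(Q.subgroupOf T ⊔ C.subgroupOf T)) : T) : G) = (c : G) :=
      ⟨{ toFun := fun c => ⟨⟨c, hCT c.2⟩, Subgroup.mem_sup_right (Subgroup.mem_subgroupOf.mpr c.2)⟩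
         map_one' := rfl
         map_mul' := fun _ _ => rfl }, fun c => rfl⟩
    have hfinj : Function.Injective f := by
      intro c c' h
      apply Subtype.ext
      rw [← hf c, ← hf c', h]
    have hf1 : f 1 = 1 := map_one f
    have hθirr : Cfsg.IsIrrCharacter C
        (fun c : C => (η : ↥(Q.subgroupOf T ⊔ C.subgroupOf T) → ℂ) (f c)) := by
      apply Helper15.isIrr_comp_of_ker_mul f η.2
      intro g
      obtain ⟨q, hq, c, hc, hqc⟩ := Subgroup.mem_sup_of_normal_right.mp g.2
      refine ⟨⟨q, Subgroup.mem_sup_left hq⟩, hηker _ hq, ⟨(c : G), Subgroup.mem_subgroupOf.mp hc⟩, ?_⟩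
      apply Subtype.ext
      apply Subtype.ext
      rw [← hqc]
      push_cast
      rw [hf]
    obtain ⟨θ, hθ⟩ : ∃ θ : Cfsg.IrrCharacter C, ∀ c : C,
        (θ : C → ℂ) c = (η : ↥(Q.subgroupOf T ⊔ C.subgroupOf T) → ℂ) (f c) :=
      ⟨⟨_, hθirr⟩, fun c => rfl⟩
    have hθ1 : (θ : C → ℂ) 1 = (η : ↥(Q.subgroupOf T ⊔ C.subgroupOf T) → ℂ) 1 := by
      rw [hθ, hf1]
    -- `θ ∈ e`
    have hθe : θ ∈ e := by
      by_contra hne
      have ha : Cfsg.IsClassFunction T (Cfsg.blockCoeff F') := Helper77.blockCoeff_isClassFunction F'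
      have hsuppC : ∀ t : T, (t : G) ∉ C → Cfsg.blockCoeff F' t = 0 := by
        intro t ht
        rw [hF'e]
        unfold Cfsg.subgroupBlockCoeff
        rw [dif_neg ht]
      have hsupp : ∀ t : T, t ∉ Q.subgroupOf T ⊔ C.subgroupOf T → Cfsg.blockCoeff F' t = 0 := by
        intro t ht
        apply hsuppC
        intro htC
        exact ht (Subgroup.mem_sup_right (Subgroup.mem_subgroupOf.mpr htC))
      have h1 := Helper76.omega_eq_omega_res_of_constituent (Q.subgroupOf T ⊔ C.subgroupOf T)
        ha hsupp χ η hη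
      rw [Helper77.omega_blockCoeff_of_mem hχ] at h1
      have h3 : Helper81.omega (η : ↥(Q.subgroupOf T ⊔ C.subgroupOf T) → ℂ)
          (fun n : ↥(Q.subgroupOf T ⊔ C.subgroupOf T) => Cfsg.blockCoeff F' n)
          = Helper81.omega (θ : C → ℂ) (Cfsg.blockCoeff e) := by
        unfold Helper81.omega
        rw [hθ1]
        congr 1
        symm
        apply Fintype.sum_of_injective f hfinj
        · intro n hn
          have hnC : ((n : T) : G) ∉ C := by
            intro h
            apply hn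
            refine ⟨⟨_, h⟩, ?_⟩
            apply Subtype.ext
            apply Subtype.ext
            rw [hf]
          beta_reduce
          rw [hsuppC _ hnC, zero_mul]
        · intro c
          beta_reduce
          rw [hθ, hF'e]
          unfold Cfsg.subgroupBlockCoeff
          have hc : (((f c : ↥(Q.subgroupOf T ⊔ C.subgroupOf T)) : T) : G) ∈ C := by
            rw [hf]
            exact c.2
          rw [dif_pos hc]
          congr 2
          apply Subtype.ext
          rw [hf]
      rw [h3, Helper77.omega_blockCoeff_of_not_mem hne] at h1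
      exact one_ne_zero h1
    -- degrees
    have hdθ : Cfsg.charDegree (θ : C → ℂ)
        = Cfsg.charDegree (η : ↥(Q.subgroupOf T ⊔ C.subgroupOf T) → ℂ) := by
      unfold Cfsg.charDegree
      rw [hθ1]
    have hD : IsPGroup p ((Q ⊓ C).subgroupOf C) := (hQp.to_le inf_le_left).comap_subtype
    have hDZ : (Q ⊓ C).subgroupOf C ≤ Subgroup.center C := by
      intro z hz
      rw [Subgroup.mem_center_iff]
      intro c
      apply Subtype.ext
      have h1 := hcomm (z : G) (Subgroup.mem_subgroupOf.mp hz).1 (c : G) c.2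
      push_cast
      exact h1.symm
    have hcardD : Nat.card ((Q ⊓ C).subgroupOf C) = Nat.card ↥(Q ⊓ C) :=
      Nat.card_congr (Subgroup.subgroupOfEquivOfLe inf_le_right).toEquiv
    have hcardX : Nat.card ↥(Q.subgroupOf T ⊓ C.subgroupOf T) = Nat.card ↥(Q ⊓ C) := by
      have h1 : Q.subgroupOf T ⊓ C.subgroupOf T = (Q ⊓ C).subgroupOf T := rfl
      rw [h1]
      exact Nat.card_congr (Subgroup.subgroupOfEquivOfLe (inf_le_right.trans hCT)).toEquiv
    rw [hcardX, hcardC, ← hdθ] at hηdeg
    -- upper bound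
    have hker := Helper80.irr_degree_mul_card_ker_dvd θ
    have hDker : (Q ⊓ C).subgroupOf C ≤ Helper79.charKer (Helper80.isCharacter_of_irr θ.2) := by
      intro z hz
      rw [Helper79.mem_charKer, hθ, hθ1]
      apply hηker
      rw [Subgroup.mem_subgroupOf, hf]
      exact (Subgroup.mem_subgroupOf.mp hz).1
    have hdvd1 : Nat.card ((Q ⊓ C).subgroupOf C)
        ∣ Nat.card {g : C // (θ : C → ℂ) g = (θ : C → ℂ) 1} := by
      rw [← Helper79.card_charKer (Helper80.isCharacter_of_irr θ.2)]
      exact Subgroup.card_dvd_of_le hDker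
    have hdvd2 : Cfsg.charDegree (θ : C → ℂ) * Nat.card ((Q ⊓ C).subgroupOf C) ∣ Nat.card C :=
      (Nat.mul_dvd_mul_left _ hdvd1).trans hker
    have hθpos : 0 < Cfsg.charDegree (θ : C → ℂ) := Helper81.charDegree_pos θ
    have hle : (Cfsg.charDegree (θ : C → ℂ)).factorization p
        + (Nat.card ((Q ⊓ C).subgroupOf C)).factorization p ≤ (Nat.card C).factorization p := by
      have h1 := (Nat.factorization_le_iff_dvd (Nat.mul_pos hθpos Nat.card_pos).ne'
        Nat.card_pos.ne').mpr hdvd2 p
      rwa [Nat.factorization_mul hθpos.ne' Nat.card_pos.ne', Finsupp.add_apply] at h1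
    have hidx0 : ((Q ⊓ C).subgroupOf C).index ≠ 0 := Subgroup.index_ne_zero_of_finite
    have hfC : (Nat.card C).factorization p = (Nat.card ((Q ⊓ C).subgroupOf C)).factorization p
        + ((Q ⊓ C).subgroupOf C).index.factorization p := by
      rw [← Subgroup.card_mul_index ((Q ⊓ C).subgroupOf C),
        Nat.factorization_mul Nat.card_pos.ne' hidx0, Finsupp.add_apply]
    have hdeg' : (Cfsg.charDegree (θ : C → ℂ)).factorization p
        = ((Q ⊓ C).subgroupOf C).index.factorization p := by
      rw [hcardD] at hle hfC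
      omega
    have hres := Helper73.central_defect_group hM ((Q ⊓ C).subgroupOf C) hD hDZ θ hdeg'
    rw [← Helper16.eq_blockOf_of_mem hMm he hθe] at hres
    exact hres
  · intro R hRT hRp hRn
    have hRXn : (R.subgroupOf T).Normal :=
      (Subgroup.normal_subgroupOf_iff_le_normalizer hRT).mpr (fun t ht => hRn t ht)
    have hRXp : IsPGroup p (R.subgroupOf T) := hRp.comap_subtype
    have h1 := weight_normal_le χ (Q.subgroupOf T) (R.subgroupOf T) hQXp hRXp hkerX hdegX
    intro r hr
    have h2 : (⟨r, hRT hr⟩ : T) ∈ R.subgroupOf T := Subgroup.mem_subgroupOf.mpr hr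
    exact Subgroup.mem_subgroupOf.mp (h1 h2)

end weight2

end Cfsg.Agent.Helper78
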